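import Mathlib
import Cfsg.Agent.H76.BG1213

set_option autoImplicit false

/-!
# Bender–Glauberman Corollary 12.16 (S1425): the statement and its pieces as `Prop`s (helper47)

Every nontrivial `σ(M)`-subgroup of `G` is conjugate to a subgroup of `M_σ`.
-/

namespace Cfsg.Agent.H47.BG12

open Cfsg Subgroup Cfsg.Agent.H58.BG10 Cfsg.Agent.H57.BG12 Cfsg.Agent.H76.BG12
open scoped Pointwise

universe u

/-- S1425 (B&G Corollary 12.16). -/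
def St1425 (G : Type u) [Group G] : Prop :=
  ∀ (M : Subgroup G), IsCoatom M → ∀ Y : Subgroup G, Y ≠ ⊥ →
    (∀ p : ℕ, p.Prime → p ∣ Nat.card Y → p ∈ sigma M) →
    ∃ g : G, Y.map (MulAut.conj g).toMonoidHom ≤ sigmaCore M

/-- Frattini with the `α`-core: if a Sylow `q`-subgroup `S` of `M` lies in `M'`, then
`M = M_α · N_M(S)` (because `M'/M_α` is nilpotent). -/
def StAlphaFrat (G : Type u) [Group G] : Prop :=
  ∀ (M : Subgroup G), IsCoatom M → ∀ (q : ℕ) [Fact q.Prime] (S : Subgroup G),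
    IsPGroup q S → S ≤ M → ¬ q ∣ S.relIndex M → S ≤ ⁅M, M⁆ →
    ∀ m ∈ M, ∃ a ∈ alphaCore M, ∃ n ∈ M ⊓ normalizer (S : Set G), m = a * n

/-- `α(M*) ∩ σ(M) = ∅` for non-conjugate maximal subgroups `M`, `M*`. -/
def StAlphaSigma (G : Type u) [Group G] : Prop :=
  ∀ (M Ms : Subgroup G), IsCoatom M → IsCoatom Ms →
    (∀ g : G, Ms ≠ M.map (MulAut.conj g).toMonoidHom) →
    ∀ r : ℕ, r ∈ alpha Ms → r ∉ sigma M

/-- Case (d) of B&G 12.15/12.16: `q ∈ σ(M*)`. -/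
def StEmbD (G : Type u) [Group G] : Prop :=
  ∀ (M Ms : Subgroup G), IsCoatom M → IsCoatom Ms →
    (∀ g : G, Ms ≠ M.map (MulAut.conj g).toMonoidHom) →
    ∀ (q : ℕ) [Fact q.Prime], q ∈ sigma Ms →
    ∀ S : Subgroup G, IsPGroup q S → S ≤ Ms → ¬ q ∣ S.relIndex Ms →
      normalizer (S : Set G) ≤ M →
    ∀ Y : Subgroup G, Y ≤ Ms → (∀ p : ℕ, p.Prime → p ∣ Nat.card Y → p ∈ sigma M) →
      ∃ g ∈ Ms, MulAut.conj g • Y ≤ M

/-- Case (e) of B&G 12.15/12.16: `q ∉ σ(M*)`. -/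
def StEmbE (G : Type u) [Group G] : Prop :=
  ∀ (M Ms : Subgroup G), IsCoatom M → IsCoatom Ms →
    (∀ g : G, Ms ≠ M.map (MulAut.conj g).toMonoidHom) →
    ∀ (q : ℕ) [Fact q.Prime], q ∈ sigma M → q ∉ sigma Ms →
    ∀ X : Subgroup G, X ≠ ⊥ → normalizer (X : Set G) ≤ Ms →
    ∀ S : Subgroup G, IsPGroup q S → X ≤ S → S ≤ M → S ≤ Ms → ¬ q ∣ S.relIndex Ms →
    ∀ Y : Subgroup G, Y ≤ Ms → (∀ p : ℕ, p.Prime → p ∣ Nat.card Y → p ∈ sigma M) →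
      ∃ g ∈ Ms, MulAut.conj g • Y ≤ M

end Cfsg.Agent.H47.BG12
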