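import Mathlib
import Cfsg.Agent.H47.BG1216Defs

set_option autoImplicit false

/-!
# B&G 12.15/12.16 (S1425) and 12.18 (S1427): the shared pieces as `Prop`s (helper47)
-/

namespace Cfsg.Agent.H47.BG12

open Cfsg Subgroup Cfsg.Agent.H58.BG10 Cfsg.Agent.H57.BG12 Cfsg.Agent.H76.BG12
open scoped Pointwise

universe u

/-- (d1): if `q ∈ σ(M*)`, `S` is a Sylow `q`-subgroup of `M*` and `N_G(S) ≤ M`, then
`M* = M*_α · (M ∩ M*)`. -/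
def StEmbD1 (G : Type u) [Group G] : Prop :=
  ∀ (M Ms : Subgroup G), IsCoatom Ms → ∀ (q : ℕ) [Fact q.Prime], q ∈ sigma Ms →
    ∀ S : Subgroup G, IsPGroup q S → S ≤ Ms → ¬ q ∣ S.relIndex Ms →
      normalizer (S : Set G) ≤ M →
    ∀ m ∈ Ms, ∃ a ∈ alphaCore Ms, ∃ n ∈ M ⊓ Ms, m = a * n

/-- Hall: if `M* = M*_α · T` with `T ≤ M*`, every `α(M*)'`-subgroup of `M*` is `M*`-conjugate
into `T`. -/
def StHallAlpha (G : Type u) [Group G] : Prop :=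
  ∀ (Ms : Subgroup G), IsCoatom Ms → ∀ T : Subgroup G, T ≤ Ms →
    (∀ m ∈ Ms, ∃ a ∈ alphaCore Ms, ∃ n ∈ T, m = a * n) →
    ∀ Y : Subgroup G, Y ≤ Ms → (∀ p : ℕ, p.Prime → p ∣ Nat.card Y → p ∉ alpha Ms) →
      ∃ g ∈ Ms, MulAut.conj g • Y ≤ T

/-- (e1): if `q ∈ σ(M)`, `q ∉ σ(M*)`, `N_G(X) ≤ M*` for a nontrivial `X ≤ S`, `S ≤ M ∩ M*` a
Sylow `q`-subgroup of `M*`, then `M*_σ` is nilpotent, `M*_σ ∩ M = 1` and `M ∩ M*` is a complement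
of `M*_σ` in `M*`. -/
def StEmbE1 (G : Type u) [Group G] : Prop :=
  ∀ (M Ms : Subgroup G), IsCoatom M → IsCoatom Ms → Ms ≠ M →
    ∀ (q : ℕ) [Fact q.Prime], q ∈ sigma M → q ∉ sigma Ms →
    ∀ X : Subgroup G, X ≠ ⊥ → normalizer (X : Set G) ≤ Ms →
    ∀ S : Subgroup G, IsPGroup q S → X ≤ S → S ≤ M → S ≤ Ms → ¬ q ∣ S.relIndex Ms →
      Group.IsNilpotent (sigmaCore Ms) ∧ sigmaCore Ms ⊓ M = ⊥ ∧
        IsComplIn (M ⊓ Ms) (sigmaCore Ms) Ms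

/-- If `M*_σ` is nilpotent and `σ(M) ∩ σ(M*) ≠ ∅`, then `M*` is conjugate to `M`. -/
def StSigDisj (G : Type u) [Group G] : Prop :=
  ∀ (M Ms : Subgroup G), IsCoatom M → IsCoatom Ms → Group.IsNilpotent (sigmaCore Ms) →
    ∀ r : ℕ, r ∈ sigma M → r ∈ sigma Ms → ∃ g : G, Ms = MulAut.conj g • M

end Cfsg.Agent.H47.BG12
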