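import Mathlib
import Cfsg.Agent.H47.BG1216Defs2
import Cfsg.Agent.H92.BG12Uniq
import Cfsg.Agent.H76.SolvableNormal

set_option autoImplicit false

/-!
# Bender–Glauberman Corollary 12.16 (S1425): assembly from the pieces (helper47)
-/

namespace Cfsg.Agent.H47.BG12

open Cfsg Subgroup Cfsg.Agent.H58.BG10 Cfsg.Agent.H57.BG12 Cfsg.Agent.H76.BG12 Cfsg.Agent.H63.Sig
open scoped Pointwise

universe u

variable {G : Type u} [Group G] [Finite G]

theorem mem_of_index_coprime_order {V : Type*} [Group V] (K : Subgroup V) [K.Normal] (x : V)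
    (hx : (K.index).Coprime (orderOf x)) : x ∈ K := by
  obtain ⟨m, hm⟩ := exists_pow_eq_self_of_coprime hx
  rw [← hm]
  exact pow_mem (Subgroup.pow_index_mem K x) m

/-- A `σ(M)`-subgroup of `M` lies in `M_σ`. -/
theorem le_sigmaCore_of_pi (h50 : St1350 G) {M : Subgroup G} (hM : IsCoatom M) {Y : Subgroup G}
    (hYM : Y ≤ M) (hY : ∀ p : ℕ, p.Prime → p ∣ Nat.card Y → p ∈ sigma M) :
    Y ≤ sigmaCore M := by
  obtain ⟨⟨-, -, hidx⟩, -, -⟩ := h50 M hM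
  intro y hy
  have hcop : ((piCore (sigma M) ↥M).index).Coprime (orderOf (⟨y, hYM hy⟩ : M)) := by
    apply Nat.coprime_of_dvd
    intro p hp hp1 hp2
    have hpo : p ∣ orderOf y := by rwa [Subgroup.orderOf_mk] at hp2
    have hpY : p ∣ Nat.card Y := hpo.trans (by
      have := orderOf_dvd_natCard (⟨y, hy⟩ : Y)
      rwa [Subgroup.orderOf_mk] at this)
    have h1 := hidx p hp (hY p hp hpY)
    rw [show sigmaCore M = (piCore (sigma M) ↥M).map M.subtype from rfl,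
      Cfsg.Agent.H76.BG10.relIndex_map_subtype'] at h1
    exact h1 hp1
  have h2 := mem_of_index_coprime_order (piCore (sigma M) ↥M) (⟨y, hYM hy⟩ : M) hcop
  exact Subgroup.mem_map.mpr ⟨_, h2, rfl⟩

/-- **S1425** (B&G Corollary 12.16) from the pieces. -/
theorem bg1216main (hG : IsMinSimpleOddOrder G) (h50 : St1350 G) (h03 : St1403 G)
    (h24 : St1424 G) (hD1 : StEmbD1 G) (hHA : StHallAlpha G) (hE1 : StEmbE1 G)
    (hSD : StSigDisj G) (hSC : StSigConj G) : St1425 G := by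
  intro M hM Y hY1 hY
  suffices h : ∃ g : G, MulAut.conj g • Y ≤ M by
    obtain ⟨g, hg⟩ := h
    refine ⟨g, ?_⟩
    rw [map_conj_eq_smul]
    apply le_sigmaCore_of_pi h50 hM hg
    intro p hp hpd
    rw [card_cj] at hpd
    exact hY p hp hpd
  -- `Y` is a proper subgroup
  have hYtop : Y ≠ ⊤ := by
    intro h
    obtain ⟨⟨hle, -, -⟩, ⟨-, hidx⟩, -⟩ := h50 M hM
    have h1 : (sigmaCore M).index = 1 := by
      by_contra hne
      obtain ⟨p, hp, hpd⟩ := Nat.exists_prime_and_dvd hne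
      have hpG : p ∣ Nat.card G := hpd.trans (Subgroup.index_dvd_card _)
      have hpY : p ∣ Nat.card Y := by rw [h, Subgroup.card_top]; exact hpG
      exact hidx p hp (hY p hp hpY) hpd
    have h2 : sigmaCore M = ⊤ := Subgroup.index_eq_one.mp h1
    exact hM.1 (top_le_iff.mp (h2 ▸ hle))
  have hsolv : Group.IsSolvable Y := hG.2.2.2 Y hYtop
  haveI : Nontrivial Y := (Subgroup.nontrivial_iff_ne_bot Y).mpr hY1
  obtain ⟨q, K, hq, hKn, hK1, hKq⟩ :=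
    Cfsg.Agent.H76.exists_normal_pGroup_of_solvable (G := Y) hsolv
  haveI : Fact q.Prime := ⟨hq⟩
  obtain ⟨X₀, hX₀⟩ : ∃ X₀ : Subgroup G, X₀ = K.map Y.subtype := ⟨_, rfl⟩
  have hX₀Y : X₀ ≤ Y := by rw [hX₀]; exact Subgroup.map_subtype_le _
  have hX₀q : IsPGroup q X₀ := by rw [hX₀]; exact hKq.map _
  have hX₀1 : X₀ ≠ ⊥ := by
    intro h
    apply hK1
    rw [hX₀] at h
    exact (Subgroup.map_eq_bot_iff_of_injective K Y.subtype_injective).mp h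
  have hYN : Y ≤ normalizer (X₀ : Set G) := by
    intro y hy
    rw [Subgroup.mem_normalizer_iff, hX₀]
    intro x
    constructor
    · rintro ⟨k, hk, rfl⟩
      exact ⟨⟨y, hy⟩ * k * ⟨y, hy⟩⁻¹, hKn.conj_mem k hk ⟨y, hy⟩, rfl⟩
    · rintro ⟨k, hk, hkx⟩
      have h1 : (⟨y, hy⟩ : Y)⁻¹ * k * ⟨y, hy⟩ ∈ K := by
        have := hKn.conj_mem k hk (⟨y, hy⟩ : Y)⁻¹
        simpa using this
      refine ⟨(⟨y, hy⟩ : Y)⁻¹ * k * ⟨y, hy⟩, h1, ?_⟩
      have hkx' : (k : G) = y * x * y⁻¹ := hkx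
      show y⁻¹ * (k : G) * y = x
      rw [hkx']
      group
  have hqY : q ∣ Nat.card Y := by
    have h1 : q ∣ Nat.card X₀ := by
      obtain ⟨n, hn⟩ := IsPGroup.iff_card.mp hX₀q
      have hn0 : n ≠ 0 := by
        rintro rfl
        rw [pow_zero] at hn
        exact hX₀1 (Subgroup.card_eq_one.mp hn)
      rw [hn]
      exact dvd_pow_self q hn0
    exact h1.trans (Subgroup.card_dvd_of_le hX₀Y)
  have hqs : q ∈ sigma M := hY q hq hqY
  obtain ⟨Q, hQM⟩ : ∃ Q : Sylow q G, (Q : Subgroup G) ≤ M := by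
    obtain ⟨_, _, P0, hN⟩ := hqs
    obtain ⟨T0, hT0⟩ := Cfsg.Agent.H31.BG8.sylow_of_normalizer_le P0 hN
    exact ⟨T0, by rw [hT0]; exact Subgroup.map_subtype_le _⟩
  obtain ⟨g₀, hg₀⟩ := exists_conj_ge Q hQM hX₀q
  obtain ⟨X, hX⟩ : ∃ X : Subgroup G, X = MulAut.conj g₀⁻¹ • X₀ := ⟨_, rfl⟩
  obtain ⟨Y₁, hY₁⟩ : ∃ Y₁ : Subgroup G, Y₁ = MulAut.conj g₀⁻¹ • Y := ⟨_, rfl⟩
  have hXM : X ≤ M := by
    have := cj_mono g₀⁻¹ hg₀
    rwa [cj_inv_cj, ← hX] at this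
  have hXq : IsPGroup q X := by rw [hX]; exact isPGroup_cj g₀⁻¹ hX₀q
  have hX1 : X ≠ ⊥ := by
    intro h
    apply hX₀1
    have h1 : Nat.card X = 1 := by rw [h]; exact Subgroup.card_bot
    rw [hX, card_cj] at h1
    exact Subgroup.card_eq_one.mp h1
  have hY₁N : Y₁ ≤ normalizer (X : Set G) := by
    rw [hX, hY₁, Cfsg.Agent.H92.BG12.normalizer_cj]
    exact cj_mono g₀⁻¹ hYN
  suffices h : ∃ g : G, MulAut.conj g • Y₁ ≤ M by
    obtain ⟨g, hg⟩ := h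
    exact ⟨g * g₀⁻¹, by rw [cj_mul, ← hY₁]; exact hg⟩
  have hY₁pi : ∀ p : ℕ, p.Prime → p ∣ Nat.card Y₁ → p ∈ sigma M := by
    intro p hp hpd
    rw [hY₁, card_cj] at hpd
    exact hY p hp hpd
  have hXtop : X ≠ ⊤ := fun h => hM.1 (top_le_iff.mp (h ▸ hXM))
  have hNtop := Cfsg.Agent.Lib.Helper30.minSimple_normalizer_ne_top hG hX1 hXtop
  obtain ⟨Ms, hMs, hNMs⟩ := (eq_top_or_exists_le_coatom _).resolve_left hNtop
  have hY₁Ms : Y₁ ≤ Ms := hY₁N.trans hNMs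
  by_cases hMsM : Ms = M
  · exact ⟨1, by rw [cj_one]; exact hMsM ▸ hY₁Ms⟩
  have hXMs : X ≤ Ms := Subgroup.le_normalizer.trans hNMs
  have hXle : X ≤ M ⊓ Ms := le_inf hXM hXMs
  obtain ⟨S, hS⟩ := (hXq.comap_of_injective (M ⊓ Ms).subtype
    (Subgroup.subtype_injective _)).exists_le_sylow
  have hXS : X ≤ (S : Subgroup ↥(M ⊓ Ms)).map (M ⊓ Ms).subtype := by
    intro x hx
    exact ⟨⟨x, hXle hx⟩, hS (by rw [Subgroup.mem_comap]; exact hx), rfl⟩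
  obtain ⟨hnc, hNS, hSyl⟩ := h24 M hM q hqs X hXq hX1 hXM Ms hMs hMsM hNMs S hXS
  obtain ⟨S', hS'⟩ : ∃ S' : Subgroup G, S' = (S : Subgroup ↥(M ⊓ Ms)).map (M ⊓ Ms).subtype :=
    ⟨_, rfl⟩
  rw [← hS'] at hXS hNS hSyl
  have hS'le : S' ≤ M ⊓ Ms := by rw [hS']; exact Subgroup.map_subtype_le _
  have hS'q : IsPGroup q S' := by rw [hS']; exact S.isPGroup'.map _
  by_cases hqMs : q ∈ sigma Ms
  · -- case (d)
    have hdec := hD1 M Ms hMs q hqMs S' hS'q (hS'le.trans inf_le_right) hSyl hNS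
    have hα : ∀ p : ℕ, p.Prime → p ∣ Nat.card Y₁ → p ∉ alpha Ms := by
      intro p hp hpd hpα
      obtain ⟨g, hg⟩ := Cfsg.Agent.H92.BG12.conj_of_alpha_sigma hG h03 hMs hM hpα
        (hY₁pi p hp hpd)
      exact hnc g (by rw [map_conj_eq_smul]; exact hg)
    obtain ⟨g, -, hg⟩ := hHA Ms hMs (M ⊓ Ms) inf_le_right hdec Y₁ hY₁Ms hα
    exact ⟨g, hg.trans inf_le_left⟩
  · -- case (e)
    obtain ⟨hnil, -, hcompl⟩ := hE1 M Ms hM hMs hMsM q hqs hqMs X hX1 hNMs S' hS'q hXS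
      (hS'le.trans inf_le_left) (hS'le.trans inf_le_right) hSyl
    have hσ : ∀ p : ℕ, p.Prime → p ∣ Nat.card Y₁ → p ∉ sigma Ms := by
      intro p hp hpd hpσ
      obtain ⟨g, hg⟩ := hSD M Ms hM hMs hnil p (hY₁pi p hp hpd) hpσ
      exact hnc g (by rw [map_conj_eq_smul]; exact hg)
    obtain ⟨g, -, hg⟩ := hSC Ms hMs (M ⊓ Ms) hcompl Y₁ hY₁Ms hσ
    exact ⟨g, by rw [← map_conj_eq_smul]; exact hg.trans inf_le_left⟩

end Cfsg.Agent.H47.BG12
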