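import Mathlib
import Cfsg.Agent.Lib.Helper30.BG134Defs
import Cfsg.Agent.H57.BG1218Defs

set_option autoImplicit false

/-!
# Bender–Glauberman Theorem 13.9 (the σ-partition, S1378): the pieces as `Prop`s
(helper47, team project BG139)

`M`, `N` maximal subgroups of a minimal simple group `G` of odd order with a common prime
`q ∈ σ(M) ∩ σ(N)`.  Claim: `N` is conjugate to `M`.

A *configuration* `SCfg M N Q q` records a counterexample after normalisation: `Q` is a Sylow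
`q`-subgroup of `G` with `N_G(Q) ≤ M ∩ N`, and `N` is not conjugate to `M`.
-/

namespace Cfsg.Agent.H47.BG139

open Cfsg Subgroup
open scoped Pointwise

universe u

variable {G : Type u} [Group G]

/-- A (normalised) counterexample to the σ-partition theorem. -/
structure SCfg (M N Q : Subgroup G) (q : ℕ) : Prop where
  hM : IsCoatom M
  hN : IsCoatom N
  hq : q.Prime
  hqM : q ∈ sigma M
  hqN : q ∈ sigma N
  hQq : IsPGroup q Q
  hQ1 : Q ≠ ⊥
  hQi : ¬ q ∣ Q.index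
  hNM : normalizer (Q : Set G) ≤ M
  hNN : normalizer (Q : Set G) ≤ N
  hnc : ∀ g : G, N ≠ MulAut.conj g • M

/-- First half of S1378: every prime divisor of `|G|` lies in `σ(M)` for some maximal `M`. -/
def St1378a (G : Type u) [Group G] : Prop :=
  ∀ p : ℕ, p.Prime → p ∣ Nat.card G → ∃ M : Subgroup G, IsCoatom M ∧ p ∈ sigma M

/-- Second half of S1378 (B&G 13.9): maximal subgroups with a common `σ`-prime are conjugate. -/
def St1378b (G : Type u) [Group G] : Prop :=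
  ∀ M N : Subgroup G, IsCoatom M → IsCoatom N → (sigma M ∩ sigma N).Nonempty →
    ∃ g : G, N = M.map (MulAut.conj g).toMonoidHom

/-- (RED) a non-conjugate pair with a common `σ`-prime yields a configuration. -/
def StRed (G : Type u) [Group G] : Prop :=
  ∀ (M N : Subgroup G) (q : ℕ), IsCoatom M → IsCoatom N → q ∈ sigma M → q ∈ sigma N →
    (∀ g : G, N ≠ MulAut.conj g • M) →
    ∃ (g : G) (Q : Subgroup G), SCfg M (MulAut.conj g • N) Q q

/-- (ALPHA) `q ∉ α(M)`, `M_α ≠ 1` and `α(M) ⊆ β(M)`. -/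
def StAlpha (G : Type u) [Group G] : Prop :=
  ∀ (M N Q : Subgroup G) (q : ℕ), SCfg M N Q q →
    q ∉ alpha M ∧ alphaCore M ≠ ⊥ ∧ ∀ s : ℕ, s ∈ alpha M → s ∈ beta M

/-- (ABEL) `Q ≤ M_σ` and `Q` is abelian. -/
def StAbel (G : Type u) [Group G] : Prop :=
  ∀ (M N Q : Subgroup G) (q : ℕ), SCfg M N Q q →
    Q ≤ sigmaCore M ∧ ∀ a ∈ Q, ∀ b ∈ Q, a * b = b * a

/-- (DER) `N_G(Q) ∩ M'` centralizes `Q`. -/
def StDer (G : Type u) [Group G] : Prop :=
  ∀ (M N Q : Subgroup G) (q : ℕ), SCfg M N Q q →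
    ∀ w ∈ normalizer (Q : Set G), w ∈ ⁅M, M⁆ → ∀ z ∈ Q, w * z = z * w

/-- (TAU) an element of prime power order `u ^ k` of `N_G(Q)` not centralizing `Q` has
`u ∈ τ₁(M)`. -/
def StTau (G : Type u) [Group G] : Prop :=
  ∀ (M N Q : Subgroup G) (q : ℕ), SCfg M N Q q →
    ∀ (u : ℕ) (v : G), u.Prime → v ∈ normalizer (Q : Set G) → (∃ k : ℕ, orderOf v = u ^ k) →
      (∃ z ∈ Q, v * z ≠ z * v) → u ∈ tau1 M

/-- (FIX) `C_Q(N_G(Q)) = 1`. -/
def StFix (G : Type u) [Group G] : Prop :=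
  ∀ (M N Q : Subgroup G) (q : ℕ), SCfg M N Q q →
    Q ⊓ centralizer ((normalizer (Q : Set G) : Subgroup G) : Set G) = ⊥

/-- (PRIMPOW, pure group theory) if `C_Z(V) = 1 ≠ Z` then some element of prime power order of
`V` does not centralize `Z`. -/
def StPrimPow (G : Type u) [Group G] : Prop :=
  ∀ (Z V : Subgroup G), Z ≠ ⊥ → Z ⊓ centralizer (V : Set G) = ⊥ →
    ∃ (u : ℕ) (v : G), u.Prime ∧ v ∈ V ∧ (∃ k : ℕ, orderOf v = u ^ k) ∧ ∃ z ∈ Z, v * z ≠ z * v

/-- (INV) for `R ≤ N_G(Q)`, the subgroup `C_Q(R)` is normalized by `N_G(Q)`. -/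
def StInv (G : Type u) [Group G] : Prop :=
  ∀ (M N Q : Subgroup G) (q : ℕ), SCfg M N Q q → ∀ R : Subgroup G, R ≤ normalizer (Q : Set G) →
    normalizer (Q : Set G) ≤ normalizer ((Q ⊓ centralizer (R : Set G) : Subgroup G) : Set G)

/-- (STEP) prime action of the `τ₁(M)`-elements of `N_G(Q)` on `Q`: if `R ≤ N_G(Q)` has order
`r ∈ τ₁(M)` and `v ∈ N_G(Q)` has order `u ^ k` with `u ∈ τ₁(M)`, then `v` centralizes `C_Q(R)`. -/
def StStep (G : Type u) [Group G] : Prop :=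
  ∀ (M N Q : Subgroup G) (q : ℕ), SCfg M N Q q →
    ∀ (r : ℕ) (R : Subgroup G), r ∈ tau1 M → R ≤ normalizer (Q : Set G) → Nat.card R = r →
    ∀ (u : ℕ) (v : G), u ∈ tau1 M → v ∈ normalizer (Q : Set G) → (∃ k : ℕ, orderOf v = u ^ k) →
      ∀ z ∈ Q ⊓ centralizer (R : Set G), v * z = z * v

/-- (ELT) if `R ≤ N_G(Q)` of order `r ∈ τ₁(M)` has `C_Q(R) = 1`, then `C_{M_α}(R)` contains an
element `x` of prime order in `α(M)`, and `M` is the only maximal subgroup over `C_G(x)`. -/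
def StElt (G : Type u) [Group G] : Prop :=
  ∀ (M N Q : Subgroup G) (q : ℕ), SCfg M N Q q →
    ∀ (r : ℕ) (R : Subgroup G), r ∈ tau1 M → R ≤ normalizer (Q : Set G) → Nat.card R = r →
      Q ⊓ centralizer (R : Set G) = ⊥ →
      ∃ x : G, x ∈ alphaCore M ∧ x ∈ centralizer (R : Set G) ∧ (orderOf x).Prime ∧
        orderOf x ∈ alpha M ∧
        centralizer ((zpowers x : Subgroup G) : Set G) ≤ M ∧
        ∀ L : Subgroup G, IsCoatom L →
          centralizer ((zpowers x : Subgroup G) : Set G) ≤ L → L = M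

/-- (CYC) for `R ≤ M` of order `r ∈ τ₁(M)` and `x ∈ C_{M_α}(R)` of prime order `s` with
`C_G(x) ≤ M`: every `s`-subgroup of `C_G(R)` containing `x` is cyclic. -/
def StCyc (G : Type u) [Group G] : Prop :=
  ∀ (M : Subgroup G), IsCoatom M → ∀ (r : ℕ) (R : Subgroup G), r ∈ tau1 M → R ≤ M →
    Nat.card R = r → ∀ x : G, x ∈ alphaCore M → x ∈ centralizer (R : Set G) →
    (orderOf x).Prime → centralizer ((zpowers x : Subgroup G) : Set G) ≤ M →
    ∀ S : Subgroup G, IsPGroup (orderOf x) S → S ≤ centralizer (R : Set G) → x ∈ S → IsCyclic S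

/-- (ZH, pure group theory) in a solvable group `C`, let `x`, `y` have distinct prime orders
`s`, `t` such that the `s`-subgroups through `x` and the `t`-subgroups through `y` are cyclic.
Then some conjugate `y' = c y c⁻¹` (`c ∈ C`) normalizes `⟨x⟩`, or `x` normalizes `⟨y'⟩`. -/
def StZH (G : Type u) [Group G] : Prop :=
  ∀ (C : Subgroup G) (x y : G), Group.IsSolvable C → x ∈ C → y ∈ C → (orderOf x).Prime →
    (orderOf y).Prime → orderOf x ≠ orderOf y →
    (∀ S : Subgroup G, IsPGroup (orderOf x) S → S ≤ C → x ∈ S → IsCyclic S) →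
    (∀ S : Subgroup G, IsPGroup (orderOf y) S → S ≤ C → y ∈ S → IsCyclic S) →
    ∃ c ∈ C, c * y * c⁻¹ ∈ normalizer ((zpowers x : Subgroup G) : Set G) ∨
      x ∈ normalizer ((zpowers (c * y * c⁻¹) : Subgroup G) : Set G)

/-- (INN) `x ∈ C_{M_σ}(R)` with `M` unique over `C_G(x)`, `y ∈ C_G(R)` of prime order not in
`σ(M)` with `N'` unique over `C_G(y)`; if `y` normalizes `⟨x⟩` or `x` normalizes `⟨y⟩`, then
`x ∈ N'`. -/
def StInN (G : Type u) [Group G] : Prop :=
  ∀ (M N' : Subgroup G), IsCoatom M → IsCoatom N' → ∀ (r : ℕ) (R : Subgroup G), r ∈ tau1 M →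
    R ≤ M → Nat.card R = r → ∀ x y : G, x ∈ sigmaCore M → x ∈ centralizer (R : Set G) →
    (centralizer ((zpowers x : Subgroup G) : Set G) ≤ M ∧
      ∀ L : Subgroup G, IsCoatom L →
        centralizer ((zpowers x : Subgroup G) : Set G) ≤ L → L = M) →
    y ∈ centralizer (R : Set G) → (orderOf y).Prime → orderOf y ∉ sigma M →
    (centralizer ((zpowers y : Subgroup G) : Set G) ≤ N' ∧
      ∀ L : Subgroup G, IsCoatom L →
        centralizer ((zpowers y : Subgroup G) : Set G) ≤ L → L = N') →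
    (y ∈ normalizer ((zpowers x : Subgroup G) : Set G) ∨
      x ∈ normalizer ((zpowers y : Subgroup G) : Set G)) →
    x ∈ N'

/-- (FINAL) in a configuration with `R ≤ N_G(Q)` of order `r ∈ τ₁(M) ∩ τ₁(N)`, `C_Q(R) = 1`:
no nontrivial `x ∈ C_{M_α}(R)` with `C_G(x) ≤ M` lies in a conjugate `c N c⁻¹`, `c ∈ C_G(R)`. -/
def StFinal (G : Type u) [Group G] : Prop :=
  ∀ (M N Q : Subgroup G) (q : ℕ), SCfg M N Q q →
    ∀ (r : ℕ) (R : Subgroup G), r ∈ tau1 M → r ∈ tau1 N → R ≤ normalizer (Q : Set G) →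
    Nat.card R = r → Q ⊓ centralizer (R : Set G) = ⊥ →
    ∀ (c x : G), c ∈ centralizer (R : Set G) → x ∈ alphaCore M → x ≠ 1 →
      x ∈ centralizer (R : Set G) → orderOf x ∈ alpha M →
      centralizer ((zpowers x : Subgroup G) : Set G) ≤ M →
      x ∈ MulAut.conj c • N → False

end Cfsg.Agent.H47.BG139
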