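import Mathlib
import Cfsg.Agent.H14.Replacement

/-!
# Decomposing members of an intersection-closed family of subgroups of a finite abelian group

If `P` is a property of subgroups of a finite abelian group that is closed under intersection and
such that the `P`-hyperplanes (index `p`) of every `P`-subgroup intersect trivially, then every
`P`-subgroup is an independent supremum of `P`-subgroups of order `p`.
-/

set_option autoImplicit false

namespace Cfsg.Agent.H47.Atom

variable {C : Type*} [CommGroup C] [Finite C]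

omit [Finite C] in
theorem card_sup_mul_card_inf_comm (B D : Subgroup C) :
    Nat.card ↥(B ⊔ D) * Nat.card ↥(B ⊓ D) = Nat.card B * Nat.card D := by
  apply H14.card_sup_mul_card_inf
  intro x _
  rw [Subgroup.mem_normalizer_iff]
  intro y
  rw [mul_comm x y, mul_inv_cancel_right]

/-- A subgroup not contained in a hyperplane meets it in a hyperplane and spans with it. -/
theorem card_inf_mul_prime {p : ℕ} (hp : p.Prime) {X B D : Subgroup C} (hDX : D ≤ X)
    (hBX : B ≤ X) (hD : Nat.card D * p = Nat.card X) (hBD : ¬ B ≤ D) :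
    Nat.card ↥(B ⊓ D) * p = Nat.card B ∧ B ⊔ D = X := by
  have h1 : Nat.card D ∣ Nat.card ↥(B ⊔ D) := Subgroup.card_dvd_of_le le_sup_right
  have h2 : Nat.card ↥(B ⊔ D) ∣ Nat.card X := Subgroup.card_dvd_of_le (sup_le hBX hDX)
  obtain ⟨t, ht⟩ := h1
  have hDpos : 0 < Nat.card D := Nat.card_pos
  have h3 : t ∣ p := by
    rw [ht, ← hD] at h2
    exact (Nat.mul_dvd_mul_iff_left hDpos).mp h2
  have h4 : t = p := by
    rcases (Nat.dvd_prime hp).mp h3 with h | h
    · exfalso
      apply hBD
      have : D = B ⊔ D := Subgroup.eq_of_le_of_card_ge le_sup_right (by rw [ht, h, mul_one])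
      rw [this]
      exact le_sup_left
    · exact h
  rw [h4] at ht
  have h5 : B ⊔ D = X := Subgroup.eq_of_le_of_card_ge (sup_le hBX hDX) (by rw [ht, hD])
  refine ⟨?_, h5⟩
  have h6 := card_sup_mul_card_inf_comm B D
  rw [ht] at h6
  have : Nat.card D * (Nat.card ↥(B ⊓ D) * p) = Nat.card D * Nat.card B := by
    calc Nat.card D * (Nat.card ↥(B ⊓ D) * p) = Nat.card D * p * Nat.card ↥(B ⊓ D) := by ring
      _ = Nat.card B * Nat.card D := h6
      _ = Nat.card D * Nat.card B := by ring
  exact Nat.eq_of_mul_eq_mul_left hDpos this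

theorem exists_decomp_aux {p : ℕ} (hp : p.Prime) (P : Subgroup C → Prop)
    (hinf : ∀ X Y, P X → P Y → P (X ⊓ Y))
    (hhyp : ∀ X, P X → ∀ x ∈ X,
      (∀ D, P D → D ≤ X → Nat.card D * p = Nat.card X → x ∈ D) → x = 1) :
    ∀ (n : ℕ) (X : Subgroup C), Nat.card X = n → P X →
      ∃ s : Finset (Subgroup C), (∀ B ∈ s, P B ∧ Nat.card B = p) ∧ s.SupIndep id ∧
        s.sup id = X := by
  classical
  intro n
  induction n using Nat.strong_induction_on with
  | _ n ih =>
  intro X hn hPX
  by_cases hX : X = ⊥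
  · refine ⟨∅, by simp, Finset.supIndep_empty _, by simp [hX]⟩
  · obtain ⟨⟨x, hxX⟩, hx1⟩ := Subgroup.ne_bot_iff_exists_ne_one.mp hX
    have hx1' : x ≠ 1 := fun h => hx1 (Subtype.ext h)
    have hex : ∃ D, P D ∧ D ≤ X ∧ Nat.card D * p = Nat.card X := by
      by_contra hcon
      push Not at hcon
      exact hx1' (hhyp X hPX x hxX (fun D hPD hDX hc => absurd hc (hcon D hPD hDX)))
    obtain ⟨D, hPD, hDX, hDc⟩ := hex
    have hDpos : 0 < Nat.card D := Nat.card_pos
    have hDlt : Nat.card D < n := by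
      have := hp.one_lt
      rw [← hn, ← hDc]
      nlinarith
    obtain ⟨sD, hsD1, hsD2, hsD3⟩ := ih _ hDlt D rfl hPD
    have hXD : ¬ X ≤ D := by
      intro hle
      have := Subgroup.card_le_of_le hle
      omega
    obtain ⟨B, hBS, hBmin⟩ := Set.Finite.exists_minimal
      (Set.toFinite {Y : Subgroup C | P Y ∧ Y ≤ X ∧ ¬ Y ≤ D}) ⟨X, hPX, le_rfl, hXD⟩
    obtain ⟨hPB, hBX, hBnD⟩ := hBS
    have c2 := card_inf_mul_prime hp hDX hBX hDc hBnD
    have hBpos : 0 < Nat.card B := Nat.card_pos
    have hBD : B ⊓ D = ⊥ := by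
      rw [eq_bot_iff]
      intro y hy
      rw [Subgroup.mem_bot]
      apply hhyp X hPX y (hBX hy.1)
      intro D' hPD' hD'X hD'c
      by_cases h : B ≤ D'
      · exact h hy.1
      · have h1 : B ⊓ D' ≤ D := by
          by_contra hcon
          exact h ((hBmin ⟨hinf _ _ hPB hPD', inf_le_left.trans hBX, hcon⟩ inf_le_left).trans
            inf_le_right)
        have h2 : B ⊓ D' ≤ B ⊓ D := le_inf inf_le_left h1
        have c1 := (card_inf_mul_prime hp hD'X hBX hD'c h).1
        have h3 : B ⊓ D' = B ⊓ D := by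
          apply Subgroup.eq_of_le_of_card_ge h2
          have : Nat.card ↥(B ⊓ D) * p = Nat.card ↥(B ⊓ D') * p := by rw [c1, c2.1]
          exact (Nat.eq_of_mul_eq_mul_right hp.pos this).le
        have hy' : y ∈ B ⊓ D' := by rw [h3]; exact hy
        exact hy'.2
    have hBp : Nat.card B = p := by
      have := c2.1
      rw [hBD, Subgroup.card_bot, one_mul] at this
      exact this.symm
    refine ⟨insert B sD, ?_, ?_, ?_⟩
    · intro Y hY
      rcases Finset.mem_insert.mp hY with rfl | hY
      · exact ⟨hPB, hBp⟩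
      · exact hsD1 Y hY
    · apply Finset.SupIndep.insert hsD2
      rw [hsD3]
      exact disjoint_iff.mpr hBD
    · rw [Finset.sup_insert, hsD3]
      exact c2.2

/-- Decomposition into independent `P`-subgroups of order `p`, as a `Fin k`-indexed family. -/
theorem exists_decomp {p : ℕ} (hp : p.Prime) (P : Subgroup C → Prop)
    (hinf : ∀ X Y, P X → P Y → P (X ⊓ Y))
    (hhyp : ∀ X, P X → ∀ x ∈ X,
      (∀ D, P D → D ≤ X → Nat.card D * p = Nat.card X → x ∈ D) → x = 1)
    (X : Subgroup C) (hPX : P X) :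
    ∃ (k : ℕ) (B : Fin k → Subgroup C), (∀ i, P (B i) ∧ Nat.card (B i) = p) ∧ iSupIndep B ∧
      ⨆ i, B i = X := by
  obtain ⟨s, hs1, hs2, hs3⟩ := exists_decomp_aux hp P hinf hhyp _ X rfl hPX
  refine ⟨s.card, fun i => ((s.equivFin.symm i : s) : Subgroup C), ?_, ?_, ?_⟩
  · intro i
    exact hs1 _ (s.equivFin.symm i).2
  · have h1 : iSupIndep (id ∘ (Subtype.val : s → Subgroup C)) := hs2.independent
    exact h1.comp s.equivFin.symm.injective
  · rw [← hs3, Finset.sup_eq_iSup]
    have : (⨆ i : Fin s.card, ((s.equivFin.symm i : s) : Subgroup C)) =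
        ⨆ x : s, (x : Subgroup C) :=
      Equiv.iSup_comp (g := fun x : s => (x : Subgroup C)) s.equivFin.symm
    rw [this, iSup_subtype']
    rfl

end Cfsg.Agent.H47.Atom
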