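import Mathlib
import Cfsg.Prelude.Def_PLocal
import Cfsg.Agent.H1.PQLemma
import Cfsg.Agent.H28.Coprime
import Cfsg.Agent.H14.Replacement

/-!
# Best offenders in a faithful group with self-centralizing `p'`-core

Setting: `V` elementary abelian `p`-subgroup of `G`, `H ≤ N_G(V)` acting faithfully
(`H ⊓ C_G(V) = ⊥`), and `C_H(O_{p'}(H)) ≤ O_{p'}(H)`.  For a best offender `A ≤ H` on `V`
we show `|A| |C_V(A)| = |V|`, via hyperplanes `B` of `A` with `[C_Q(B), A] ≠ 1`
(`Q = O_{p'}(H)`), coprime generation and Thompson's `P × Q` lemma.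
-/

set_option autoImplicit false

namespace Cfsg.Agent.H47.Off

open Cfsg

variable {G : Type*} [Group G]

/-- `O_{p'}(H)` viewed inside `G`. -/
def qc (p : ℕ) (H : Subgroup G) : Subgroup G := (Cfsg.pPrimeCore p ↥H).map H.subtype

theorem qc_le (p : ℕ) (H : Subgroup G) : qc p H ≤ H := Subgroup.map_subtype_le _

theorem qc_coprime [Finite G] (p : ℕ) (H : Subgroup G) : (Nat.card (qc p H)).Coprime p := by
  unfold qc
  rw [Subgroup.card_subtype]
  exact H14.pPrimeCore_coprime p ↥H

theorem le_normalizer_qc (p : ℕ) (H : Subgroup G) :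
    H ≤ Subgroup.normalizer (qc p H : Set G) := by
  intro h hh
  rw [Subgroup.mem_normalizer_iff]
  intro x
  constructor
  · rintro ⟨y, hy, rfl⟩
    refine ⟨⟨h, hh⟩ * y * ⟨h, hh⟩⁻¹, ?_, rfl⟩
    exact (H14.pPrimeCore_normal p ↥H).conj_mem y hy _
  · rintro ⟨y, hy, hyx⟩
    refine ⟨⟨h, hh⟩⁻¹ * y * ⟨h, hh⟩, ?_, ?_⟩
    · have := (H14.pPrimeCore_normal p ↥H).conj_mem y hy (⟨h, hh⟩⁻¹)
      simpa using this
    · have h1 : (y : G) = h * x * h⁻¹ := hyx
      simp only [Subgroup.coe_subtype, Subgroup.coe_mul, Subgroup.coe_inv, h1]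
      group

theorem mem_qc_of_mem_centralizer {p : ℕ} {H : Subgroup G}
    (hS1 : Subgroup.centralizer (Cfsg.pPrimeCore p ↥H : Set ↥H) ≤ Cfsg.pPrimeCore p ↥H)
    {x : G} (hx : x ∈ H) (hc : x ∈ Subgroup.centralizer (qc p H : Set G)) : x ∈ qc p H := by
  refine ⟨⟨x, hx⟩, hS1 ?_, rfl⟩
  rw [Subgroup.mem_centralizer_iff]
  intro y hy
  apply Subtype.ext
  have := (Subgroup.mem_centralizer_iff.mp hc) (y : G) ⟨y, hy, rfl⟩
  simpa using this

section

variable [Finite G] {p : ℕ} [Fact p.Prime] {V H : Subgroup G}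

/-- Under faithfulness, a best offender inside `H` is elementary abelian. -/
theorem elemAb_of_offender (hf : H ⊓ Subgroup.centralizer (V : Set G) = ⊥)
    {A : Subgroup G} (hAH : A ≤ H) (hA : Cfsg.IsBestOffenderOn p V A) :
    Cfsg.IsElementaryAbelian p A := by
  have h1 : ⁅A, A⁆ = ⊥ := by
    rw [eq_bot_iff, ← hf]
    refine le_inf ?_ hA.2.1
    rw [Subgroup.commutator_le]
    intro a ha b hb
    rw [commutatorElement_def]
    exact hAH (A.mul_mem (A.mul_mem (A.mul_mem ha hb) (A.inv_mem ha)) (A.inv_mem hb))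
  have h2 : A ≤ Subgroup.centralizer (A : Set G) :=
    Subgroup.commutator_eq_bot_iff_le_centralizer.mp h1
  refine ⟨IsMulCommutative.of_comm ?_, ?_⟩
  · rintro ⟨a, ha⟩ ⟨b, hb⟩
    apply Subtype.ext
    exact ((Subgroup.mem_centralizer_iff.mp (h2 ha)) b hb).symm
  · intro a ha
    have h3 : a ^ p ∈ H ⊓ Subgroup.centralizer (V : Set G) :=
      ⟨hAH (A.pow_mem ha p), hA.2.2 a ha⟩
    rw [hf] at h3
    exact Subgroup.mem_bot.mp h3

/-- A `p`-subgroup of `H` meets the centralizer of `O_{p'}(H)` trivially. -/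
theorem inf_centralizer_qc
    (hS1 : Subgroup.centralizer (Cfsg.pPrimeCore p ↥H : Set ↥H) ≤ Cfsg.pPrimeCore p ↥H)
    {A : Subgroup G} (hAH : A ≤ H) (hA : IsPGroup p A) :
    A ⊓ Subgroup.centralizer (qc p H : Set G) = ⊥ := by
  rw [eq_bot_iff]
  rintro x ⟨hxA, hxC⟩
  have hxQ : x ∈ qc p H := mem_qc_of_mem_centralizer hS1 (hAH hxA) hxC
  obtain ⟨k, hk⟩ := hA ⟨x, hxA⟩
  have h1 : x ^ (p ^ k) = 1 := by
    have := congrArg Subtype.val hk
    simpa using this
  have h2' : (⟨x, hxQ⟩ : ↥(qc p H)) ^ Nat.card ↥(qc p H) = 1 := pow_card_eq_one'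
  have h2 : x ^ Nat.card (qc p H) = 1 := by
    have := congrArg Subtype.val h2'
    rwa [SubgroupClass.coe_pow] at this
  have h3 : x ^ Nat.gcd (p ^ k) (Nat.card (qc p H)) = 1 := pow_gcd_eq_one.mpr ⟨h1, h2⟩
  have h4 : Nat.gcd (p ^ k) (Nat.card (qc p H)) = 1 :=
    Nat.Coprime.pow_left k (qc_coprime p H).symm
  rw [h4, pow_one] at h3
  exact Subgroup.mem_bot.mpr h3

end

section

variable [Finite G] {p : ℕ} [hp : Fact p.Prime] {V H : Subgroup G}

/-- `D` is an active hyperplane of `A`: index `p` in `A` and `C_Q(D)` is not centralized by `A`. -/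
def IsActiveHyp (p : ℕ) (H A D : Subgroup G) : Prop :=
  D ≤ A ∧ D.relIndex A = p ∧
    ¬ (qc p H ⊓ Subgroup.centralizer (D : Set G) ≤ Subgroup.centralizer (A : Set G))

omit [Finite G] hp in
theorem centralizer_bot_eq_top : Subgroup.centralizer ((⊥ : Subgroup G) : Set G) = ⊤ := by
  rw [Subgroup.centralizer_eq_top_iff_subset, Subgroup.coe_bot, Set.singleton_subset_iff]
  exact Subgroup.one_mem _

/-- The active hyperplanes of a best offender intersect trivially. -/
theorem eq_one_of_mem_active (hf : H ⊓ Subgroup.centralizer (V : Set G) = ⊥)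
    (hS1 : Subgroup.centralizer (Cfsg.pPrimeCore p ↥H : Set ↥H) ≤ Cfsg.pPrimeCore p ↥H)
    {A : Subgroup G} (hAH : A ≤ H) (hA : Cfsg.IsBestOffenderOn p V A) {x : G} (hx : x ∈ A)
    (hall : ∀ D, IsActiveHyp p H A D → x ∈ D) : x = 1 := by
  have hAe := elemAb_of_offender hf hAH hA
  have hAp : IsPGroup p A := H28.isPGroup_of_isElementaryAbelian p hAe
  have hbot := inf_centralizer_qc hS1 hAH hAp
  have hfin : ∀ y ∈ A, y ∈ Subgroup.centralizer (qc p H : Set G) → y = 1 := by
    intro y hy hyc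
    have : y ∈ A ⊓ Subgroup.centralizer (qc p H : Set G) := ⟨hy, hyc⟩
    rw [hbot] at this
    exact Subgroup.mem_bot.mp this
  by_cases h2 : p ^ 2 ≤ Nat.card A
  · apply hfin x hx
    have hgen := H28.le_iSup_hyperplane_centralizers p A (qc p H) hAe h2
      (by
        intro hdvd
        have := (qc_coprime p H)
        rw [Nat.coprime_comm, Nat.Prime.coprime_iff_not_dvd hp.out] at this
        exact this hdvd)
      (hAH.trans (le_normalizer_qc p H))
    have key : qc p H ≤ Subgroup.centralizer ({x} : Set G) := by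
      refine hgen.trans (iSup_le fun D => ?_)
      by_cases hD : qc p H ⊓ Subgroup.centralizer ((D : Subgroup G) : Set G)
          ≤ Subgroup.centralizer (A : Set G)
      · exact hD.trans (Subgroup.centralizer_le (Set.singleton_subset_iff.mpr hx))
      · have hxD : x ∈ (D : Subgroup G) := hall D ⟨D.2.1, D.2.2, hD⟩
        exact inf_le_right.trans (Subgroup.centralizer_le (Set.singleton_subset_iff.mpr hxD))
    rw [Subgroup.mem_centralizer_iff]
    intro y hy
    have := (Subgroup.mem_centralizer_iff.mp (key hy)) x rfl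
    exact this.symm
  · by_cases hAbot : A = ⊥
    · rw [hAbot] at hx
      exact Subgroup.mem_bot.mp hx
    · obtain ⟨k, hk⟩ := IsPGroup.iff_card.mp hAp
      have hk1 : k = 1 := by
        have hk0 : k ≠ 0 := by
          rintro rfl
          rw [pow_zero] at hk
          exact hAbot ((Subgroup.card_eq_one).mp hk)
        have hk2 : k < 2 := by
          by_contra hcon
          apply h2
          rw [hk]
          exact Nat.pow_le_pow_right hp.out.pos (by omega)
        omega
      rw [hk1, pow_one] at hk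
      have hact : IsActiveHyp p H A ⊥ := by
        refine ⟨bot_le, by rw [Subgroup.relIndex_bot_left, hk], ?_⟩
        intro hle
        rw [centralizer_bot_eq_top, inf_top_eq] at hle
        apply hAbot
        rw [eq_bot_iff, ← hbot]
        exact le_inf le_rfl (Subgroup.le_centralizer_iff.mp hle)
      exact Subgroup.mem_bot.mp (hall ⊥ hact)

/-- A nontrivial best offender has an active hyperplane. -/
theorem exists_active (hf : H ⊓ Subgroup.centralizer (V : Set G) = ⊥)
    (hS1 : Subgroup.centralizer (Cfsg.pPrimeCore p ↥H : Set ↥H) ≤ Cfsg.pPrimeCore p ↥H)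
    {A : Subgroup G} (hAH : A ≤ H) (hA : Cfsg.IsBestOffenderOn p V A) (hA1 : A ≠ ⊥) :
    ∃ D, IsActiveHyp p H A D := by
  by_contra hcon
  apply hA1
  rw [eq_bot_iff]
  intro x hx
  exact Subgroup.mem_bot.mpr
    (eq_one_of_mem_active hf hS1 hAH hA hx (fun D hD => absurd ⟨D, hD⟩ hcon))

/-- Across an active hyperplane the fixed points grow by exactly a factor `p`. -/
theorem card_fixed_of_active (hV : Cfsg.IsElementaryAbelian p V)
    (hHV : H ≤ Subgroup.normalizer (V : Set G))
    (hf : H ⊓ Subgroup.centralizer (V : Set G) = ⊥)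
    {A : Subgroup G} (hAH : A ≤ H) (hA : Cfsg.IsBestOffenderOn p V A)
    {D : Subgroup G} (hD : IsActiveHyp p H A D) :
    Nat.card ↥(V ⊓ Subgroup.centralizer (D : Set G)) =
      p * Nat.card ↥(V ⊓ Subgroup.centralizer (A : Set G)) := by
  obtain ⟨hDA, hrel, hnc⟩ := hD
  have hAe := elemAb_of_offender hf hAH hA
  have hDe := H28.isElementaryAbelian_of_le p hAe hDA
  have hDp : IsPGroup p D := H28.isPGroup_of_isElementaryAbelian p hDe
  have hVp : IsPGroup p V := H28.isPGroup_of_isElementaryAbelian p hV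
  set UA := V ⊓ Subgroup.centralizer (A : Set G) with hUA
  set UD := V ⊓ Subgroup.centralizer (D : Set G) with hUD
  have hle : UA ≤ UD := inf_le_inf_left _ (Subgroup.centralizer_le hDA)
  have hcardA : Nat.card D * p = Nat.card A := by
    have := Subgroup.relIndex_mul_relIndex ⊥ D A bot_le hDA
    rwa [Subgroup.relIndex_bot_left, Subgroup.relIndex_bot_left, hrel] at this
  have hoff := hA.1 D hDA
  have hDpos : 0 < Nat.card D := Nat.card_pos
  have hbound : Nat.card UD ≤ p * Nat.card UA := by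
    rw [← hcardA] at hoff
    have : Nat.card D * Nat.card UD ≤ Nat.card D * (p * Nat.card UA) := by
      calc Nat.card D * Nat.card UD ≤ Nat.card D * p * Nat.card UA := hoff
        _ = Nat.card D * (p * Nat.card UA) := by ring
    exact Nat.le_of_mul_le_mul_left this hDpos
  have hm : UA.relIndex UD * Nat.card UA = Nat.card UD := by
    have := Subgroup.relIndex_mul_relIndex ⊥ UA UD bot_le hle
    rw [Subgroup.relIndex_bot_left, Subgroup.relIndex_bot_left] at this
    rw [mul_comm]; exact this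
  have hUApos : 0 < Nat.card UA := Nat.card_pos
  have hmle : UA.relIndex UD ≤ p := by
    rw [← hm] at hbound
    exact Nat.le_of_mul_le_mul_right hbound hUApos
  have hUDp : IsPGroup p UD := hVp.to_le inf_le_left
  obtain ⟨j, hj⟩ := IsPGroup.iff_card.mp hUDp
  have hmdvd : UA.relIndex UD ∣ p ^ j := by
    rw [← hj]; exact Subgroup.relIndex_dvd_card UA UD
  obtain ⟨l, -, hl⟩ := (Nat.dvd_prime_pow hp.out).mp hmdvd
  have hl1 : l ≤ 1 := by
    by_contra hcon
    have h2 : p ^ 2 ≤ p ^ l := Nat.pow_le_pow_right hp.out.pos (by omega)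
    have h3 : p < p ^ 2 := by
      have := hp.out.one_lt
      nlinarith
    rw [hl] at hmle
    omega
  rcases Nat.lt_or_ge l 1 with hl0 | hl1'
  · exfalso
    have hl0' : l = 0 := by omega
    rw [hl0', pow_zero, Subgroup.relIndex_eq_one] at hl
    -- `UD ≤ UA`: derive a contradiction from the `P × Q` lemma
    apply hnc
    set R := qc p H ⊓ Subgroup.centralizer (D : Set G) with hR
    have hAnR : A ≤ Subgroup.normalizer (R : Set G) := by
      intro a ha
      rw [Subgroup.mem_normalizer_iff]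
      intro x
      have h1 := Subgroup.mem_normalizer_iff.mp ((hAH.trans (le_normalizer_qc p H)) ha) x
      have h2 := Subgroup.mem_normalizer_iff.mp
        ((H28.le_normalizer_centralizer_of_comm hAe.1 hDA) ha) x
      constructor
      · rintro ⟨hx1, hx2⟩
        exact ⟨h1.mp hx1, h2.mp hx2⟩
      · rintro ⟨hx1, hx2⟩
        exact ⟨h1.mpr hx1, h2.mpr hx2⟩
    have hRA : ⁅R, A⁆ ≤ R := H1.commutator_le_of_le_normalizer A R hAnR
    have hRAq : ⁅R, A⁆ ≤ qc p H := hRA.trans inf_le_left
    have hRAH : ⁅R, A⁆ ≤ H := hRAq.trans (qc_le p H)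
    have hcop : (Nat.card ↥⁅R, A⁆).Coprime p :=
      Nat.Coprime.coprime_dvd_left (Subgroup.card_dvd_of_le hRAq) (qc_coprime p H)
    have hPQ : D ≤ Subgroup.centralizer ((⁅R, A⁆ : Subgroup G) : Set G) :=
      Subgroup.le_centralizer_iff.mp (hRA.trans inf_le_right)
    have hC : V ⊓ Subgroup.centralizer (D : Set G) ≤
        Subgroup.centralizer ((⁅R, A⁆ : Subgroup G) : Set G) := by
      rw [Subgroup.le_centralizer_iff, Subgroup.commutator_le]
      intro r hr a ha
      rw [Subgroup.mem_centralizer_iff]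
      intro u hu
      -- `a` centralizes `UD`, and `r` normalizes `UD`
      have hcent : ∀ w ∈ UD, w * a = a * w := by
        intro w hw
        have hw' : w ∈ Subgroup.centralizer (A : Set G) := (hl hw).2
        exact ((Subgroup.mem_centralizer_iff.mp hw') a ha).symm
      have hrH : r ∈ H := qc_le p H hr.1
      have hu' : u ∈ UD := hu
      rw [hUD, Subgroup.mem_inf] at hu'
      have hnorm : r⁻¹ * u * r ∈ UD := by
        rw [hUD, Subgroup.mem_inf]
        refine ⟨?_, ?_⟩
        · have := (Subgroup.mem_normalizer_iff.mp (hHV (H.inv_mem hrH)) u).mp hu'.1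
          simpa using this
        · rw [Subgroup.mem_centralizer_iff]
          intro d hd
          have h1 : d * r = r * d := (Subgroup.mem_centralizer_iff.mp hr.2) d hd
          have h2 : d * u = u * d := (Subgroup.mem_centralizer_iff.mp hu'.2) d hd
          have h3 : d * r⁻¹ = r⁻¹ * d := by
            calc d * r⁻¹ = r⁻¹ * (r * d) * r⁻¹ := by group
              _ = r⁻¹ * (d * r) * r⁻¹ := by rw [h1]
              _ = r⁻¹ * d := by group
          calc d * (r⁻¹ * u * r) = (d * r⁻¹) * u * r := by group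
            _ = r⁻¹ * (d * u) * r := by rw [h3]; group
            _ = r⁻¹ * u * (d * r) := by rw [h2]; group
            _ = r⁻¹ * u * r * d := by rw [h1]; group
      have h4 := hcent u hu
      have h5 := hcent (r⁻¹ * u * r) hnorm
      rw [commutatorElement_def]
      calc u * (r * a * r⁻¹ * a⁻¹) = r * ((r⁻¹ * u * r) * a) * r⁻¹ * a⁻¹ := by group
        _ = r * (a * (r⁻¹ * u * r)) * r⁻¹ * a⁻¹ := by rw [h5]
        _ = r * a * r⁻¹ * (a⁻¹ * (a * u)) * a⁻¹ := by group
        _ = r * a * r⁻¹ * (a⁻¹ * (u * a)) * a⁻¹ := by rw [h4]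
        _ = r * a * r⁻¹ * a⁻¹ * u := by group
    have hpq := H1.pq_lemma p D ⁅R, A⁆ V hDp hcop hVp hPQ ((hDA.trans hAH).trans hHV)
      (hRAH.trans hHV) hC
    have hbot : ⁅R, A⁆ = ⊥ := by
      rw [eq_bot_iff, ← hf]
      exact le_inf hRAH hpq
    exact Subgroup.commutator_eq_bot_iff_le_centralizer.mp hbot
  · have hl1'' : l = 1 := by omega
    rw [hl1'', pow_one] at hl
    rw [← hm, hl]

omit [Finite G] hp in
theorem card_mul_prime_of_relIndex {D A : Subgroup G} (hDA : D ≤ A) (hrel : D.relIndex A = p) :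
    Nat.card D * p = Nat.card A := by
  have := Subgroup.relIndex_mul_relIndex ⊥ D A bot_le hDA
  rwa [Subgroup.relIndex_bot_left, Subgroup.relIndex_bot_left, hrel] at this

/-- An active hyperplane of a best offender is a best offender with the same value. -/
theorem offender_of_active (hV : Cfsg.IsElementaryAbelian p V)
    (hHV : H ≤ Subgroup.normalizer (V : Set G))
    (hf : H ⊓ Subgroup.centralizer (V : Set G) = ⊥)
    {A : Subgroup G} (hAH : A ≤ H) (hA : Cfsg.IsBestOffenderOn p V A)
    {D : Subgroup G} (hD : IsActiveHyp p H A D) :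
    Cfsg.IsBestOffenderOn p V D ∧
      Nat.card D * Nat.card ↥(V ⊓ Subgroup.centralizer (D : Set G)) =
        Nat.card A * Nat.card ↥(V ⊓ Subgroup.centralizer (A : Set G)) := by
  have h1 := card_fixed_of_active hV hHV hf hAH hA hD
  obtain ⟨hDA, hrel, hnc⟩ := hD
  have hcardA := card_mul_prime_of_relIndex hDA hrel
  have heq : Nat.card D * Nat.card ↥(V ⊓ Subgroup.centralizer (D : Set G)) =
      Nat.card A * Nat.card ↥(V ⊓ Subgroup.centralizer (A : Set G)) := by
    rw [h1, ← hcardA]; ring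
  refine ⟨⟨fun B hB => ?_, ?_, ?_⟩, heq⟩
  · rw [heq]; exact hA.1 B (hB.trans hDA)
  · exact (Subgroup.commutator_mono hDA hDA).trans hA.2.1
  · exact fun a ha => hA.2.2 a (hDA ha)

/-- **A best offender `A` satisfies `|A| |C_V(A)| = |V|`** (in the setting of this file). -/
theorem card_mul_card_fixed_aux (hV : Cfsg.IsElementaryAbelian p V)
    (hHV : H ≤ Subgroup.normalizer (V : Set G))
    (hf : H ⊓ Subgroup.centralizer (V : Set G) = ⊥)
    (hS1 : Subgroup.centralizer (Cfsg.pPrimeCore p ↥H : Set ↥H) ≤ Cfsg.pPrimeCore p ↥H) :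
    ∀ (n : ℕ) (A : Subgroup G), Nat.card A = n → A ≤ H → Cfsg.IsBestOffenderOn p V A →
      Nat.card A * Nat.card ↥(V ⊓ Subgroup.centralizer (A : Set G)) = Nat.card V := by
  intro n
  induction n using Nat.strong_induction_on with
  | _ n ih =>
  intro A hn hAH hA
  by_cases hA1 : A = ⊥
  · subst hA1
    rw [centralizer_bot_eq_top, inf_top_eq, Subgroup.card_bot, one_mul]
  · obtain ⟨D, hD⟩ := exists_active hf hS1 hAH hA hA1
    obtain ⟨hDoff, heq⟩ := offender_of_active hV hHV hf hAH hA hD
    have hcardA := card_mul_prime_of_relIndex hD.1 hD.2.1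
    have hlt : Nat.card D < n := by
      have h2 := hp.out.two_le
      have hpos : 0 < Nat.card D := Nat.card_pos
      rw [← hn, ← hcardA]
      nlinarith
    rw [← heq]
    exact ih _ hlt D rfl (hD.1.trans hAH) hDoff

theorem card_mul_card_fixed (hV : Cfsg.IsElementaryAbelian p V)
    (hHV : H ≤ Subgroup.normalizer (V : Set G))
    (hf : H ⊓ Subgroup.centralizer (V : Set G) = ⊥)
    (hS1 : Subgroup.centralizer (Cfsg.pPrimeCore p ↥H : Set ↥H) ≤ Cfsg.pPrimeCore p ↥H)
    {A : Subgroup G} (hAH : A ≤ H) (hA : Cfsg.IsBestOffenderOn p V A) :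
    Nat.card A * Nat.card ↥(V ⊓ Subgroup.centralizer (A : Set G)) = Nat.card V :=
  card_mul_card_fixed_aux hV hHV hf hS1 _ A rfl hAH hA

end

end Cfsg.Agent.H47.Off
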