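import Mathlib
import Cfsg.Agent.H47.Offender

/-!
# Commutators with a cyclic group acting on an abelian normal subgroup, and
minimal best offenders.
-/

set_option autoImplicit false

namespace Cfsg.Agent.H47.Off

open Cfsg
open scoped commutatorElement

variable {G : Type*} [Group G]

theorem commutatorElement_mul_of_comm {V : Subgroup G} (hc : ∀ x ∈ V, ∀ y ∈ V, x * y = y * x)
    {a : G} (ha : a ∈ Subgroup.normalizer (V : Set G)) {v w : G} (hv : v ∈ V) (hw : w ∈ V) :
    ⁅v * w, a⁆ = ⁅v, a⁆ * ⁅w, a⁆ := by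
  have hv' : a * v⁻¹ * a⁻¹ ∈ V := (Subgroup.mem_normalizer_iff.mp ha v⁻¹).mp (V.inv_mem hv)
  have hw' : a * w⁻¹ * a⁻¹ ∈ V := (Subgroup.mem_normalizer_iff.mp ha w⁻¹).mp (V.inv_mem hw)
  rw [commutatorElement_def, commutatorElement_def, commutatorElement_def]
  calc v * w * a * (v * w)⁻¹ * a⁻¹ = v * (w * (a * w⁻¹ * a⁻¹) * (a * v⁻¹ * a⁻¹)) := by group
    _ = v * ((a * v⁻¹ * a⁻¹) * (w * (a * w⁻¹ * a⁻¹))) := by
        rw [hc _ (V.mul_mem hw hw') _ hv']
    _ = v * a * v⁻¹ * a⁻¹ * (w * a * w⁻¹ * a⁻¹) := by group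

/-- The commutator map `v ↦ [v, a]` on an abelian subgroup normalized by `a`. -/
def commHom (V : Subgroup G) (hc : ∀ x ∈ V, ∀ y ∈ V, x * y = y * x) (a : G)
    (ha : a ∈ Subgroup.normalizer (V : Set G)) : V →* G :=
  MonoidHom.mk' (fun v => ⁅(v : G), a⁆)
    (fun v w => commutatorElement_mul_of_comm hc ha v.2 w.2)

theorem commHom_apply (V : Subgroup G) (hc : ∀ x ∈ V, ∀ y ∈ V, x * y = y * x) (a : G)
    (ha : a ∈ Subgroup.normalizer (V : Set G)) (v : V) :
    commHom V hc a ha v = ⁅(v : G), a⁆ := rfl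

theorem mem_centralizer_zpowers_iff {a v : G} :
    v ∈ Subgroup.centralizer ((Subgroup.zpowers a : Subgroup G) : Set G) ↔ a * v = v * a := by
  constructor
  · intro h
    exact (Subgroup.mem_centralizer_iff.mp h) a (Subgroup.mem_zpowers a)
  · intro h
    rw [Subgroup.mem_centralizer_iff]
    rintro b ⟨k, rfl⟩
    have : Commute (a ^ k) v := Commute.zpow_left h k
    exact this

theorem commHom_ker (V : Subgroup G) (hc : ∀ x ∈ V, ∀ y ∈ V, x * y = y * x) (a : G)
    (ha : a ∈ Subgroup.normalizer (V : Set G)) :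
    (commHom V hc a ha).ker =
      (V ⊓ Subgroup.centralizer ((Subgroup.zpowers a : Subgroup G) : Set G)).subgroupOf V := by
  ext v
  rw [MonoidHom.mem_ker, commHom_apply, Subgroup.mem_subgroupOf, Subgroup.mem_inf,
    mem_centralizer_zpowers_iff, commutatorElement_eq_one_iff_mul_comm]
  constructor
  · intro h; exact ⟨v.2, h.symm⟩
  · intro h; exact h.2.symm

theorem commutator_zpowers_eq_range [Finite G] (V : Subgroup G)
    (hc : ∀ x ∈ V, ∀ y ∈ V, x * y = y * x) (a : G)
    (ha : a ∈ Subgroup.normalizer (V : Set G)) :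
    ⁅V, Subgroup.zpowers a⁆ = (commHom V hc a ha).range := by
  apply le_antisymm
  · rw [Subgroup.commutator_le]
    intro v hv b hb
    rw [← mem_powers_iff_mem_zpowers] at hb
    obtain ⟨n, rfl⟩ := hb
    have key : ∀ n : ℕ, ∀ v ∈ V, ∃ u ∈ V, ⁅v, a ^ n⁆ = ⁅u, a⁆ := by
      intro n
      induction n with
      | zero =>
        intro v _
        exact ⟨1, V.one_mem, by simp⟩
      | succ n ih =>
        intro v hv
        obtain ⟨u, hu, hue⟩ := ih v hv
        have hu' : a * u * a⁻¹ ∈ V := (Subgroup.mem_normalizer_iff.mp ha u).mp hu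
        refine ⟨v * (a * u * a⁻¹), V.mul_mem hv hu', ?_⟩
        rw [commutatorElement_mul_of_comm hc ha hv hu']
        have h1 : ⁅v, a ^ (n + 1)⁆ = ⁅v, a⁆ * (a * ⁅v, a ^ n⁆ * a⁻¹) := by
          rw [pow_succ', commutatorElement_def, commutatorElement_def, commutatorElement_def]
          group
        rw [h1, hue]
        congr 1
        rw [commutatorElement_def, commutatorElement_def]
        group
    obtain ⟨u, hu, hue⟩ := key n v hv
    rw [hue]
    exact ⟨⟨u, hu⟩, rfl⟩
  · rintro x ⟨v, rfl⟩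
    rw [commHom_apply]
    exact Subgroup.commutator_mem_commutator v.2 (Subgroup.mem_zpowers a)

/-- `|[V, ⟨a⟩]| = |V : C_V(a)|` for an abelian subgroup `V` normalized by `a`. -/
theorem card_commutator_zpowers [Finite G] (V : Subgroup G)
    (hc : ∀ x ∈ V, ∀ y ∈ V, x * y = y * x) (a : G)
    (ha : a ∈ Subgroup.normalizer (V : Set G)) :
    Nat.card ↥⁅V, Subgroup.zpowers a⁆ =
      (V ⊓ Subgroup.centralizer ((Subgroup.zpowers a : Subgroup G) : Set G)).relIndex V := by
  rw [commutator_zpowers_eq_range V hc a ha, ← Subgroup.index_ker, commHom_ker, Subgroup.relIndex]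

theorem comm_of_isElementaryAbelian {p : ℕ} {V : Subgroup G} (hV : Cfsg.IsElementaryAbelian p V) :
    ∀ x ∈ V, ∀ y ∈ V, x * y = y * x := by
  intro x hx y hy
  have := hV.1
  exact setLike_mul_comm hx hy

section

variable [Finite G] {p : ℕ} [hp : Fact p.Prime] {V H : Subgroup G}

omit [Finite G] in
/-- Faithfulness: a subgroup of `H` acting trivially on `V` is trivial. -/
theorem eq_bot_of_commutator_eq_bot (hf : H ⊓ Subgroup.centralizer (V : Set G) = ⊥)
    {D : Subgroup G} (hDH : D ≤ H) (h : ⁅V, D⁆ = ⊥) : D = ⊥ := by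
  rw [Subgroup.commutator_comm, Subgroup.commutator_eq_bot_iff_le_centralizer] at h
  rw [eq_bot_iff, ← hf]
  exact le_inf hDH h

omit [Finite G] in
/-- `[V, D] ≠ 1` for a nontrivial subgroup `D` of `H`. -/
theorem commutator_ne_bot (hf : H ⊓ Subgroup.centralizer (V : Set G) = ⊥)
    {D : Subgroup G} (hDH : D ≤ H) (h : D ≠ ⊥) : ⁅V, D⁆ ≠ ⊥ :=
  fun h' => h (eq_bot_of_commutator_eq_bot hf hDH h')

/-- The index of the fixed points of a best offender is its order. -/
theorem relIndex_fixed (hV : Cfsg.IsElementaryAbelian p V)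
    (hHV : H ≤ Subgroup.normalizer (V : Set G))
    (hf : H ⊓ Subgroup.centralizer (V : Set G) = ⊥)
    (hS1 : Subgroup.centralizer (Cfsg.pPrimeCore p ↥H : Set ↥H) ≤ Cfsg.pPrimeCore p ↥H)
    {A : Subgroup G} (hAH : A ≤ H) (hA : Cfsg.IsBestOffenderOn p V A) :
    (V ⊓ Subgroup.centralizer (A : Set G)).relIndex V = Nat.card A := by
  have h1 := card_mul_card_fixed hV hHV hf hS1 hAH hA
  have h2 := Subgroup.relIndex_mul_relIndex ⊥ (V ⊓ Subgroup.centralizer (A : Set G)) V bot_le
    inf_le_left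
  rw [Subgroup.relIndex_bot_left, Subgroup.relIndex_bot_left] at h2
  have hpos : 0 < Nat.card ↥(V ⊓ Subgroup.centralizer (A : Set G)) := Nat.card_pos
  have : Nat.card ↥(V ⊓ Subgroup.centralizer (A : Set G)) *
      (V ⊓ Subgroup.centralizer (A : Set G)).relIndex V =
      Nat.card ↥(V ⊓ Subgroup.centralizer (A : Set G)) * Nat.card A := by
    rw [h2, ← h1, mul_comm]
  exact Nat.eq_of_mul_eq_mul_left hpos this

/-- A best offender of order `p`: `[V, A]` has order `p` and the fixed points have index `p`. -/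
theorem card_commutator_of_card_eq_prime (hV : Cfsg.IsElementaryAbelian p V)
    (hHV : H ≤ Subgroup.normalizer (V : Set G))
    (hf : H ⊓ Subgroup.centralizer (V : Set G) = ⊥)
    (hS1 : Subgroup.centralizer (Cfsg.pPrimeCore p ↥H : Set ↥H) ≤ Cfsg.pPrimeCore p ↥H)
    {A : Subgroup G} (hAH : A ≤ H) (hA : Cfsg.IsBestOffenderOn p V A) (hcard : Nat.card A = p) :
    Nat.card ↥⁅V, A⁆ = p ∧ (V ⊓ Subgroup.centralizer (A : Set G)).relIndex V = p := by
  have hrel := relIndex_fixed hV hHV hf hS1 hAH hA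
  rw [hcard] at hrel
  refine ⟨?_, hrel⟩
  have hAe := elemAb_of_offender hf hAH hA
  have hA1 : A ≠ ⊥ := by
    intro h
    rw [h, Subgroup.card_bot] at hcard
    exact hp.out.one_lt.ne hcard
  obtain ⟨⟨a, haA⟩, ha1⟩ := Subgroup.ne_bot_iff_exists_ne_one.mp hA1
  have ha1' : a ≠ 1 := fun h => ha1 (Subtype.ext h)
  have hord : orderOf a = p := orderOf_eq_prime (hAe.2 a haA) ha1'
  have hz : Subgroup.zpowers a = A := by
    apply Subgroup.eq_of_le_of_card_ge
    · rw [Subgroup.zpowers_le]; exact haA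
    · rw [Nat.card_zpowers, hord, hcard]
  have := card_commutator_zpowers V (comm_of_isElementaryAbelian hV) a (hHV (hAH haA))
  rw [hz] at this
  rw [this, hrel]

/-- A minimal nontrivially-acting best offender has order `p`. -/
theorem card_eq_prime_of_minimal (hV : Cfsg.IsElementaryAbelian p V)
    (hHV : H ≤ Subgroup.normalizer (V : Set G))
    (hf : H ⊓ Subgroup.centralizer (V : Set G) = ⊥)
    (hS1 : Subgroup.centralizer (Cfsg.pPrimeCore p ↥H : Set ↥H) ≤ Cfsg.pPrimeCore p ↥H)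
    {A : Subgroup G} (hAH : A ≤ H) (hA : Cfsg.IsBestOffenderOn p V A) (hAV : ⁅V, A⁆ ≠ ⊥)
    (hmin : ∀ B : Subgroup G, B ≤ A → Cfsg.IsBestOffenderOn p V B → ⁅V, B⁆ ≠ ⊥ → B = A) :
    Nat.card A = p := by
  have hA1 : A ≠ ⊥ := by
    rintro rfl
    apply hAV
    rw [Subgroup.commutator_comm, Subgroup.commutator_eq_bot_iff_le_centralizer]
    exact bot_le
  obtain ⟨D, hD⟩ := exists_active hf hS1 hAH hA hA1
  obtain ⟨hDoff, -⟩ := offender_of_active hV hHV hf hAH hA hD
  have hcardA := card_mul_prime_of_relIndex hD.1 hD.2.1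
  have hDbot : D = ⊥ := by
    by_contra hne
    have hDA : D = A := hmin D hD.1 hDoff (commutator_ne_bot hf (hD.1.trans hAH) hne)
    rw [hDA] at hcardA
    have hpos : 0 < Nat.card A := Nat.card_pos
    have h2 := hp.out.one_lt
    nlinarith
  rw [hDbot, Subgroup.card_bot, one_mul] at hcardA
  exact hcardA.symm

end

end Cfsg.Agent.H47.Off
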