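import Mathlib
import Cfsg.Agent.H47.OffenderMin
import Cfsg.Agent.H47.AtomDecomp

/-!
# Best offenders decompose into best offenders of order `p`
-/

set_option autoImplicit false

namespace Cfsg.Agent.H47.Off

open Cfsg
open scoped IsMulCommutative

variable {G : Type*} [Group G]

theorem centralizer_sup_eq (C₁ C₂ : Subgroup G) :
    Subgroup.centralizer ((C₁ ⊔ C₂ : Subgroup G) : Set G) =
      Subgroup.centralizer (C₁ : Set G) ⊓ Subgroup.centralizer (C₂ : Set G) := by
  apply le_antisymm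
  · exact le_inf (Subgroup.centralizer_le (SetLike.coe_subset_coe.mpr le_sup_left))
      (Subgroup.centralizer_le (SetLike.coe_subset_coe.mpr le_sup_right))
  · rw [Subgroup.le_centralizer_iff]
    exact sup_le (Subgroup.le_centralizer_iff.mp inf_le_left)
      (Subgroup.le_centralizer_iff.mp inf_le_right)

theorem le_normalizer_of_comm {W X Y : Subgroup G} (hc : ∀ x ∈ W, ∀ y ∈ W, x * y = y * x)
    (hX : X ≤ W) (hY : Y ≤ W) : X ≤ Subgroup.normalizer (Y : Set G) := by
  refine le_trans ?_ (Subgroup.centralizer_le_normalizer _)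
  intro a ha
  rw [Subgroup.mem_centralizer_iff]
  intro y hy
  exact hc y (hY hy) a (hX ha)

section

variable [Finite G] {p : ℕ} [hp : Fact p.Prime] {V H : Subgroup G}

/-- The subgroups of a best offender `A` attaining the maximal value `|V|` are closed
under intersection. -/
theorem value_inf (hV : Cfsg.IsElementaryAbelian p V)
    (hHV : H ≤ Subgroup.normalizer (V : Set G))
    (hf : H ⊓ Subgroup.centralizer (V : Set G) = ⊥)
    (hS1 : Subgroup.centralizer (Cfsg.pPrimeCore p ↥H : Set ↥H) ≤ Cfsg.pPrimeCore p ↥H)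
    {A : Subgroup G} (hAH : A ≤ H) (hA : Cfsg.IsBestOffenderOn p V A)
    {C₁ C₂ : Subgroup G} (h₁ : C₁ ≤ A) (h₂ : C₂ ≤ A)
    (e₁ : Nat.card C₁ * Nat.card ↥(V ⊓ Subgroup.centralizer (C₁ : Set G)) = Nat.card V)
    (e₂ : Nat.card C₂ * Nat.card ↥(V ⊓ Subgroup.centralizer (C₂ : Set G)) = Nat.card V) :
    Nat.card ↥(C₁ ⊓ C₂) * Nat.card ↥(V ⊓ Subgroup.centralizer ((C₁ ⊓ C₂ : Subgroup G) : Set G))
      = Nat.card V := by
  have hAval := card_mul_card_fixed hV hHV hf hS1 hAH hA
  have hAe := elemAb_of_offender hf hAH hA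
  have hAc := comm_of_isElementaryAbelian hAe
  have hVc := comm_of_isElementaryAbelian hV
  have hsup := hA.1 (C₁ ⊔ C₂) (sup_le h₁ h₂)
  have hinf := hA.1 (C₁ ⊓ C₂) (inf_le_left.trans h₁)
  rw [hAval] at hsup hinf
  have hxy := H14.card_sup_mul_card_inf C₁ C₂ (le_normalizer_of_comm hAc h₁ h₂)
  set U₁ := V ⊓ Subgroup.centralizer (C₁ : Set G) with hU₁
  set U₂ := V ⊓ Subgroup.centralizer (C₂ : Set G) with hU₂
  have hsw := H14.card_sup_mul_card_inf U₁ U₂
    (le_normalizer_of_comm hVc (inf_le_left : U₁ ≤ V) (inf_le_left : U₂ ≤ V))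
  have hUinf : U₁ ⊓ U₂ = V ⊓ Subgroup.centralizer ((C₁ ⊔ C₂ : Subgroup G) : Set G) := by
    rw [centralizer_sup_eq]
    exact (inf_inf_distrib_left V _ _).symm
  have hUsup : U₁ ⊔ U₂ ≤ V ⊓ Subgroup.centralizer ((C₁ ⊓ C₂ : Subgroup G) : Set G) :=
    sup_le (inf_le_inf_left _ (Subgroup.centralizer_le (SetLike.coe_subset_coe.mpr inf_le_left)))
      (inf_le_inf_left _ (Subgroup.centralizer_le (SetLike.coe_subset_coe.mpr inf_le_right)))
  have hsu := Subgroup.card_le_of_le hUsup
  rw [hUinf] at hsw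
  have hNpos : 0 < Nat.card V := Nat.card_pos
  generalize Nat.card ↥(C₁ ⊓ C₂) = x at *
  generalize Nat.card ↥(C₁ ⊔ C₂) = y at *
  generalize Nat.card ↥(U₁ ⊔ U₂) = s at *
  generalize Nat.card ↥(V ⊓ Subgroup.centralizer ((C₁ ⊔ C₂ : Subgroup G) : Set G)) = w at *
  generalize Nat.card ↥(V ⊓ Subgroup.centralizer ((C₁ ⊓ C₂ : Subgroup G) : Set G)) = u at *
  generalize Nat.card ↥C₁ = c₁ at *
  generalize Nat.card ↥C₂ = c₂ at *
  generalize Nat.card ↥U₁ = u₁ at *
  generalize Nat.card ↥U₂ = u₂ at *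
  generalize Nat.card ↥V = N at *
  apply le_antisymm hinf
  have h1 : N * N = (x * s) * (y * w) := by
    calc N * N = (c₁ * u₁) * (c₂ * u₂) := by rw [e₁, e₂]
      _ = (c₁ * c₂) * (u₁ * u₂) := by ring
      _ = (y * x) * (s * w) := by rw [hxy, hsw]
      _ = (x * s) * (y * w) := by ring
  have h2 : (x * s) * (y * w) ≤ (x * u) * N :=
    Nat.mul_le_mul (Nat.mul_le_mul_left x hsu) hsup
  rw [← h1] at h2
  exact Nat.le_of_mul_le_mul_right h2 hNpos

/-- A subgroup of a best offender attaining the maximal value is a best offender. -/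
theorem offender_of_value (hV : Cfsg.IsElementaryAbelian p V)
    (hHV : H ≤ Subgroup.normalizer (V : Set G))
    (hf : H ⊓ Subgroup.centralizer (V : Set G) = ⊥)
    (hS1 : Subgroup.centralizer (Cfsg.pPrimeCore p ↥H : Set ↥H) ≤ Cfsg.pPrimeCore p ↥H)
    {A : Subgroup G} (hAH : A ≤ H) (hA : Cfsg.IsBestOffenderOn p V A)
    {C : Subgroup G} (hC : C ≤ A)
    (e : Nat.card C * Nat.card ↥(V ⊓ Subgroup.centralizer (C : Set G)) = Nat.card V) :
    Cfsg.IsBestOffenderOn p V C := by
  have hAval := card_mul_card_fixed hV hHV hf hS1 hAH hA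
  refine ⟨fun B hB => ?_, ?_, ?_⟩
  · rw [e, ← hAval]; exact hA.1 B (hB.trans hC)
  · exact (Subgroup.commutator_mono hC hC).trans hA.2.1
  · exact fun a ha => hA.2.2 a (hC ha)

/-- **Every best offender is an independent supremum of best offenders of order `p`.** -/
theorem exists_decomposition (hV : Cfsg.IsElementaryAbelian p V)
    (hHV : H ≤ Subgroup.normalizer (V : Set G))
    (hf : H ⊓ Subgroup.centralizer (V : Set G) = ⊥)
    (hS1 : Subgroup.centralizer (Cfsg.pPrimeCore p ↥H : Set ↥H) ≤ Cfsg.pPrimeCore p ↥H)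
    {A : Subgroup G} (hAH : A ≤ H) (hA : Cfsg.IsBestOffenderOn p V A) :
    ∃ (k : ℕ) (B : Fin k → Subgroup G),
      (∀ i, B i ≤ A ∧ Cfsg.IsBestOffenderOn p V (B i) ∧ Nat.card (B i) = p) ∧
        iSupIndep B ∧ ⨆ i, B i = A := by
  have hAval := card_mul_card_fixed hV hHV hf hS1 hAH hA
  have hAe := elemAb_of_offender hf hAH hA
  have : IsMulCommutative ↥A := hAe.1
  have hinj : Function.Injective A.subtype := A.subtype_injective
  let P : Subgroup ↥A → Prop := fun X =>
    Nat.card ↥(X.map A.subtype) *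
      Nat.card ↥(V ⊓ Subgroup.centralizer ((X.map A.subtype : Subgroup G) : Set G)) = Nat.card V
  have hPinf : ∀ X Y, P X → P Y → P (X ⊓ Y) := by
    intro X Y hX hY
    show Nat.card ↥((X ⊓ Y).map A.subtype) *
      Nat.card ↥(V ⊓ Subgroup.centralizer (((X ⊓ Y).map A.subtype : Subgroup G) : Set G))
        = Nat.card V
    rw [Subgroup.map_inf _ _ _ hinj]
    exact value_inf hV hHV hf hS1 hAH hA (Subgroup.map_subtype_le X) (Subgroup.map_subtype_le Y)
      hX hY
  have hPhyp : ∀ X, P X → ∀ x ∈ X,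
      (∀ D, P D → D ≤ X → Nat.card D * p = Nat.card X → x ∈ D) → x = 1 := by
    intro X hX x hx hall
    have hX'A : X.map A.subtype ≤ A := Subgroup.map_subtype_le X
    have hX'off := offender_of_value hV hHV hf hS1 hAH hA hX'A hX
    have hx' : (x : G) ∈ X.map A.subtype := ⟨x, hx, rfl⟩
    have key := eq_one_of_mem_active hf hS1 (hX'A.trans hAH) hX'off hx' (by
      intro D' hD'
      have hmap : (D'.subgroupOf A).map A.subtype = D' :=
        Subgroup.map_subgroupOf_eq_of_le (hD'.1.trans hX'A)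
      have hPD : P (D'.subgroupOf A) := by
        show Nat.card ↥((D'.subgroupOf A).map A.subtype) *
          Nat.card ↥(V ⊓ Subgroup.centralizer
            (((D'.subgroupOf A).map A.subtype : Subgroup G) : Set G)) = Nat.card V
        rw [hmap, (offender_of_active hV hHV hf (hX'A.trans hAH) hX'off hD').2]
        exact hX
      have hle : D'.subgroupOf A ≤ X := by
        rw [← Subgroup.map_le_map_iff_of_injective hinj, hmap]
        exact hD'.1
      have hcard : Nat.card ↥(D'.subgroupOf A) * p = Nat.card X := by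
        rw [← Subgroup.card_subtype A (D'.subgroupOf A), hmap, ← Subgroup.card_subtype A X]
        exact card_mul_prime_of_relIndex hD'.1 hD'.2.1
      exact Subgroup.mem_subgroupOf.mp (hall _ hPD hle hcard))
    exact Subtype.ext key
  have htop : (⊤ : Subgroup ↥A).map A.subtype = A := by
    rw [← MonoidHom.range_eq_map, Subgroup.range_subtype]
  have hPtop : P ⊤ := by
    show Nat.card ↥((⊤ : Subgroup ↥A).map A.subtype) *
      Nat.card ↥(V ⊓ Subgroup.centralizer
        ((((⊤ : Subgroup ↥A)).map A.subtype : Subgroup G) : Set G)) = Nat.card V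
    rw [htop]; exact hAval
  obtain ⟨k, B', hB'1, hB'2, hB'3⟩ := Atom.exists_decomp hp.out P hPinf hPhyp ⊤ hPtop
  refine ⟨k, fun i => (B' i).map A.subtype, ?_, ?_, ?_⟩
  · intro i
    refine ⟨Subgroup.map_subtype_le _, ?_, ?_⟩
    · exact offender_of_value hV hHV hf hS1 hAH hA (Subgroup.map_subtype_le _) (hB'1 i).1
    · rw [Subgroup.card_subtype]; exact (hB'1 i).2
  · rw [iSupIndep_def]
    intro i
    rw [disjoint_iff]
    have h1 : (⨆ j, ⨆ (_ : j ≠ i), (B' j).map A.subtype) =
        (⨆ j, ⨆ (_ : j ≠ i), B' j).map A.subtype := by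
      rw [Subgroup.map_iSup]
      congr 1
      funext j
      rw [Subgroup.map_iSup]
    rw [h1, ← Subgroup.map_inf _ _ _ hinj, ((iSupIndep_def.mp hB'2) i).eq_bot, Subgroup.map_bot]
  · rw [← Subgroup.map_iSup, hB'3, htop]

end

end Cfsg.Agent.H47.Off
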