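import Mathlib

/-!
# `SL₂(𝔽_p)` is generated by two transvections; recognition of `SL₂(𝔽_p)`

* `Cfsg.Agent.H47.SL2.closure_eq_top`: for nonzero `α β : ZMod p`, the matrices
  `[[1, α], [0, 1]]` and `[[1, 0], [β, 1]]` generate `SL₂(ZMod p)`.
* `Cfsg.Agent.H47.SL2.nonempty_mulEquiv`: a group `Γ = ⟨x, y⟩` with a faithful representation on a
  2-dimensional `ZMod p`-space in which `x`, `y` act as transvections with different axes is
  isomorphic to `SL₂(ZMod p)`.
* `Cfsg.Agent.H47.SL2.exists_commutator_of_ne`: for `p ≠ 2, 3` some commutator of `SL₂(ZMod p)`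
  is a nontrivial element of order `p`.
-/

set_option autoImplicit false

namespace Cfsg.Agent.H47.SL2

open Matrix
open scoped commutatorElement

section Field

variable {K : Type*} [Field K]

/-- The upper unitriangular matrix `[[1, t], [0, 1]]`. -/
def upper (t : K) : SpecialLinearGroup (Fin 2) K :=
  ⟨!![1, t; 0, 1], by simp [det_fin_two_of]⟩

/-- The lower unitriangular matrix `[[1, 0], [t, 1]]`. -/
def lower (t : K) : SpecialLinearGroup (Fin 2) K :=
  ⟨!![1, 0; t, 1], by simp [det_fin_two_of]⟩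

theorem upper_coe (t : K) : (upper t).1 = !![1, t; 0, 1] := rfl

theorem lower_coe (t : K) : (lower t).1 = !![1, 0; t, 1] := rfl

theorem upper_mul (s t : K) : upper s * upper t = upper (s + t) := by
  ext i j
  fin_cases i <;> fin_cases j <;>
    simp [upper_coe, Matrix.mul_apply, Fin.sum_univ_two, add_comm]

theorem lower_mul (s t : K) : lower s * lower t = lower (s + t) := by
  ext i j
  fin_cases i <;> fin_cases j <;>
    simp [lower_coe, Matrix.mul_apply, Fin.sum_univ_two]

theorem upper_zero : upper (0 : K) = 1 := by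
  ext i j
  fin_cases i <;> fin_cases j <;> simp [upper_coe]

theorem lower_zero : lower (0 : K) = 1 := by
  ext i j
  fin_cases i <;> fin_cases j <;> simp [lower_coe]

theorem upper_pow (t : K) (n : ℕ) : upper t ^ n = upper (n * t) := by
  induction n with
  | zero => rw [pow_zero, Nat.cast_zero, zero_mul, upper_zero]
  | succ n ih => rw [pow_succ, ih, upper_mul, Nat.cast_succ, add_mul, one_mul]

theorem lower_pow (t : K) (n : ℕ) : lower t ^ n = lower (n * t) := by
  induction n with
  | zero => rw [pow_zero, Nat.cast_zero, zero_mul, lower_zero]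
  | succ n ih => rw [pow_succ, ih, lower_mul, Nat.cast_succ, add_mul, one_mul]

theorem det_eq' (g : SpecialLinearGroup (Fin 2) K) :
    g.1 0 0 * g.1 1 1 - g.1 0 1 * g.1 1 0 = 1 := by
  have := g.det_coe
  rw [Matrix.det_fin_two] at this
  exact this

/-- A matrix with nonzero lower-left entry is a product `upper * lower * upper`. -/
theorem eq_upper_lower_upper (g : SpecialLinearGroup (Fin 2) K) (hc : g.1 1 0 ≠ 0) :
    g = upper ((g.1 0 0 - 1) / g.1 1 0) * lower (g.1 1 0) * upper ((g.1 1 1 - 1) / g.1 1 0) := by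
  have hdet := det_eq' g
  ext i j
  fin_cases i <;> fin_cases j
  · simp [upper_coe, lower_coe, Matrix.mul_apply, Fin.sum_univ_two]
    field_simp
    ring
  · simp [upper_coe, lower_coe, Matrix.mul_apply, Fin.sum_univ_two]
    field_simp
    linear_combination (-1 : K) * hdet
  · simp [upper_coe, lower_coe, Matrix.mul_apply, Fin.sum_univ_two]
  · simp [upper_coe, lower_coe, Matrix.mul_apply, Fin.sum_univ_two]
    field_simp
    ring

/-- A subgroup of `SL₂(K)` containing all elementary matrices is everything. -/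
theorem eq_top_of_upper_lower (S : Subgroup (SpecialLinearGroup (Fin 2) K))
    (hu : ∀ t, upper t ∈ S) (hl : ∀ t, lower t ∈ S) : S = ⊤ := by
  have key : ∀ g : SpecialLinearGroup (Fin 2) K, g.1 1 0 ≠ 0 → g ∈ S := by
    intro g hc
    rw [eq_upper_lower_upper g hc]
    exact S.mul_mem (S.mul_mem (hu _) (hl _)) (hu _)
  rw [eq_top_iff]
  intro g _
  by_cases hc : g.1 1 0 = 0
  · have hdet := det_eq' g
    rw [hc, mul_zero, sub_zero] at hdet
    have ha : g.1 0 0 ≠ 0 := left_ne_zero_of_mul_eq_one hdet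
    have h1 : (lower 1 * g).1 1 0 ≠ 0 := by
      simp [lower_coe, Matrix.mul_apply, Fin.sum_univ_two, hc, ha]
    have h2 := key _ h1
    have h3 : g = (lower 1)⁻¹ * (lower 1 * g) := by group
    rw [h3]
    exact S.mul_mem (S.inv_mem (hl 1)) h2
  · exact key g hc

end Field

section Prime

variable {p : ℕ} [Fact p.Prime]

/-- Two elementary matrices with nonzero parameters generate `SL₂(𝔽_p)`. -/
theorem closure_eq_top {α β : ZMod p} (hα : α ≠ 0) (hβ : β ≠ 0) :
    Subgroup.closure {upper α, lower β} = (⊤ : Subgroup (SpecialLinearGroup (Fin 2) (ZMod p))) := by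
  apply eq_top_of_upper_lower
  · intro t
    have : upper t = upper α ^ (t / α).val := by
      rw [upper_pow, ZMod.natCast_zmod_val, div_mul_cancel₀ _ hα]
    rw [this]
    exact Subgroup.pow_mem _ (Subgroup.subset_closure (by simp)) _
  · intro t
    have : lower t = lower β ^ (t / β).val := by
      rw [lower_pow, ZMod.natCast_zmod_val, div_mul_cancel₀ _ hβ]
    rw [this]
    exact Subgroup.pow_mem _ (Subgroup.subset_closure (by simp)) _

/-- **Recognition of `SL₂(𝔽_p)`**: a group generated by two elements acting faithfully on a plane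
as transvections `m₂ ↦ m₂ + α m₁` (fixing `m₁`) and `m₁ ↦ m₁ + β m₂` (fixing `m₂`). -/
theorem nonempty_mulEquiv {M : Type*} [AddCommGroup M] [Module (ZMod p) M]
    (hM : Module.finrank (ZMod p) M = 2) {Γ : Type*} [Group Γ]
    (ρ : Γ →* Module.End (ZMod p) M) (hρ : Function.Injective ρ) {x y : Γ}
    (hgen : Subgroup.closure {x, y} = ⊤) {m₁ m₂ : M} {α β : ZMod p} (hm₁ : m₁ ≠ 0)
    (hα : α ≠ 0) (hβ : β ≠ 0) (hx1 : ρ x m₁ = m₁) (hx2 : ρ x m₂ = m₂ + α • m₁)
    (hy2 : ρ y m₂ = m₂) (hy1 : ρ y m₁ = m₁ + β • m₂) :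
    Nonempty (Γ ≃* SpecialLinearGroup (Fin 2) (ZMod p)) := by
  classical
  have hli : LinearIndependent (ZMod p) ![m₁, m₂] := by
    rw [LinearIndependent.pair_iff]
    intro s t hst
    have ht : t = 0 := by
      by_contra ht
      have h0 : t • m₂ = -(s • m₁) := by
        rw [eq_neg_iff_add_eq_zero, add_comm]; exact hst
      have hm₂ : m₂ = (-(t⁻¹ * s)) • m₁ := by
        calc m₂ = t⁻¹ • (t • m₂) := by rw [smul_smul, inv_mul_cancel₀ ht, one_smul]
          _ = (-(t⁻¹ * s)) • m₁ := by rw [h0, smul_neg, smul_smul, neg_smul]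
      have h1 : ρ x m₂ = m₂ := by
        conv_lhs => rw [hm₂]
        rw [map_smul, hx1, ← hm₂]
      rw [h1] at hx2
      have h2 : α • m₁ = 0 := by
        have := hx2.symm
        rwa [add_eq_left] at this
      rcases smul_eq_zero.mp h2 with h | h
      · exact hα h
      · exact hm₁ h
    rw [ht, zero_smul, add_zero] at hst
    exact ⟨(smul_eq_zero.mp hst).resolve_right hm₁, ht⟩
  let b : Module.Basis (Fin 2) (ZMod p) M :=
    basisOfLinearIndependentOfCardEqFinrank hli (by simp [hM])
  have hb : ⇑b = ![m₁, m₂] := coe_basisOfLinearIndependentOfCardEqFinrank hli _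
  have hb0 : b 0 = m₁ := by rw [hb]; rfl
  have hb1 : b 1 = m₂ := by rw [hb]; rfl
  have hTx : LinearMap.toMatrixAlgEquiv b (ρ x) = (upper α).1 := by
    ext i j
    rw [LinearMap.toMatrixAlgEquiv_apply, upper_coe]
    fin_cases j
    · show (b.repr ((ρ x) (b 0))) i = _
      rw [hb0, hx1, ← hb0, Module.Basis.repr_self]
      fin_cases i <;> simp
    · show (b.repr ((ρ x) (b 1))) i = _
      rw [hb1, hx2, ← hb0, ← hb1, map_add, map_smul, Module.Basis.repr_self,
        Module.Basis.repr_self]
      fin_cases i <;> simp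
  have hTy : LinearMap.toMatrixAlgEquiv b (ρ y) = (lower β).1 := by
    ext i j
    rw [LinearMap.toMatrixAlgEquiv_apply, lower_coe]
    fin_cases j
    · show (b.repr ((ρ y) (b 0))) i = _
      rw [hb0, hy1, ← hb0, ← hb1, map_add, map_smul, Module.Basis.repr_self,
        Module.Basis.repr_self]
      fin_cases i <;> simp
    · show (b.repr ((ρ y) (b 1))) i = _
      rw [hb1, hy2, ← hb1, Module.Basis.repr_self]
      fin_cases i <;> simp
  have hdet : ∀ g : Γ, (LinearMap.toMatrixAlgEquiv b (ρ g)).det = 1 := by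
    intro g
    have hg : g ∈ Subgroup.closure {x, y} := by rw [hgen]; trivial
    induction hg using Subgroup.closure_induction with
    | mem z hz =>
      rcases hz with rfl | rfl
      · rw [hTx]; exact (upper α).2
      · rw [hTy]; exact (lower β).2
    | one => rw [map_one, map_one, det_one]
    | mul g h _ _ ihg ihh => rw [map_mul, map_mul, det_mul, ihg, ihh, one_mul]
    | inv g _ ih =>
      have h1 : LinearMap.toMatrixAlgEquiv b (ρ g⁻¹) * LinearMap.toMatrixAlgEquiv b (ρ g) = 1 := by
        rw [← map_mul, ← map_mul, inv_mul_cancel, map_one, map_one]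
      have h2 := congrArg det h1
      rw [det_mul, ih, mul_one, det_one] at h2
      exact h2
  let φ : Γ →* SpecialLinearGroup (Fin 2) (ZMod p) :=
    { toFun := fun g => ⟨LinearMap.toMatrixAlgEquiv b (ρ g), hdet g⟩
      map_one' := by
        apply Subtype.ext
        show LinearMap.toMatrixAlgEquiv b (ρ 1) = 1
        rw [map_one, map_one]
      map_mul' := fun g h => by
        apply Subtype.ext
        show LinearMap.toMatrixAlgEquiv b (ρ (g * h)) =
          LinearMap.toMatrixAlgEquiv b (ρ g) * LinearMap.toMatrixAlgEquiv b (ρ h)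
        rw [map_mul, map_mul] }
  have hφ : ∀ g, (φ g).1 = LinearMap.toMatrixAlgEquiv b (ρ g) := fun g => rfl
  have hinj : Function.Injective φ := by
    intro g h hgh
    have h1 : LinearMap.toMatrixAlgEquiv b (ρ g) = LinearMap.toMatrixAlgEquiv b (ρ h) := by
      rw [← hφ, ← hφ, hgh]
    exact hρ ((LinearMap.toMatrixAlgEquiv b).injective h1)
  have hsurj : Function.Surjective φ := by
    rw [← MonoidHom.range_eq_top, eq_top_iff, ← closure_eq_top hα hβ, Subgroup.closure_le]
    rintro z (rfl | rfl)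
    · exact ⟨x, Subtype.ext hTx⟩
    · exact ⟨y, Subtype.ext hTy⟩
  exact ⟨MulEquiv.ofBijective φ ⟨hinj, hsurj⟩⟩

/-- For `p ≠ 2, 3`, `SL₂(𝔽_p)` contains a commutator that is a nontrivial element of order `p`. -/
theorem exists_commutator_of_ne (hp2 : p ≠ 2) (hp3 : p ≠ 3) :
    ∃ d t : SpecialLinearGroup (Fin 2) (ZMod p), ⁅d, t⁆ ≠ 1 ∧ ⁅d, t⁆ ^ p = 1 := by
  have hp : p.Prime := Fact.out
  have h2 : (2 : ZMod p) ≠ 0 := by
    intro h
    have h' : ((2 : ℕ) : ZMod p) = 0 := by exact_mod_cast h
    rw [ZMod.natCast_eq_zero_iff] at h'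
    exact hp2 ((Nat.prime_dvd_prime_iff_eq hp Nat.prime_two).mp h')
  have h3 : (3 : ZMod p) ≠ 0 := by
    intro h
    have h' : ((3 : ℕ) : ZMod p) = 0 := by exact_mod_cast h
    rw [ZMod.natCast_eq_zero_iff] at h'
    exact hp3 ((Nat.prime_dvd_prime_iff_eq hp Nat.prime_three).mp h')
  let d : SpecialLinearGroup (Fin 2) (ZMod p) :=
    ⟨!![2, 0; 0, 2⁻¹], by simp [det_fin_two_of, h2]⟩
  have hd : d.1 = !![2, 0; 0, 2⁻¹] := rfl
  have key : d * upper (1 : ZMod p) = upper (3 : ZMod p) * (upper (1 : ZMod p) * d) := by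
    ext i j
    fin_cases i <;> fin_cases j
    · simp [hd, upper_coe, Matrix.mul_apply, Fin.sum_univ_two]
    · simp [hd, upper_coe, Matrix.mul_apply, Fin.sum_univ_two]
      field_simp
      ring
    · simp [hd, upper_coe, Matrix.mul_apply, Fin.sum_univ_two]
    · simp [hd, upper_coe, Matrix.mul_apply, Fin.sum_univ_two]
  have hcomm : ⁅d, upper (1 : ZMod p)⁆ = upper (3 : ZMod p) := by
    rw [commutatorElement_def, key]
    group
  refine ⟨d, upper (1 : ZMod p), ?_, ?_⟩
  · rw [hcomm]
    intro h
    have h' := congrArg (fun g : SpecialLinearGroup (Fin 2) (ZMod p) => g.1 0 1) h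
    simp only [upper_coe] at h'
    simp at h'
    exact h3 h'
  · rw [hcomm, upper_pow, CharP.cast_eq_zero, zero_mul, upper_zero]

end Prime

end Cfsg.Agent.H47.SL2
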