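import Mathlib
import Cfsg.Agent.H47.OffenderDecomp
import Cfsg.Agent.H47.SL2Gen
import Cfsg.Agent.H24.QuadGroup

/-!
# A minimal best offender and a conjugate generate `SL₂(p)`

Kurzweil–Stellmacher 9.3.6-type statement: in the setting of `Offender.lean`, if `A` is a minimal
nontrivially-acting best offender and `x ∈ O_{p'}(H)` does not centralize `A`, then
`L = ⟨A, A^x⟩ ≅ SL₂(p)`, `|[V, L]| = p²`, `C_L([V, L]) = 1` and `p ∈ {2, 3}`.
-/

set_option autoImplicit false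

namespace Cfsg.Agent.H47.Off

open Cfsg
open scoped commutatorElement

variable {G : Type*} [Group G]

/-! ### General lemmas -/

theorem le_normalizer_of_conj_mem {K W : Subgroup G}
    (h : ∀ g ∈ K, ∀ w ∈ W, g * w * g⁻¹ ∈ W) : K ≤ Subgroup.normalizer (W : Set G) := by
  intro g hg
  rw [Subgroup.mem_normalizer_iff]
  intro w
  constructor
  · exact h g hg w
  · intro hw
    have := h g⁻¹ (K.inv_mem hg) _ hw
    have e : g⁻¹ * (g * w * g⁻¹) * g⁻¹⁻¹ = w := by group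
    rwa [e] at this

/-- A subgroup normalizing `V` normalizes `[V, K]`. -/
theorem le_normalizer_commutator {V K : Subgroup G}
    (hK : K ≤ Subgroup.normalizer (V : Set G)) : K ≤ Subgroup.normalizer ((⁅V, K⁆ : Subgroup G) : Set G) := by
  apply le_normalizer_of_conj_mem
  intro g hg w hw
  rw [Subgroup.commutator_def] at hw
  induction hw using Subgroup.closure_induction with
  | mem z hz =>
    obtain ⟨v, hv, k, hk, rfl⟩ := hz
    have e : g * ⁅v, k⁆ * g⁻¹ = ⁅g * v * g⁻¹, g * k * g⁻¹⁆ := by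
      simp only [commutatorElement_def]; group
    rw [e]
    exact Subgroup.commutator_mem_commutator ((Subgroup.mem_normalizer_iff.mp (hK hg) v).mp hv)
      (K.mul_mem (K.mul_mem hg hk) (K.inv_mem hg))
  | one => simp
  | mul y z _ _ ihy ihz =>
    have e : g * (y * z) * g⁻¹ = (g * y * g⁻¹) * (g * z * g⁻¹) := by group
    rw [e]
    exact Subgroup.mul_mem _ ihy ihz
  | inv y _ ih =>
    have e : g * y⁻¹ * g⁻¹ = (g * y * g⁻¹)⁻¹ := by group
    rw [e]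
    exact Subgroup.inv_mem _ ih

/-- The elements `g` normalizing `W` with `[V, g] ⊆ W`. -/
def commStab (V W : Subgroup G) : Subgroup G where
  carrier := {g | g ∈ Subgroup.normalizer (W : Set G) ∧ ∀ v ∈ V, ⁅v, g⁆ ∈ W}
  one_mem' := ⟨Subgroup.one_mem _, fun v _ => by rw [commutatorElement_one_right]; exact W.one_mem⟩
  mul_mem' := by
    rintro g h ⟨hg1, hg2⟩ ⟨hh1, hh2⟩
    refine ⟨Subgroup.mul_mem _ hg1 hh1, fun v hv => ?_⟩
    have e : ⁅v, g * h⁆ = ⁅v, g⁆ * (g * ⁅v, h⁆ * g⁻¹) := by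
      simp only [commutatorElement_def]; group
    rw [e]
    exact W.mul_mem (hg2 v hv) ((Subgroup.mem_normalizer_iff.mp hg1 _).mp (hh2 v hv))
  inv_mem' := by
    rintro g ⟨hg1, hg2⟩
    refine ⟨Subgroup.inv_mem _ hg1, fun v hv => ?_⟩
    have e : ⁅v, g⁻¹⁆ = g⁻¹ * (⁅v, g⁆)⁻¹ * g⁻¹⁻¹ := by
      simp only [commutatorElement_def]; group
    rw [e]
    exact (Subgroup.mem_normalizer_iff.mp (Subgroup.inv_mem _ hg1) _).mp (W.inv_mem (hg2 v hv))

theorem mem_commStab {V W : Subgroup G} {g : G} :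
    g ∈ commStab V W ↔ g ∈ Subgroup.normalizer (W : Set G) ∧ ∀ v ∈ V, ⁅v, g⁆ ∈ W := Iff.rfl

/-- `[V, A ⊔ B] = [V, A] ⊔ [V, B]` when `A`, `B` normalize `V`. -/
theorem commutator_sup_eq {V A B : Subgroup G} (hA : A ≤ Subgroup.normalizer (V : Set G))
    (hB : B ≤ Subgroup.normalizer (V : Set G)) : ⁅V, A ⊔ B⁆ = ⁅V, A⁆ ⊔ ⁅V, B⁆ := by
  apply le_antisymm
  · have hWV : ⁅V, A⁆ ⊔ ⁅V, B⁆ ≤ V :=
      sup_le (Subgroup.le_normalizer_iff_commutator_le_left.mp hA)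
        (Subgroup.le_normalizer_iff_commutator_le_left.mp hB)
    have aux : ∀ K : Subgroup G, ⁅V, K⁆ ≤ ⁅V, A⁆ ⊔ ⁅V, B⁆ → K ≤ commStab V (⁅V, A⁆ ⊔ ⁅V, B⁆) := by
      intro K hKW
      have h1 : K ≤ Subgroup.normalizer ((⁅V, A⁆ ⊔ ⁅V, B⁆ : Subgroup G) : Set G) := by
        apply le_normalizer_of_conj_mem
        intro g hg w hw
        have e : g * w * g⁻¹ = (⁅w, g⁆)⁻¹ * w := by
          simp only [commutatorElement_def]; group
        rw [e]
        exact Subgroup.mul_mem _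
          (Subgroup.inv_mem _ (hKW (Subgroup.commutator_mem_commutator (hWV hw) hg))) hw
      intro g hg
      exact ⟨h1 hg, fun v hv => hKW (Subgroup.commutator_mem_commutator hv hg)⟩
    have h2 : A ⊔ B ≤ commStab V (⁅V, A⁆ ⊔ ⁅V, B⁆) :=
      sup_le (aux A le_sup_left) (aux B le_sup_right)
    rw [Subgroup.commutator_le]
    intro v hv g hg
    exact (h2 hg).2 v hv
  · exact sup_le (Subgroup.commutator_mono le_rfl le_sup_left)
      (Subgroup.commutator_mono le_rfl le_sup_right)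

theorem map_conj_eq_of_mem_normalizer {V : Subgroup G} {x : G}
    (hx : x ∈ Subgroup.normalizer (V : Set G)) : V.map (MulAut.conj x).toMonoidHom = V := by
  ext y
  constructor
  · rintro ⟨z, hz, rfl⟩
    exact (Subgroup.mem_normalizer_iff.mp hx z).mp hz
  · intro hy
    refine ⟨x⁻¹ * y * x, ?_, ?_⟩
    · have := (Subgroup.mem_normalizer_iff.mp (Subgroup.inv_mem _ hx) y).mp hy
      simpa using this
    · show x * (x⁻¹ * y * x) * x⁻¹ = y
      group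

section Prime

variable [Finite G] {p : ℕ} [hp : Fact p.Prime]

/-- A subgroup of prime order is generated by any nontrivial element. -/
theorem exists_zpowers_eq {A : Subgroup G} (hA : Nat.card A = p) :
    ∃ a ∈ A, a ≠ 1 ∧ a ^ p = 1 ∧ Subgroup.zpowers a = A := by
  have hA1 : A ≠ ⊥ := by
    intro h
    rw [h, Subgroup.card_bot] at hA
    exact hp.out.one_lt.ne hA
  obtain ⟨⟨a, haA⟩, ha1⟩ := Subgroup.ne_bot_iff_exists_ne_one.mp hA1
  have ha1' : a ≠ 1 := fun h => ha1 (Subtype.ext h)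
  have hdvd : orderOf a ∣ p := hA ▸ Subgroup.orderOf_dvd_natCard A haA
  have hord : orderOf a = p := by
    rcases (Nat.dvd_prime hp.out).mp hdvd with h | h
    · exact absurd (orderOf_eq_one_iff.mp h) ha1'
    · exact h
  refine ⟨a, haA, ha1', ?_, ?_⟩
  · rw [← hord]; exact pow_orderOf_eq_one a
  · apply Subgroup.eq_of_le_of_card_ge
    · rw [Subgroup.zpowers_le]; exact haA
    · rw [Nat.card_zpowers, hord, hA]

theorem inf_eq_bot_of_card_prime {X Y : Subgroup G} (hX : Nat.card X = p) (hY : Nat.card Y = p)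
    (hne : X ≠ Y) : X ⊓ Y = ⊥ := by
  by_contra h
  have hd : Nat.card ↥(X ⊓ Y) ∣ p := hX ▸ Subgroup.card_dvd_of_le inf_le_left
  rcases (Nat.dvd_prime hp.out).mp hd with h1 | h1
  · exact h (Subgroup.card_eq_one.mp h1)
  · have e1 : X ⊓ Y = X := Subgroup.eq_of_le_of_card_ge inf_le_left (by rw [h1, hX])
    have e2 : X ⊓ Y = Y := Subgroup.eq_of_le_of_card_ge inf_le_right (by rw [h1, hY])
    exact hne (e1.symm.trans e2)

/-- An element of order dividing `p` normalizing a subgroup of order `p` centralizes it. -/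
theorem commute_of_card_prime {W₁ : Subgroup G} (hW : Nat.card W₁ = p) {a : G}
    (ha : a ∈ Subgroup.normalizer (W₁ : Set G)) (hap : a ^ p = 1) :
    ∀ w ∈ W₁, a * w = w * a := by
  intro w hw
  by_cases hw1 : w = 1
  · rw [hw1, mul_one, one_mul]
  have hdvd : orderOf w ∣ p := hW ▸ Subgroup.orderOf_dvd_natCard W₁ hw
  have hord : orderOf w = p := by
    rcases (Nat.dvd_prime hp.out).mp hdvd with h | h
    · exact absurd (orderOf_eq_one_iff.mp h) hw1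
    · exact h
  have hz : Subgroup.zpowers w = W₁ := by
    apply Subgroup.eq_of_le_of_card_ge
    · rw [Subgroup.zpowers_le]; exact hw
    · rw [Nat.card_zpowers, hord, hW]
  have hc : a * w * a⁻¹ ∈ Subgroup.zpowers w := by
    rw [hz]; exact (Subgroup.mem_normalizer_iff.mp ha w).mp hw
  rw [← mem_powers_iff_mem_zpowers, Submonoid.mem_powers_iff] at hc
  obtain ⟨k, hk⟩ := hc
  have key : ∀ n : ℕ, a ^ n * w * (a ^ n)⁻¹ = w ^ (k ^ n) := by
    intro n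
    induction n with
    | zero => simp
    | succ n ih =>
      have e : a ^ (n + 1) * w * (a ^ (n + 1))⁻¹ = a * (a ^ n * w * (a ^ n)⁻¹) * a⁻¹ := by
        rw [pow_succ']; group
      rw [e, ih, ← conj_pow, ← hk, ← pow_mul, pow_succ, mul_comm]
  have h1 := key p
  rw [hap, one_mul, inv_one, mul_one] at h1
  have h2 : w ^ (k ^ p) = w ^ 1 := by rw [pow_one]; exact h1.symm
  rw [pow_inj_mod, hord] at h2
  have h3 : ((k ^ p : ℕ) : ZMod p) = ((1 : ℕ) : ZMod p) :=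
    (ZMod.natCast_eq_natCast_iff' _ _ _).mpr h2
  rw [Nat.cast_pow, ZMod.pow_card] at h3
  have h4 : k % p = 1 % p := (ZMod.natCast_eq_natCast_iff' k 1 p).mp h3
  have h5 : w ^ k = w ^ 1 := by rw [pow_inj_mod, hord]; exact h4
  rw [pow_one] at h5
  rw [h5] at hk
  calc a * w = (a * w * a⁻¹) * a := by group
    _ = w * a := by rw [← hk]

end Prime

section Setting

variable [Finite G] {p : ℕ} [hp : Fact p.Prime] {V H : Subgroup G}

omit hp in
theorem eq_one_of_mem_qc {y : G} (hy : y ∈ qc p H) (hyp : y ^ p = 1) : y = 1 := by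
  have h2' : (⟨y, hy⟩ : ↥(qc p H)) ^ Nat.card ↥(qc p H) = 1 := pow_card_eq_one'
  have h2 : y ^ Nat.card (qc p H) = 1 := by
    have := congrArg Subtype.val h2'
    rwa [SubgroupClass.coe_pow] at this
  have h3 : y ^ Nat.gcd p (Nat.card (qc p H)) = 1 := pow_gcd_eq_one.mpr ⟨hyp, h2⟩
  have h4 : Nat.gcd p (Nat.card (qc p H)) = 1 := (qc_coprime p H).symm
  rwa [h4, pow_one] at h3

omit [Finite G] hp in
theorem conj_mem_qc {h y : G} (hh : h ∈ H) (hy : y ∈ qc p H) : h * y * h⁻¹ ∈ qc p H :=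
  (Subgroup.mem_normalizer_iff.mp (le_normalizer_qc p H hh) y).mp hy

omit [Finite G] hp in
/-- Decomposition `L = A (L ∩ Q)` elementwise. -/
theorem exists_mul_of_mem {L A : Subgroup G} (hAL : A ≤ L) (hLH : L ≤ H)
    (hLA : L ≤ A ⊔ (L ⊓ qc p H)) {g : G} (hg : g ∈ L) :
    ∃ y ∈ A, ∃ n ∈ L ⊓ qc p H, y * n = g := by
  have hAN : A ≤ Subgroup.normalizer ((L ⊓ qc p H : Subgroup G) : Set G) := by
    apply le_normalizer_of_conj_mem
    intro y hy w hw
    exact ⟨L.mul_mem (L.mul_mem (hAL hy) hw.1) (L.inv_mem (hAL hy)),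
      conj_mem_qc (hLH (hAL hy)) hw.2⟩
  have h1 : g ∈ ((A ⊔ (L ⊓ qc p H) : Subgroup G) : Set G) := hLA hg
  rw [Subgroup.coe_mul_of_left_le_normalizer_right A _ hAN, Set.mem_mul] at h1
  obtain ⟨y, hy, n, hn, rfl⟩ := h1
  exact ⟨y, hy, n, hn, rfl⟩

omit [Finite G] hp in
/-- Elements of `C_L([V, L])` have order dividing `p`. -/
theorem pow_eq_one_of_mem_centralizer_commutator (hV : Cfsg.IsElementaryAbelian p V)
    (hf : H ⊓ Subgroup.centralizer (V : Set G) = ⊥) {L : Subgroup G} (hLH : L ≤ H)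
    (hLV : L ≤ Subgroup.normalizer (V : Set G)) {r : G} (hrL : r ∈ L)
    (hrC : r ∈ Subgroup.centralizer ((⁅V, L⁆ : Subgroup G) : Set G)) : r ^ p = 1 := by
  have hWV : ⁅V, L⁆ ≤ V := Subgroup.le_normalizer_iff_commutator_le_left.mp hLV
  have hmem : r ^ p ∈ H ⊓ Subgroup.centralizer (V : Set G) := by
    refine Subgroup.mem_inf.mpr ⟨H.pow_mem (hLH hrL) p, ?_⟩
    rw [Subgroup.mem_centralizer_iff]
    intro v hv
    have hc : ⁅v, r⁆ ∈ ⁅V, L⁆ := Subgroup.commutator_mem_commutator hv hrL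
    have hcr : Commute r ⁅v, r⁆ := ((Subgroup.mem_centralizer_iff.mp hrC) _ hc).symm
    have hcp : ⁅v, r⁆ ^ p = 1 := hV.2 _ (hWV hc)
    have hconj : r * v * r⁻¹ = (⁅v, r⁆)⁻¹ * v := by
      simp only [commutatorElement_def]; group
    have key : ∀ n : ℕ, r ^ n * v * (r ^ n)⁻¹ = (⁅v, r⁆ ^ n)⁻¹ * v := by
      intro n
      induction n with
      | zero => simp
      | succ n ih =>
        have e : r ^ (n + 1) * v * (r ^ (n + 1))⁻¹ = r * (r ^ n * v * (r ^ n)⁻¹) * r⁻¹ := by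
          rw [pow_succ']; group
        have hc2 : r * (⁅v, r⁆ ^ n)⁻¹ = (⁅v, r⁆ ^ n)⁻¹ * r := ((hcr.pow_right n).inv_right).eq
        rw [e, ih]
        calc r * ((⁅v, r⁆ ^ n)⁻¹ * v) * r⁻¹ = (r * (⁅v, r⁆ ^ n)⁻¹) * v * r⁻¹ := by group
          _ = (⁅v, r⁆ ^ n)⁻¹ * (r * v * r⁻¹) := by rw [hc2]; group
          _ = (⁅v, r⁆ ^ (n + 1))⁻¹ * v := by rw [hconj, pow_succ', mul_inv_rev, mul_assoc]
    have h1 := key p
    rw [hcp, inv_one, one_mul] at h1
    calc v * r ^ p = (r ^ p * v * (r ^ p)⁻¹) * r ^ p := by rw [h1]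
      _ = r ^ p * v := by group
  rw [hf] at hmem
  exact Subgroup.mem_bot.mp hmem

omit hp in
/-- `C_L([V, L]) ≤ A` whenever `L = A (L ∩ Q)` with `A` of exponent `p`. -/
theorem inf_centralizer_commutator_le (hV : Cfsg.IsElementaryAbelian p V)
    (hf : H ⊓ Subgroup.centralizer (V : Set G) = ⊥) {L : Subgroup G} (hLH : L ≤ H)
    (hLV : L ≤ Subgroup.normalizer (V : Set G)) {A : Subgroup G} (hAL : A ≤ L)
    (hAp : ∀ y ∈ A, y ^ p = 1) (hLA : L ≤ A ⊔ (L ⊓ qc p H)) :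
    L ⊓ Subgroup.centralizer ((⁅V, L⁆ : Subgroup G) : Set G) ≤ A := by
  have hLW : L ≤ Subgroup.normalizer ((⁅V, L⁆ : Subgroup G) : Set G) := le_normalizer_commutator hLV
  rintro r ⟨hrL, hrC⟩
  have hrp := pow_eq_one_of_mem_centralizer_commutator hV hf hLH hLV hrL hrC
  obtain ⟨y, hy, n, hn, hyn⟩ := exists_mul_of_mem hAL hLH hLA hrL
  -- `r` commutes with `n`
  have hcomm : Commute r n := by
    rw [← commutatorElement_eq_one_iff_commute]
    apply eq_one_of_mem_qc (p := p) (H := H)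
    · have e : ⁅r, n⁆ = (r * n * r⁻¹) * n⁻¹ := by rw [commutatorElement_def]
      rw [e]
      exact (qc p H).mul_mem (conj_mem_qc (hLH hrL) hn.2) ((qc p H).inv_mem hn.2)
    · apply pow_eq_one_of_mem_centralizer_commutator hV hf hLH hLV
      · rw [commutatorElement_def]
        exact L.mul_mem (L.mul_mem (L.mul_mem hrL hn.1) (L.inv_mem hrL)) (L.inv_mem hn.1)
      · -- `n r⁻¹ n⁻¹` centralizes `[V, L]`
        have h1 : n * r⁻¹ * n⁻¹ ∈ Subgroup.centralizer ((⁅V, L⁆ : Subgroup G) : Set G) := by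
          rw [Subgroup.mem_centralizer_iff]
          intro w hw
          have hw' : n⁻¹ * w * n ∈ ⁅V, L⁆ := by
            have := (Subgroup.mem_normalizer_iff.mp (hLW (L.inv_mem hn.1)) w).mp hw
            simpa using this
          have h2 : (n⁻¹ * w * n) * r = r * (n⁻¹ * w * n) :=
            (Subgroup.mem_centralizer_iff.mp hrC) _ hw'
          have h3 : (n⁻¹ * w * n) * r⁻¹ = r⁻¹ * (n⁻¹ * w * n) := by
            calc (n⁻¹ * w * n) * r⁻¹ = r⁻¹ * (r * (n⁻¹ * w * n)) * r⁻¹ := by group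
              _ = r⁻¹ * ((n⁻¹ * w * n) * r) * r⁻¹ := by rw [h2]
              _ = r⁻¹ * (n⁻¹ * w * n) := by group
          calc w * (n * r⁻¹ * n⁻¹) = n * ((n⁻¹ * w * n) * r⁻¹) * n⁻¹ := by group
            _ = n * (r⁻¹ * (n⁻¹ * w * n)) * n⁻¹ := by rw [h3]
            _ = n * r⁻¹ * n⁻¹ * w := by group
        have e : ⁅r, n⁆ = r * (n * r⁻¹ * n⁻¹) := by rw [commutatorElement_def]; group
        rw [e]
        exact Subgroup.mul_mem _ hrC h1
  have hyn' : y = r * n⁻¹ := by rw [← hyn]; group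
  have hcy : Commute y n := by
    rw [hyn']
    exact hcomm.mul_left ((Commute.refl n).inv_left)
  have h1 : (y * n) ^ p = y ^ p * n ^ p := hcy.mul_pow p
  rw [hyn, hrp, hAp y hy, one_mul] at h1
  have hn1 : n = 1 := eq_one_of_mem_qc hn.2 h1.symm
  rw [← hyn, hn1, mul_one]
  exact hy

omit [Finite G] hp in
/-- Commutators of `L = A (L ∩ Q)` (with `A` abelian) lie in `Q`. -/
theorem commutator_mem_qc {L A : Subgroup G} (hAL : A ≤ L) (hLH : L ≤ H)
    (hAc : ∀ x ∈ A, ∀ y ∈ A, x * y = y * x) (hLA : L ≤ A ⊔ (L ⊓ qc p H)) {g₁ g₂ : G}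
    (hg₁ : g₁ ∈ L) (hg₂ : g₂ ∈ L) : ⁅g₁, g₂⁆ ∈ qc p H := by
  obtain ⟨y₁, hy₁, n₁, hn₁, rfl⟩ := exists_mul_of_mem hAL hLH hLA hg₁
  obtain ⟨y₂, hy₂, n₂, hn₂, rfl⟩ := exists_mul_of_mem hAL hLH hLA hg₂
  have hy₁H := hLH (hAL hy₁)
  have hy₂H := hLH (hAL hy₂)
  have e : ⁅y₁ * n₁, y₂ * n₂⁆ = (y₁ * n₁ * y₁⁻¹) * ((y₁ * y₂) * (n₂ * n₁⁻¹) * (y₁ * y₂)⁻¹) *
      ⁅y₁, y₂⁆ * (y₂ * n₂⁻¹ * y₂⁻¹) := by
    simp only [commutatorElement_def]; group
  have e2 : ⁅y₁, y₂⁆ = 1 := commutatorElement_eq_one_iff_commute.mpr (hAc y₁ hy₁ y₂ hy₂)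
  rw [e, e2, mul_one]
  exact (qc p H).mul_mem ((qc p H).mul_mem (conj_mem_qc hy₁H hn₁.2)
    (conj_mem_qc (H.mul_mem hy₁H hy₂H) ((qc p H).mul_mem hn₂.2 ((qc p H).inv_mem hn₁.2))))
    (conj_mem_qc hy₂H ((qc p H).inv_mem hn₂.2))

omit [Finite G] hp in
theorem pow_eq_one_of_mem_zpowers {a y : G} (hap : a ^ p = 1) (hy : y ∈ Subgroup.zpowers a) :
    y ^ p = 1 := by
  obtain ⟨k, rfl⟩ := hy
  show (a ^ k) ^ p = 1
  rw [← zpow_natCast, ← zpow_mul, mul_comm, zpow_mul, zpow_natCast, hap, one_zpow]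

omit [Finite G] hp in
theorem comm_of_mem_zpowers {a x y : G} (hx : x ∈ Subgroup.zpowers a)
    (hy : y ∈ Subgroup.zpowers a) : x * y = y * x := by
  obtain ⟨i, rfl⟩ := hx
  obtain ⟨j, rfl⟩ := hy
  show a ^ i * a ^ j = a ^ j * a ^ i
  rw [← zpow_add, ← zpow_add, add_comm]

/-- Core statement: two distinct subgroups `A = ⟨a⟩`, `B = ⟨b⟩` of order `p` of `H` with
`a⁻¹ b ∈ O_{p'}(H)` and `|[V, A]| = |[V, B]| = p` generate `SL₂(p)`. -/
theorem sl2_core (hV : Cfsg.IsElementaryAbelian p V)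
    (hHV : H ≤ Subgroup.normalizer (V : Set G))
    (hf : H ⊓ Subgroup.centralizer (V : Set G) = ⊥)
    {A B : Subgroup G} (hAH : A ≤ H) (hBH : B ≤ H) {a b : G}
    (hza : Subgroup.zpowers a = A) (hzb : Subgroup.zpowers b = B) (ha1 : a ≠ 1) (hb1 : b ≠ 1)
    (hap : a ^ p = 1) (hbp : b ^ p = 1) (hn₀Q : a⁻¹ * b ∈ qc p H) (hAB : A ⊓ B = ⊥)
    (hW₁card : Nat.card ↥⁅V, A⁆ = p) (hW₂card : Nat.card ↥⁅V, B⁆ = p) :
    (p = 2 ∨ p = 3) ∧ Nat.card ↥(⁅V, A ⊔ B⁆) = p ^ 2 ∧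
      (A ⊔ B) ⊓ Subgroup.centralizer ((⁅V, A ⊔ B⁆ : Subgroup G) : Set G) = ⊥ ∧
      Nonempty (↥(A ⊔ B) ≃* Matrix.SpecialLinearGroup (Fin 2) (ZMod p)) := by
  have hpp : p.Prime := hp.out
  have hVc := comm_of_isElementaryAbelian hV
  have haA : a ∈ A := hza ▸ Subgroup.mem_zpowers a
  have hbB : b ∈ B := hzb ▸ Subgroup.mem_zpowers b
  have hAp : ∀ y ∈ A, y ^ p = 1 := fun y hy => pow_eq_one_of_mem_zpowers hap (hza ▸ hy)
  have hBp : ∀ y ∈ B, y ^ p = 1 := fun y hy => pow_eq_one_of_mem_zpowers hbp (hzb ▸ hy)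
  have hAc : ∀ x ∈ A, ∀ y ∈ A, x * y = y * x :=
    fun x hx y hy => comm_of_mem_zpowers (a := a) (hza ▸ hx) (hza ▸ hy)
  have hANV : A ≤ Subgroup.normalizer (V : Set G) := hAH.trans hHV
  have hBNV : B ≤ Subgroup.normalizer (V : Set G) := hBH.trans hHV
  obtain ⟨L, hL⟩ : ∃ L : Subgroup G, L = A ⊔ B := ⟨_, rfl⟩
  rw [← hL]
  have hAL : A ≤ L := hL ▸ le_sup_left
  have hBL : B ≤ L := hL ▸ le_sup_right
  have hLH : L ≤ H := hL ▸ sup_le hAH hBH
  have hLV : L ≤ Subgroup.normalizer (V : Set G) := hLH.trans hHV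
  have haL : a ∈ L := hAL haA
  have hbL : b ∈ L := hBL hbB
  have hn₀L : a⁻¹ * b ∈ L := L.mul_mem (L.inv_mem haL) hbL
  -- decompositions
  have hLA : L ≤ A ⊔ (L ⊓ qc p H) := by
    have hb' : b ∈ A ⊔ (L ⊓ qc p H) := by
      have e : b = a * (a⁻¹ * b) := by group
      rw [e]
      exact Subgroup.mul_mem _ (Subgroup.mem_sup_left haA)
        (Subgroup.mem_sup_right ⟨hn₀L, hn₀Q⟩)
    have hB' : B ≤ A ⊔ (L ⊓ qc p H) := by
      have h1 : Subgroup.zpowers b ≤ A ⊔ (L ⊓ qc p H) := by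
        rw [Subgroup.zpowers_le]; exact hb'
      rwa [hzb] at h1
    calc L = A ⊔ B := hL
      _ ≤ A ⊔ (L ⊓ qc p H) := sup_le le_sup_left hB'
  have hLB : L ≤ B ⊔ (L ⊓ qc p H) := by
    have ha' : a ∈ B ⊔ (L ⊓ qc p H) := by
      have e : a = b * (a⁻¹ * b)⁻¹ := by group
      rw [e]
      exact Subgroup.mul_mem _ (Subgroup.mem_sup_left hbB)
        (Subgroup.mem_sup_right (Subgroup.inv_mem _ ⟨hn₀L, hn₀Q⟩))
    have hA' : A ≤ B ⊔ (L ⊓ qc p H) := by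
      have h1 : Subgroup.zpowers a ≤ B ⊔ (L ⊓ qc p H) := by
        rw [Subgroup.zpowers_le]; exact ha'
      rwa [hza] at h1
    calc L = A ⊔ B := hL
      _ ≤ B ⊔ (L ⊓ qc p H) := sup_le hA' le_sup_left
  -- the centralizer of `[V, L]` in `L` is trivial
  have hR : L ⊓ Subgroup.centralizer ((⁅V, L⁆ : Subgroup G) : Set G) = ⊥ := by
    rw [eq_bot_iff, ← hAB]
    exact le_inf (inf_centralizer_commutator_le hV hf hLH hLV hAL hAp hLA)
      (inf_centralizer_commutator_le hV hf hLH hLV hBL hBp hLB)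
  -- the commutator
  have hW : ⁅V, L⁆ = ⁅V, A⁆ ⊔ ⁅V, B⁆ := by rw [hL]; exact commutator_sup_eq hANV hBNV
  have hW₁V : ⁅V, A⁆ ≤ V := Subgroup.le_normalizer_iff_commutator_le_left.mp hANV
  have hW₂V : ⁅V, B⁆ ≤ V := Subgroup.le_normalizer_iff_commutator_le_left.mp hBNV
  have haW₁ : ∀ w ∈ ⁅V, A⁆, a * w = w * a :=
    commute_of_card_prime hW₁card (le_normalizer_commutator hANV haA) hap
  have hbW₂ : ∀ w ∈ ⁅V, B⁆, b * w = w * b :=
    commute_of_card_prime hW₂card (le_normalizer_commutator hBNV hbB) hbp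
  have hW₁₂ : ⁅V, A⁆ ⊓ ⁅V, B⁆ = ⊥ := by
    apply inf_eq_bot_of_card_prime hW₁card hW₂card
    intro hEq
    have hWeq : ⁅V, L⁆ = ⁅V, A⁆ := by rw [hW, ← hEq, sup_idem]
    have hLC : L ≤ Subgroup.centralizer ((⁅V, L⁆ : Subgroup G) : Set G) := by
      rw [hWeq]
      have hA' : A ≤ Subgroup.centralizer ((⁅V, A⁆ : Subgroup G) : Set G) := by
        rw [Subgroup.le_centralizer_iff]
        intro w hw
        have h1 : w ∈ Subgroup.centralizer ((Subgroup.zpowers a : Subgroup G) : Set G) :=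
          mem_centralizer_zpowers_iff.mpr (haW₁ w hw)
        rwa [hza] at h1
      have hB' : B ≤ Subgroup.centralizer ((⁅V, A⁆ : Subgroup G) : Set G) := by
        rw [Subgroup.le_centralizer_iff]
        intro w hw
        have h1 : w ∈ Subgroup.centralizer ((Subgroup.zpowers b : Subgroup G) : Set G) :=
          mem_centralizer_zpowers_iff.mpr (hbW₂ w (hEq ▸ hw))
        rwa [hzb] at h1
      calc L = A ⊔ B := hL
        _ ≤ _ := sup_le hA' hB'
    have hLbot : L = ⊥ := by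
      rw [eq_bot_iff, ← hR]
      exact le_inf le_rfl hLC
    rw [hLbot] at haL
    exact ha1 (Subgroup.mem_bot.mp haL)
  have hWcard : Nat.card ↥⁅V, L⁆ = p ^ 2 := by
    rw [hW]
    have h1 := H14.card_sup_mul_card_inf ⁅V, A⁆ ⁅V, B⁆ (le_normalizer_of_comm hVc hW₁V hW₂V)
    rw [hW₁₂, Subgroup.card_bot, mul_one, hW₁card, hW₂card] at h1
    rw [h1, sq]
  -- linearization
  have hWV : ⁅V, L⁆ ≤ V := Subgroup.le_normalizer_iff_commutator_le_left.mp hLV
  have hWe : Cfsg.IsElementaryAbelian p (⁅V, L⁆ : Subgroup G) :=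
    H28.isElementaryAbelian_of_le p hV hWV
  have hLW : L ≤ Subgroup.normalizer ((⁅V, L⁆ : Subgroup G) : Set G) := le_normalizer_commutator hLV
  obtain ⟨M, iM, iMod, iFin, e, ρ, he, hρ⟩ :=
    H24.Quad.exists_conj_rep (⁅V, L⁆ : Subgroup G) hWe L.subtype (fun γ => hLW γ.2)
  have hMcard : Nat.card M = p ^ 2 := by rw [Nat.card_congr e, hWcard]
  have hfin : Module.finrank (ZMod p) M = 2 := by
    have : Module.Finite (ZMod p) M := Module.Finite.of_finite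
    have h1 := Module.natCard_eq_pow_finrank (K := ZMod p) (V := M)
    rw [hMcard, Nat.card_zmod] at h1
    exact (Nat.pow_right_injective hpp.two_le h1).symm
  have hρinj : Function.Injective ρ := by
    rw [injective_iff_map_eq_one]
    intro γ hγ
    have hmem : (γ : G) ∈ L ⊓ Subgroup.centralizer ((⁅V, L⁆ : Subgroup G) : Set G) := by
      refine Subgroup.mem_inf.mpr ⟨γ.2, ?_⟩
      rw [Subgroup.mem_centralizer_iff]
      intro w hw
      have h1 := hρ γ (e.symm ⟨w, hw⟩)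
      rw [hγ, Module.End.one_apply, Equiv.apply_symm_apply] at h1
      have h2 : w = (γ : G) * w * (γ : G)⁻¹ := h1
      calc w * (γ : G) = ((γ : G) * w * (γ : G)⁻¹) * (γ : G) := by rw [← h2]
        _ = (γ : G) * w := by group
    rw [hR] at hmem
    exact Subtype.ext (Subgroup.mem_bot.mp hmem)
  have hgen : Subgroup.closure {(⟨a, haL⟩ : ↥L), ⟨b, hbL⟩} = ⊤ := by
    apply Subgroup.map_injective L.subtype_injective
    rw [MonoidHom.map_closure, ← MonoidHom.range_eq_map, Subgroup.range_subtype, Set.image_pair]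
    show Subgroup.closure {a, b} = L
    rw [hL, ← hza, ← hzb, Subgroup.zpowers_eq_closure, Subgroup.zpowers_eq_closure,
      ← Subgroup.closure_union]
    rfl
  obtain ⟨w₁, hw₁, hw₁1, hw₁p, hzw₁⟩ := exists_zpowers_eq hW₁card
  obtain ⟨w₂, hw₂, hw₂1, hw₂p, hzw₂⟩ := exists_zpowers_eq hW₂card
  have hw₁W : w₁ ∈ ⁅V, L⁆ := by rw [hW]; exact Subgroup.mem_sup_left hw₁
  have hw₂W : w₂ ∈ ⁅V, L⁆ := by rw [hW]; exact Subgroup.mem_sup_right hw₂
  obtain ⟨m₁, hm₁⟩ : ∃ m₁ : M, e m₁ = ⟨w₁, hw₁W⟩ := ⟨e.symm ⟨w₁, hw₁W⟩, e.apply_symm_apply _⟩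
  obtain ⟨m₂, hm₂⟩ : ∃ m₂ : M, e m₂ = ⟨w₂, hw₂W⟩ := ⟨e.symm ⟨w₂, hw₂W⟩, e.apply_symm_apply _⟩
  have hem₁ : ((e m₁ : ↥⁅V, L⁆) : G) = w₁ := by rw [hm₁]
  have hem₂ : ((e m₂ : ↥⁅V, L⁆) : G) = w₂ := by rw [hm₂]
  have he0 : e 0 = 1 := H24.Quad.model_zero he
  have hm₁0 : m₁ ≠ 0 := by
    intro h
    apply hw₁1
    rw [← hem₁, h, he0]
    rfl
  have hepow : ∀ (k : ℕ) (m : M), e (k • m) = (e m) ^ k := by
    intro k m
    induction k with
    | zero => rw [zero_smul, pow_zero]; exact he0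
    | succ k ih => rw [succ_nsmul, he, ih, pow_succ]
  -- the conjugation formulas
  have hexa : ∃ k : ℕ, a * w₂ * a⁻¹ = w₁ ^ k * w₂ := by
    have h1 : a * w₂ * a⁻¹ * w₂⁻¹ ∈ ⁅V, A⁆ := by
      have h2 : ⁅w₂, a⁆ ∈ ⁅V, A⁆ := Subgroup.commutator_mem_commutator (hW₂V hw₂) haA
      have e1 : a * w₂ * a⁻¹ * w₂⁻¹ = (⁅w₂, a⁆)⁻¹ := by rw [commutatorElement_def]; group
      rw [e1]
      exact Subgroup.inv_mem _ h2
    rw [← hzw₁, ← mem_powers_iff_mem_zpowers, Submonoid.mem_powers_iff] at h1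
    obtain ⟨k, hk⟩ := h1
    exact ⟨k, by rw [hk]; group⟩
  have hexb : ∃ l : ℕ, b * w₁ * b⁻¹ = w₂ ^ l * w₁ := by
    have h1 : b * w₁ * b⁻¹ * w₁⁻¹ ∈ ⁅V, B⁆ := by
      have h2 : ⁅w₁, b⁆ ∈ ⁅V, B⁆ := Subgroup.commutator_mem_commutator (hW₁V hw₁) hbB
      have e1 : b * w₁ * b⁻¹ * w₁⁻¹ = (⁅w₁, b⁆)⁻¹ := by rw [commutatorElement_def]; group
      rw [e1]
      exact Subgroup.inv_mem _ h2
    rw [← hzw₂, ← mem_powers_iff_mem_zpowers, Submonoid.mem_powers_iff] at h1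
    obtain ⟨l, hl⟩ := h1
    exact ⟨l, by rw [hl]; group⟩
  obtain ⟨k, hk⟩ := hexa
  obtain ⟨l, hl⟩ := hexb
  have hx1 : ρ ⟨a, haL⟩ m₁ = m₁ := by
    apply e.injective
    apply Subtype.ext
    rw [hρ, hem₁]
    show a * w₁ * a⁻¹ = w₁
    rw [haW₁ w₁ hw₁]; group
  have hy2 : ρ ⟨b, hbL⟩ m₂ = m₂ := by
    apply e.injective
    apply Subtype.ext
    rw [hρ, hem₂]
    show b * w₂ * b⁻¹ = w₂
    rw [hbW₂ w₂ hw₂]; group
  have hx2 : ρ ⟨a, haL⟩ m₂ = m₂ + (k : ZMod p) • m₁ := by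
    apply e.injective
    apply Subtype.ext
    rw [hρ, he, Subgroup.coe_mul, hem₂, Nat.cast_smul_eq_nsmul, hepow, Subgroup.coe_pow, hem₁]
    show a * w₂ * a⁻¹ = w₂ * w₁ ^ k
    rw [hk]
    exact hVc _ (V.pow_mem (hW₁V hw₁) k) _ (hW₂V hw₂)
  have hy1 : ρ ⟨b, hbL⟩ m₁ = m₁ + (l : ZMod p) • m₂ := by
    apply e.injective
    apply Subtype.ext
    rw [hρ, he, Subgroup.coe_mul, hem₁, Nat.cast_smul_eq_nsmul, hepow, Subgroup.coe_pow, hem₂]
    show b * w₁ * b⁻¹ = w₁ * w₂ ^ l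
    rw [hl]
    exact hVc _ (V.pow_mem (hW₂V hw₂) l) _ (hW₁V hw₁)
  -- an element of `L` centralizing `w₁` and `w₂` is trivial
  have hcent : ∀ g ∈ L, g * w₁ = w₁ * g → g * w₂ = w₂ * g → g = 1 := by
    intro g hg h1 h2
    have hgC : g ∈ Subgroup.centralizer ((⁅V, L⁆ : Subgroup G) : Set G) := by
      have h3 : ⁅V, L⁆ ≤ Subgroup.centralizer ((Subgroup.zpowers g : Subgroup G) : Set G) := by
        rw [hW, ← hzw₁, ← hzw₂]
        refine sup_le ?_ ?_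
        · rw [Subgroup.zpowers_le, mem_centralizer_zpowers_iff]; exact h1
        · rw [Subgroup.zpowers_le, mem_centralizer_zpowers_iff]; exact h2
      exact (Subgroup.le_centralizer_iff.mp h3) (Subgroup.mem_zpowers g)
    have hmem : g ∈ L ⊓ Subgroup.centralizer ((⁅V, L⁆ : Subgroup G) : Set G) :=
      Subgroup.mem_inf.mpr ⟨hg, hgC⟩
    rw [hR] at hmem
    exact Subgroup.mem_bot.mp hmem
  have hα : (k : ZMod p) ≠ 0 := by
    intro h0
    rw [ZMod.natCast_eq_zero_iff] at h0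
    obtain ⟨c, rfl⟩ := h0
    have hk' : a * w₂ * a⁻¹ = w₂ := by rw [hk, pow_mul, hw₁p, one_pow, one_mul]
    apply ha1
    apply hcent a haL (haW₁ w₁ hw₁)
    calc a * w₂ = (a * w₂ * a⁻¹) * a := by group
      _ = w₂ * a := by rw [hk']
  have hβ : (l : ZMod p) ≠ 0 := by
    intro h0
    rw [ZMod.natCast_eq_zero_iff] at h0
    obtain ⟨c, rfl⟩ := h0
    have hl' : b * w₁ * b⁻¹ = w₁ := by rw [hl, pow_mul, hw₂p, one_pow, one_mul]
    apply hb1
    refine hcent b hbL ?_ (hbW₂ w₂ hw₂)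
    calc b * w₁ = (b * w₁ * b⁻¹) * b := by group
      _ = w₁ * b := by rw [hl']
  have hiso : Nonempty (↥L ≃* Matrix.SpecialLinearGroup (Fin 2) (ZMod p)) :=
    SL2.nonempty_mulEquiv hfin ρ hρinj hgen hm₁0 hα hβ hx1 hx2 hy2 hy1
  obtain ⟨φ⟩ := hiso
  have hp23 : p = 2 ∨ p = 3 := by
    by_contra hcon
    push Not at hcon
    obtain ⟨d, t, hne, hpow⟩ := SL2.exists_commutator_of_ne hcon.1 hcon.2
    have hc : φ.symm ⁅d, t⁆ = ⁅φ.symm d, φ.symm t⁆ := map_commutatorElement φ.symm d t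
    have hcQ : ((⁅φ.symm d, φ.symm t⁆ : ↥L) : G) ∈ qc p H := by
      have e1 : ((⁅φ.symm d, φ.symm t⁆ : ↥L) : G) = ⁅((φ.symm d : ↥L) : G), ((φ.symm t : ↥L) : G)⁆ := by
        simp only [commutatorElement_def, Subgroup.coe_mul, Subgroup.coe_inv]
      rw [e1]
      exact commutator_mem_qc hAL hLH hAc hLA (φ.symm d).2 (φ.symm t).2
    have hcp : ((⁅φ.symm d, φ.symm t⁆ : ↥L) : G) ^ p = 1 := by
      rw [← hc, ← Subgroup.coe_pow, ← map_pow, hpow, map_one]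
      rfl
    have hc1 := eq_one_of_mem_qc hcQ hcp
    apply hne
    have h1 : φ.symm ⁅d, t⁆ = 1 := by rw [hc]; exact Subtype.ext hc1
    exact (MulEquiv.map_eq_one_iff φ.symm).mp h1
  exact ⟨hp23, hWcard, hR, ⟨φ⟩⟩

/-- **A minimal nontrivially-acting best offender `A` and a conjugate `A^x`, `x ∈ O_{p'}(H)` not
centralizing `A`, generate `SL₂(p)` acting faithfully on the plane `[V, ⟨A, A^x⟩]`; `p ≤ 3`.** -/
theorem sl2_of_minimal (hV : Cfsg.IsElementaryAbelian p V)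
    (hHV : H ≤ Subgroup.normalizer (V : Set G))
    (hf : H ⊓ Subgroup.centralizer (V : Set G) = ⊥)
    (hS1 : Subgroup.centralizer (Cfsg.pPrimeCore p ↥H : Set ↥H) ≤ Cfsg.pPrimeCore p ↥H)
    {A : Subgroup G} (hAH : A ≤ H) (hA : Cfsg.IsBestOffenderOn p V A) (hAV : ⁅V, A⁆ ≠ ⊥)
    (hmin : ∀ B : Subgroup G, B ≤ A → Cfsg.IsBestOffenderOn p V B → ⁅V, B⁆ ≠ ⊥ → B = A)
    {x : G} (hx : x ∈ qc p H) (hxA : x ∉ Subgroup.centralizer (A : Set G)) :
    (p = 2 ∨ p = 3) ∧ Nat.card ↥(⁅V, A ⊔ A.map (MulAut.conj x).toMonoidHom⁆) = p ^ 2 ∧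
      (A ⊔ A.map (MulAut.conj x).toMonoidHom) ⊓ Subgroup.centralizer
        ((⁅V, A ⊔ A.map (MulAut.conj x).toMonoidHom⁆ : Subgroup G) : Set G) = ⊥ ∧
      Nonempty (↥(A ⊔ A.map (MulAut.conj x).toMonoidHom) ≃*
        Matrix.SpecialLinearGroup (Fin 2) (ZMod p)) := by
  have hcardA := card_eq_prime_of_minimal hV hHV hf hS1 hAH hA hAV hmin
  obtain ⟨hW₁card, -⟩ := card_commutator_of_card_eq_prime hV hHV hf hS1 hAH hA hcardA
  have hAe := elemAb_of_offender hf hAH hA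
  obtain ⟨a, haA, ha1, hap, hza⟩ := exists_zpowers_eq hcardA
  have hxH : x ∈ H := qc_le p H hx
  have hxV : x ∈ Subgroup.normalizer (V : Set G) := hHV hxH
  have hinj : Function.Injective (MulAut.conj x).toMonoidHom := (MulAut.conj x).injective
  have hzb : Subgroup.zpowers (x * a * x⁻¹) = A.map (MulAut.conj x).toMonoidHom := by
    rw [← hza, MonoidHom.map_zpowers]
    rfl
  have hb1 : x * a * x⁻¹ ≠ 1 := by
    intro h
    apply ha1
    have e : a = x⁻¹ * (x * a * x⁻¹) * x := by group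
    rw [e, h]
    group
  have hbp : (x * a * x⁻¹) ^ p = 1 := by
    rw [conj_pow, hap]
    group
  have hBH : A.map (MulAut.conj x).toMonoidHom ≤ H := by
    rintro y ⟨z, hz, rfl⟩
    exact H.mul_mem (H.mul_mem hxH (hAH hz)) (H.inv_mem hxH)
  have hcardB : Nat.card ↥(A.map (MulAut.conj x).toMonoidHom) = p := by
    rw [Subgroup.card_map_of_injective hinj, hcardA]
  have hn₀Q : a⁻¹ * (x * a * x⁻¹) ∈ qc p H := by
    have h1 : a⁻¹ * x * a⁻¹⁻¹ ∈ qc p H := conj_mem_qc (H.inv_mem (hAH haA)) hx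
    have e : a⁻¹ * (x * a * x⁻¹) = (a⁻¹ * x * a⁻¹⁻¹) * x⁻¹ := by group
    rw [e]
    exact (qc p H).mul_mem h1 ((qc p H).inv_mem hx)
  have hAB : A ⊓ A.map (MulAut.conj x).toMonoidHom = ⊥ := by
    apply inf_eq_bot_of_card_prime hcardA hcardB
    intro hEq
    apply hxA
    have hbB : x * a * x⁻¹ ∈ A.map (MulAut.conj x).toMonoidHom := ⟨a, haA, rfl⟩
    have hbA : x * a * x⁻¹ ∈ A := hEq.symm ▸ hbB
    have hn₀A : a⁻¹ * (x * a * x⁻¹) ∈ A := A.mul_mem (A.inv_mem haA) hbA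
    have hn₀1 := eq_one_of_mem_qc hn₀Q (hAe.2 _ hn₀A)
    have hba : x * a * x⁻¹ = a := (inv_mul_eq_one.mp hn₀1).symm
    have hxa : a * x = x * a := by
      calc a * x = (x * a * x⁻¹) * x := by rw [hba]
        _ = x * a := by group
    have h2 : x ∈ Subgroup.centralizer ((Subgroup.zpowers a : Subgroup G) : Set G) :=
      mem_centralizer_zpowers_iff.mpr hxa
    rwa [hza] at h2
  have hW₂card : Nat.card ↥⁅V, A.map (MulAut.conj x).toMonoidHom⁆ = p := by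
    have e : ⁅V, A.map (MulAut.conj x).toMonoidHom⁆ =
        (⁅V, A⁆).map (MulAut.conj x).toMonoidHom := by
      rw [Subgroup.map_commutator, map_conj_eq_of_mem_normalizer hxV]
    rw [e, Subgroup.card_map_of_injective hinj, hW₁card]
  exact sl2_core hV hHV hf hAH hBH hza hzb ha1 hb1 hap hbp hn₀Q hAB hW₁card hW₂card

end Setting

end Cfsg.Agent.H47.Off
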