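import Mathlib
import Cfsg.Agent.H47.OffenderSL2

/-!
# Structure of a faithful group generated by best offenders

Kurzweil–Stellmacher 9.3.7/9.3.8-type statements in the setting of `Offender.lean`.
A subgroup `A ≤ H` of order `p` with `|[V, A]| = p` is called a *transvection subgroup*
(`IsTrans`).  For such `A` and `y ∈ O_{p'}(H)` not centralizing `A` the group
`L = ⟨A, A^y⟩ ≅ SL₂(p)` contains all `O_{p'}(H)`-conjugates of `A`, so `L = [O_{p'}(H), A] A`,
and every transvection subgroup lies in `L` or centralizes `[V, L]`.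
-/

set_option autoImplicit false

namespace Cfsg.Agent.H47.Off

open Cfsg
open scoped commutatorElement

variable {G : Type*} [Group G]

/-! ### Conjugates of subgroups -/

/-- The conjugate `x A x⁻¹`. -/
abbrev cj (x : G) (A : Subgroup G) : Subgroup G := A.map (MulAut.conj x).toMonoidHom

theorem mem_cj {x g : G} {A : Subgroup G} : g ∈ cj x A ↔ x⁻¹ * g * x ∈ A := by
  constructor
  · rintro ⟨a, ha, rfl⟩
    have e : x⁻¹ * ((MulAut.conj x).toMonoidHom a) * x = a := by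
      show x⁻¹ * (x * a * x⁻¹) * x = a
      group
    rw [e]; exact ha
  · intro h
    refine ⟨x⁻¹ * g * x, h, ?_⟩
    show x * (x⁻¹ * g * x) * x⁻¹ = g
    group

theorem conj_mem_cj {x a : G} {A : Subgroup G} (ha : a ∈ A) : x * a * x⁻¹ ∈ cj x A :=
  ⟨a, ha, rfl⟩

theorem cj_mul (x y : G) (A : Subgroup G) : cj (x * y) A = cj x (cj y A) := by
  ext g
  rw [mem_cj, mem_cj, mem_cj]
  have e : (x * y)⁻¹ * g * (x * y) = y⁻¹ * (x⁻¹ * g * x) * y := by group
  rw [e]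

theorem cj_one (A : Subgroup G) : cj 1 A = A := by
  ext g
  rw [mem_cj]
  simp

theorem card_cj (x : G) (A : Subgroup G) : Nat.card ↥(cj x A) = Nat.card A :=
  Subgroup.card_map_of_injective (MulAut.conj x).injective

theorem cj_le {x : G} {A H : Subgroup G} (hx : x ∈ H) (hA : A ≤ H) : cj x A ≤ H := by
  rintro g ⟨a, ha, rfl⟩
  exact H.mul_mem (H.mul_mem hx (hA ha)) (H.inv_mem hx)

theorem cj_mono {x : G} {A B : Subgroup G} (h : A ≤ B) : cj x A ≤ cj x B := Subgroup.map_mono h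

theorem cj_sup (x : G) (A B : Subgroup G) : cj x (A ⊔ B) = cj x A ⊔ cj x B :=
  Subgroup.map_sup _ _ _

theorem cj_eq_self {x : G} {A : Subgroup G} (hx : x ∈ Subgroup.normalizer (A : Set G)) :
    cj x A = A := map_conj_eq_of_mem_normalizer hx

theorem commutator_cj {V A : Subgroup G} {x : G} (hx : x ∈ Subgroup.normalizer (V : Set G)) :
    ⁅V, cj x A⁆ = cj x ⁅V, A⁆ := by
  rw [cj, cj, Subgroup.map_commutator, map_conj_eq_of_mem_normalizer hx]

theorem cj_zpowers (x a : G) : cj x (Subgroup.zpowers a) = Subgroup.zpowers (x * a * x⁻¹) := by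
  rw [cj, MonoidHom.map_zpowers]
  rfl

/-- Elements of a supremum of two elementwise commuting subgroups are products. -/
theorem exists_mul_of_mem_sup {X Y : Subgroup G} (hc : ∀ x ∈ X, ∀ y ∈ Y, x * y = y * x) {g : G}
    (hg : g ∈ X ⊔ Y) : ∃ x ∈ X, ∃ y ∈ Y, x * y = g := by
  have hN : X ≤ Subgroup.normalizer (Y : Set G) := by
    refine le_trans ?_ (Subgroup.centralizer_le_normalizer _)
    intro x hx
    rw [Subgroup.mem_centralizer_iff]
    intro y hy
    exact (hc x hx y hy).symm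
  have h1 : g ∈ ((X ⊔ Y : Subgroup G) : Set G) := hg
  rw [Subgroup.coe_mul_of_left_le_normalizer_right X Y hN, Set.mem_mul] at h1
  obtain ⟨x, hx, y, hy, rfl⟩ := h1
  exact ⟨x, hx, y, hy, rfl⟩

section Prime

variable [Finite G] {p : ℕ} [hp : Fact p.Prime]

omit [Finite G] hp in
theorem pow_eq_one_of_card_eq {A : Subgroup G} (hA : Nat.card A = p) {a : G} (ha : a ∈ A) :
    a ^ p = 1 := by
  have h := pow_card_eq_one' (G := ↥A) (x := ⟨a, ha⟩)
  rw [hA] at h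
  have := congrArg Subtype.val h
  simpa using this

/-- A nontrivial subgroup of a subgroup of prime order is everything. -/
theorem eq_of_le_of_card_prime {X Y : Subgroup G} (hXY : X ≤ Y) (hY : Nat.card Y = p)
    (hX : X ≠ ⊥) : X = Y := by
  have hd : Nat.card X ∣ p := hY ▸ Subgroup.card_dvd_of_le hXY
  rcases (Nat.dvd_prime hp.out).mp hd with h1 | h1
  · exact absurd (Subgroup.card_eq_one.mp h1) hX
  · exact Subgroup.eq_of_le_of_card_ge hXY (by rw [h1, hY])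

/-- A subgroup of prime order is generated by each of its nontrivial elements. -/
theorem zpowers_eq_of_card_prime {Y : Subgroup G} (hY : Nat.card Y = p) {w : G} (hw : w ∈ Y)
    (hw1 : w ≠ 1) : Subgroup.zpowers w = Y := by
  apply eq_of_le_of_card_prime _ hY
  · intro h
    apply hw1
    have : w ∈ (⊥ : Subgroup G) := h ▸ Subgroup.mem_zpowers w
    exact Subgroup.mem_bot.mp this
  · rw [Subgroup.zpowers_le]; exact hw

end Prime

section Setting

variable [Finite G] {p : ℕ} [hp : Fact p.Prime] {V H : Subgroup G}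

/-- A transvection subgroup: `A ≤ H` of order `p` with `|[V, A]| = p`. -/
def IsTrans (p : ℕ) (V H A : Subgroup G) : Prop :=
  A ≤ H ∧ Nat.card A = p ∧ Nat.card ↥⁅V, A⁆ = p

omit [Finite G] hp in
theorem IsTrans.conj (hHV : H ≤ Subgroup.normalizer (V : Set G)) {A : Subgroup G}
    (hA : IsTrans p V H A) {h : G} (hh : h ∈ H) : IsTrans p V H (cj h A) := by
  refine ⟨cj_le hh hA.1, ?_, ?_⟩
  · rw [card_cj]; exact hA.2.1
  · rw [commutator_cj (hHV hh), card_cj]; exact hA.2.2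

theorem isTrans_of_offender (hV : Cfsg.IsElementaryAbelian p V)
    (hHV : H ≤ Subgroup.normalizer (V : Set G))
    (hf : H ⊓ Subgroup.centralizer (V : Set G) = ⊥)
    (hS1 : Subgroup.centralizer (Cfsg.pPrimeCore p ↥H : Set ↥H) ≤ Cfsg.pPrimeCore p ↥H)
    {A : Subgroup G} (hAH : A ≤ H) (hA : Cfsg.IsBestOffenderOn p V A) (hcard : Nat.card A = p) :
    IsTrans p V H A :=
  ⟨hAH, hcard, (card_commutator_of_card_eq_prime hV hHV hf hS1 hAH hA hcard).1⟩

theorem IsTrans.relIndex (hV : Cfsg.IsElementaryAbelian p V)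
    (hHV : H ≤ Subgroup.normalizer (V : Set G)) {A : Subgroup G} (hA : IsTrans p V H A) :
    (V ⊓ Subgroup.centralizer (A : Set G)).relIndex V = p := by
  obtain ⟨a, haA, -, -, hza⟩ := exists_zpowers_eq hA.2.1
  have := card_commutator_zpowers V (comm_of_isElementaryAbelian hV) a (hHV (hA.1 haA))
  rw [hza] at this
  rw [← this]; exact hA.2.2

theorem IsTrans.comm (hHV : H ≤ Subgroup.normalizer (V : Set G)) {A : Subgroup G}
    (hA : IsTrans p V H A) {a w : G} (ha : a ∈ A) (hw : w ∈ ⁅V, A⁆) : a * w = w * a :=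
  commute_of_card_prime hA.2.2 (le_normalizer_commutator (hA.1.trans hHV) ha)
    (pow_eq_one_of_card_eq hA.2.1 ha) w hw

omit hp in
/-- An element of `O_{p'}(H)` normalizing a transvection subgroup centralizes it. -/
theorem IsTrans.cj_ne_self {A : Subgroup G} (hA : IsTrans p V H A) {z : G} (hz : z ∈ qc p H)
    (hzA : z ∉ Subgroup.centralizer (A : Set G)) : cj z A ≠ A := by
  intro hEq
  apply hzA
  rw [Subgroup.mem_centralizer_iff]
  intro a ha
  have h1 : z * a * z⁻¹ ∈ A := hEq ▸ conj_mem_cj ha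
  have h2 : (z * a * z⁻¹) * a⁻¹ ∈ A := A.mul_mem h1 (A.inv_mem ha)
  have h3 : (z * a * z⁻¹) * a⁻¹ ∈ qc p H := by
    have : a * z⁻¹ * a⁻¹ ∈ qc p H := conj_mem_qc (hA.1 ha) ((qc p H).inv_mem hz)
    have e : (z * a * z⁻¹) * a⁻¹ = z * (a * z⁻¹ * a⁻¹) := by group
    rw [e]; exact (qc p H).mul_mem hz this
  have h4 := eq_one_of_mem_qc h3 (pow_eq_one_of_card_eq hA.2.1 h2)
  calc a * z = ((z * a * z⁻¹) * a⁻¹)⁻¹ * z * a := by group
    _ = z * a := by rw [h4]; group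

/-- Two distinct `O_{p'}(H)`-conjugate transvection subgroups generate `SL₂(p)`. -/
theorem IsTrans.pair (hV : Cfsg.IsElementaryAbelian p V)
    (hHV : H ≤ Subgroup.normalizer (V : Set G))
    (hf : H ⊓ Subgroup.centralizer (V : Set G) = ⊥)
    {A : Subgroup G} (hA : IsTrans p V H A) {z : G} (hz : z ∈ qc p H) (hne : cj z A ≠ A) :
    (p = 2 ∨ p = 3) ∧ Nat.card ↥(⁅V, A ⊔ cj z A⁆) = p ^ 2 ∧
      (A ⊔ cj z A) ⊓ Subgroup.centralizer ((⁅V, A ⊔ cj z A⁆ : Subgroup G) : Set G) = ⊥ ∧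
      Nonempty (↥(A ⊔ cj z A) ≃* Matrix.SpecialLinearGroup (Fin 2) (ZMod p)) := by
  obtain ⟨hAH, hcardA, hW₁card⟩ := hA
  obtain ⟨a, haA, ha1, hap, hza⟩ := exists_zpowers_eq hcardA
  have hzH : z ∈ H := qc_le p H hz
  have hzb : Subgroup.zpowers (z * a * z⁻¹) = cj z A := by rw [← hza, cj_zpowers]
  have hb1 : z * a * z⁻¹ ≠ 1 := by
    intro h
    apply ha1
    have e : a = z⁻¹ * (z * a * z⁻¹) * z := by group
    rw [e, h]
    group
  have hbp : (z * a * z⁻¹) ^ p = 1 := by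
    rw [conj_pow, hap]
    group
  have hBH : cj z A ≤ H := cj_le hzH hAH
  have hcardB : Nat.card ↥(cj z A) = p := by rw [card_cj, hcardA]
  have hn₀Q : a⁻¹ * (z * a * z⁻¹) ∈ qc p H := by
    have h1 : a⁻¹ * z * a⁻¹⁻¹ ∈ qc p H := conj_mem_qc (H.inv_mem (hAH haA)) hz
    have e : a⁻¹ * (z * a * z⁻¹) = (a⁻¹ * z * a⁻¹⁻¹) * z⁻¹ := by group
    rw [e]
    exact (qc p H).mul_mem h1 ((qc p H).inv_mem hz)
  have hAB : A ⊓ cj z A = ⊥ := inf_eq_bot_of_card_prime hcardA hcardB (Ne.symm hne)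
  have hW₂card : Nat.card ↥⁅V, cj z A⁆ = p := by
    rw [commutator_cj (hHV hzH), card_cj, hW₁card]
  exact sl2_core hV hHV hf hAH hBH hza hzb ha1 hb1 hap hbp hn₀Q hAB hW₁card hW₂card

/-- Some element of `O_{p'}(H)` does not centralize a given transvection subgroup. -/
theorem IsTrans.exists_not_mem_centralizer
    (hS1 : Subgroup.centralizer (Cfsg.pPrimeCore p ↥H : Set ↥H) ≤ Cfsg.pPrimeCore p ↥H)
    {A : Subgroup G} (hA : IsTrans p V H A) :
    ∃ y ∈ qc p H, y ∉ Subgroup.centralizer (A : Set G) := by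
  by_contra hcon
  push Not at hcon
  have hle : A ≤ A ⊓ Subgroup.centralizer (qc p H : Set G) :=
    le_inf le_rfl (Subgroup.le_centralizer_iff.mp (fun y hy => hcon y hy))
  rw [inf_centralizer_qc hS1 hA.1 (IsPGroup.of_card (n := 1) (by rw [hA.2.1, pow_one]))] at hle
  have hbot : A = ⊥ := le_bot_iff.mp hle
  have h := hA.2.1
  rw [hbot, Subgroup.card_bot] at h
  exact hp.out.one_lt.ne h

/-- Value bound: an elementary abelian `p`-subgroup `D` of `H` has `|D| |C_V(D)| ≤ |V|`. -/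
theorem card_mul_card_fixed_le (hV : Cfsg.IsElementaryAbelian p V)
    (hHV : H ≤ Subgroup.normalizer (V : Set G))
    (hf : H ⊓ Subgroup.centralizer (V : Set G) = ⊥)
    (hS1 : Subgroup.centralizer (Cfsg.pPrimeCore p ↥H : Set ↥H) ≤ Cfsg.pPrimeCore p ↥H)
    {D : Subgroup G} (hDH : D ≤ H) (hD : Cfsg.IsElementaryAbelian p D) :
    Nat.card D * Nat.card ↥(V ⊓ Subgroup.centralizer (D : Set G)) ≤ Nat.card V := by
  have : Nonempty {B : Subgroup G // B ≤ D} := ⟨⟨D, le_rfl⟩⟩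
  obtain ⟨⟨B₀, hB₀D⟩, hmax⟩ := Finite.exists_max (fun B : {B : Subgroup G // B ≤ D} =>
    Nat.card B.1 * Nat.card ↥(V ⊓ Subgroup.centralizer (B.1 : Set G)))
  have hB₀e := H28.isElementaryAbelian_of_le p hD hB₀D
  have hoff : Cfsg.IsBestOffenderOn p V B₀ := by
    refine ⟨fun B hB => hmax ⟨B, hB.trans hB₀D⟩, ?_, ?_⟩
    · have h0 : ⁅B₀, B₀⁆ = ⊥ := by
        rw [Subgroup.commutator_eq_bot_iff_le_centralizer]
        intro x hx
        rw [Subgroup.mem_centralizer_iff]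
        intro y hy
        exact comm_of_isElementaryAbelian hB₀e y hy x hx
      rw [h0]; exact bot_le
    · intro a ha
      rw [hB₀e.2 a ha]; exact Subgroup.one_mem _
  have h1 := card_mul_card_fixed hV hHV hf hS1 (hB₀D.trans hDH) hoff
  rw [← h1]
  exact hmax ⟨D, le_rfl⟩

omit [Finite G] hp in
theorem card_mul_relIndex_eq {X W : Subgroup G} (h : X ≤ W) :
    Nat.card X * X.relIndex W = Nat.card W := by
  have := Subgroup.relIndex_mul_relIndex ⊥ X W bot_le h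
  rwa [Subgroup.relIndex_bot_left, Subgroup.relIndex_bot_left] at this

/-- An element of `O_{p'}(H)` normalizing the centre `[V, A]` of a transvection subgroup `A`
centralizes `A`. -/
theorem IsTrans.cj_commutator_ne (hV : Cfsg.IsElementaryAbelian p V)
    (hHV : H ≤ Subgroup.normalizer (V : Set G))
    (hf : H ⊓ Subgroup.centralizer (V : Set G) = ⊥)
    {A : Subgroup G} (hA : IsTrans p V H A) {x : G} (hx : x ∈ qc p H)
    (hxA : x ∉ Subgroup.centralizer (A : Set G)) : cj x ⁅V, A⁆ ≠ ⁅V, A⁆ := by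
  intro hEq
  have hne := hA.cj_ne_self hx hxA
  obtain ⟨-, hcard, -, -⟩ := hA.pair hV hHV hf hx hne
  have hxV : x ∈ Subgroup.normalizer (V : Set G) := hHV (qc_le p H hx)
  rw [commutator_sup_eq (hA.1.trans hHV) ((cj_le (qc_le p H hx) hA.1).trans hHV),
    commutator_cj hxV, hEq, sup_idem, hA.2.2, sq] at hcard
  have h1 : p * 1 = p * p := by rw [mul_one]; exact hcard
  have h2 := Nat.eq_of_mul_eq_mul_left hp.out.pos h1
  exact hp.out.one_lt.ne h2

/-- Transvection subgroups with the same centre are equal. -/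
theorem IsTrans.eq_of_commutator_eq (hV : Cfsg.IsElementaryAbelian p V)
    (hHV : H ≤ Subgroup.normalizer (V : Set G))
    (hf : H ⊓ Subgroup.centralizer (V : Set G) = ⊥)
    (hS1 : Subgroup.centralizer (Cfsg.pPrimeCore p ↥H : Set ↥H) ≤ Cfsg.pPrimeCore p ↥H)
    {A A' : Subgroup G} (hA : IsTrans p V H A) (hA' : IsTrans p V H A')
    (hW : ⁅V, A⁆ = ⁅V, A'⁆) : A = A' := by
  by_contra hne
  have h1 : ⁅⁅V, A⁆, A'⁆ = ⊥ := by
    rw [hW, Subgroup.commutator_eq_bot_iff_le_centralizer]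
    intro w hw
    rw [Subgroup.mem_centralizer_iff]
    intro a ha
    exact hA'.comm hHV ha hw
  have h2 : ⁅⁅A', V⁆, A⁆ = ⊥ := by
    rw [Subgroup.commutator_comm A' V, ← hW, Subgroup.commutator_eq_bot_iff_le_centralizer]
    intro w hw
    rw [Subgroup.mem_centralizer_iff]
    intro a ha
    exact hA.comm hHV ha hw
  have h3 : ⁅⁅A, A'⁆, V⁆ = ⊥ := Subgroup.commutator_commutator_eq_bot_of_rotate h2 h1
  have h4 : ⁅A, A'⁆ = ⊥ := by
    rw [eq_bot_iff, ← hf]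
    refine le_inf ?_ (Subgroup.commutator_eq_bot_iff_le_centralizer.mp h3)
    rw [Subgroup.commutator_le]
    intro a ha b hb
    rw [commutatorElement_def]
    exact H.mul_mem (H.mul_mem (H.mul_mem (hA.1 ha) (hA'.1 hb)) (H.inv_mem (hA.1 ha)))
      (H.inv_mem (hA'.1 hb))
  have hcomm : ∀ x ∈ A, ∀ y ∈ A', x * y = y * x := by
    intro x hx y hy
    have := Subgroup.commutator_eq_bot_iff_le_centralizer.mp h4 hx
    exact ((Subgroup.mem_centralizer_iff.mp this) y hy).symm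
  have hAc : ∀ x ∈ A, ∀ y ∈ A, x * y = y * x := by
    obtain ⟨a, -, -, -, hza⟩ := exists_zpowers_eq hA.2.1
    intro x hx y hy
    exact comm_of_mem_zpowers (a := a) (hza ▸ hx) (hza ▸ hy)
  have hA'c : ∀ x ∈ A', ∀ y ∈ A', x * y = y * x := by
    obtain ⟨a, -, -, -, hza⟩ := exists_zpowers_eq hA'.2.1
    intro x hx y hy
    exact comm_of_mem_zpowers (a := a) (hza ▸ hx) (hza ▸ hy)
  obtain ⟨D, hD⟩ : ∃ D : Subgroup G, D = A ⊔ A' := ⟨_, rfl⟩
  have hDH : D ≤ H := hD ▸ sup_le hA.1 hA'.1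
  have hDC : D ≤ Subgroup.centralizer (D : Set G) := by
    rw [hD, centralizer_sup_eq]
    refine sup_le (le_inf ?_ ?_) (le_inf ?_ ?_)
    · intro x hx
      rw [Subgroup.mem_centralizer_iff]
      intro y hy
      exact hAc y hy x hx
    · intro x hx
      rw [Subgroup.mem_centralizer_iff]
      intro y hy
      exact (hcomm x hx y hy).symm
    · intro y hy
      rw [Subgroup.mem_centralizer_iff]
      intro x hx
      exact hcomm x hx y hy
    · intro x hx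
      rw [Subgroup.mem_centralizer_iff]
      intro y hy
      exact hA'c y hy x hx
  have hDe : Cfsg.IsElementaryAbelian p D := by
    refine ⟨IsMulCommutative.of_comm ?_, ?_⟩
    · rintro ⟨g₁, hg₁⟩ ⟨g₂, hg₂⟩
      apply Subtype.ext
      exact (Subgroup.mem_centralizer_iff.mp (hDC hg₂)) g₁ hg₁
    · intro g hg
      rw [hD] at hg
      obtain ⟨x, hx, y, hy, rfl⟩ := exists_mul_of_mem_sup hcomm hg
      rw [(show Commute x y from hcomm x hx y hy).mul_pow, pow_eq_one_of_card_eq hA.2.1 hx,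
        pow_eq_one_of_card_eq hA'.2.1 hy, one_mul]
  have hAA' : A ⊓ A' = ⊥ := inf_eq_bot_of_card_prime hA.2.1 hA'.2.1 hne
  have hN : A ≤ Subgroup.normalizer (A' : Set G) := by
    refine le_trans ?_ (Subgroup.centralizer_le_normalizer _)
    intro x hx
    rw [Subgroup.mem_centralizer_iff]
    intro y hy
    exact (hcomm x hx y hy).symm
  have hcardD : Nat.card D = p * p := by
    have := H14.card_sup_mul_card_inf A A' hN
    rw [hAA', Subgroup.card_bot, mul_one, hA.2.1, hA'.2.1] at this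
    rw [hD]; exact this
  have hCD : V ⊓ Subgroup.centralizer (D : Set G) =
      (V ⊓ Subgroup.centralizer (A : Set G)) ⊓ (V ⊓ Subgroup.centralizer (A' : Set G)) := by
    rw [hD, centralizer_sup_eq]; exact inf_inf_distrib_left V _ _
  have hrel : (V ⊓ Subgroup.centralizer (D : Set G)).relIndex V ≤ p * p := by
    rw [hCD]
    have := Subgroup.relIndex_inf_le (H := V ⊓ Subgroup.centralizer (A : Set G))
      (K := V ⊓ Subgroup.centralizer (A' : Set G)) (L := V)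
    rwa [hA.relIndex hV hHV, hA'.relIndex hV hHV] at this
  have hcV := card_mul_relIndex_eq (inf_le_left : V ⊓ Subgroup.centralizer (D : Set G) ≤ V)
  have hval_le := card_mul_card_fixed_le hV hHV hf hS1 hDH hDe
  have hval : Nat.card D * Nat.card ↥(V ⊓ Subgroup.centralizer (D : Set G)) = Nat.card V := by
    apply le_antisymm hval_le
    calc Nat.card V = Nat.card ↥(V ⊓ Subgroup.centralizer (D : Set G)) *
          (V ⊓ Subgroup.centralizer (D : Set G)).relIndex V := hcV.symm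
      _ ≤ Nat.card ↥(V ⊓ Subgroup.centralizer (D : Set G)) * (p * p) :=
          Nat.mul_le_mul_left _ hrel
      _ = Nat.card D * Nat.card ↥(V ⊓ Subgroup.centralizer (D : Set G)) := by
          rw [hcardD, mul_comm]
  have hDoff : Cfsg.IsBestOffenderOn p V D := by
    refine ⟨fun B hB => ?_, ?_, ?_⟩
    · rw [hval]
      exact card_mul_card_fixed_le hV hHV hf hS1 (hB.trans hDH)
        (H28.isElementaryAbelian_of_le p hDe hB)
    · rw [Subgroup.commutator_eq_bot_iff_le_centralizer.mpr hDC]; exact bot_le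
    · intro a ha
      rw [hDe.2 a ha]; exact Subgroup.one_mem _
  have hp1 := hp.out.one_lt
  have hD1 : D ≠ ⊥ := by
    intro h
    rw [h, Subgroup.card_bot] at hcardD
    nlinarith
  obtain ⟨D₁, hD₁D, hD₁rel, hD₁nc⟩ := exists_active hf hS1 hDH hDoff hD1
  have hcardD₁ : Nat.card D₁ = p := by
    have := card_mul_prime_of_relIndex hD₁D hD₁rel
    rw [hcardD] at this
    exact Nat.eq_of_mul_eq_mul_right hp.out.pos this
  obtain ⟨x, hx, hxD⟩ := SetLike.not_le_iff_exists.mp hD₁nc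
  have hxQ : x ∈ qc p H := hx.1
  have hxV := hHV (qc_le p H hxQ)
  have hWD : ⁅V, D⁆ = ⁅V, A⁆ := by
    rw [hD, commutator_sup_eq (hA.1.trans hHV) (hA'.1.trans hHV), ← hW, sup_idem]
  have hWD₁ : ⁅V, D₁⁆ = ⁅V, A⁆ := by
    apply eq_of_le_of_card_prime _ hA.2.2
    · apply commutator_ne_bot hf (hD₁D.trans hDH)
      intro h
      rw [h, Subgroup.card_bot] at hcardD₁
      exact hp1.ne hcardD₁
    · rw [← hWD]; exact Subgroup.commutator_mono le_rfl hD₁D
  have hcjW : cj x ⁅V, A⁆ = ⁅V, A⁆ := by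
    rw [← hWD₁, ← commutator_cj hxV, cj_eq_self (Subgroup.centralizer_le_normalizer _ hx.2)]
  have hx' : x ∉ Subgroup.centralizer (A : Set G) ∨ x ∉ Subgroup.centralizer (A' : Set G) := by
    by_contra hcon
    push Not at hcon
    apply hxD
    rw [hD, centralizer_sup_eq]
    exact ⟨hcon.1, hcon.2⟩
  rcases hx' with h | h
  · exact hA.cj_commutator_ne hV hHV hf hxQ h hcjW
  · exact hA'.cj_commutator_ne hV hHV hf hxQ h (hW ▸ hcjW)

/-- In `L = ⟨A, B⟩` with `C_L([V, L]) = 1`, a nontrivial element of `A` does not commute with a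
nontrivial element of `[V, B]`. -/
theorem IsTrans.not_comm (hHV : H ≤ Subgroup.normalizer (V : Set G)) {A B : Subgroup G}
    (hA : IsTrans p V H A) (hB : IsTrans p V H B)
    (hR : (A ⊔ B) ⊓ Subgroup.centralizer ((⁅V, A ⊔ B⁆ : Subgroup G) : Set G) = ⊥) {a u : G}
    (ha : a ∈ A) (ha1 : a ≠ 1) (hu : u ∈ ⁅V, B⁆) (hu1 : u ≠ 1) : a * u ≠ u * a := by
  intro hc
  apply ha1
  have hmem : a ∈ (A ⊔ B) ⊓ Subgroup.centralizer ((⁅V, A ⊔ B⁆ : Subgroup G) : Set G) := by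
    refine ⟨Subgroup.mem_sup_left ha, ?_⟩
    rw [commutator_sup_eq (hA.1.trans hHV) (hB.1.trans hHV), centralizer_sup_eq]
    refine Subgroup.mem_inf.mpr ⟨?_, ?_⟩
    · rw [Subgroup.mem_centralizer_iff]
      intro w hw
      exact (hA.comm hHV ha hw).symm
    · rw [← zpowers_eq_of_card_prime hB.2.2 hu hu1]
      exact mem_centralizer_zpowers_iff.mpr hc.symm
  rw [hR] at hmem
  exact Subgroup.mem_bot.mp hmem

/-- Every element of `[V, ⟨A, A^y⟩]` lies in the centre of an `O_{p'}(H)`-conjugate of `A`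
contained in `⟨A, A^y⟩`. -/
theorem IsTrans.exists_cj_of_mem (hV : Cfsg.IsElementaryAbelian p V)
    (hHV : H ≤ Subgroup.normalizer (V : Set G))
    (hf : H ⊓ Subgroup.centralizer (V : Set G) = ⊥)
    {A : Subgroup G} (hA : IsTrans p V H A) {y : G} (hy : y ∈ qc p H)
    (hyA : y ∉ Subgroup.centralizer (A : Set G)) {w : G} (hw : w ∈ ⁅V, A ⊔ cj y A⁆) :
    ∃ q ∈ qc p H, cj q A ≤ A ⊔ cj y A ∧ w ∈ ⁅V, cj q A⁆ := by
  have hVc := comm_of_isElementaryAbelian hV
  have hyH := qc_le p H hy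
  have hB : IsTrans p V H (cj y A) := hA.conj hHV hyH
  have hne := hA.cj_ne_self hy hyA
  obtain ⟨-, -, hR, -⟩ := hA.pair hV hHV hf hy hne
  have hW₁V : ⁅V, A⁆ ≤ V := Subgroup.le_normalizer_iff_commutator_le_left.mp (hA.1.trans hHV)
  have hW₂V : ⁅V, cj y A⁆ ≤ V :=
    Subgroup.le_normalizer_iff_commutator_le_left.mp (hB.1.trans hHV)
  rw [commutator_sup_eq (hA.1.trans hHV) (hB.1.trans hHV)] at hw
  obtain ⟨u₁, hu₁, u₂, hu₂, rfl⟩ :=
    exists_mul_of_mem_sup (fun x hx y hy => hVc x (hW₁V hx) y (hW₂V hy)) hw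
  by_cases hu₂1 : u₂ = 1
  · refine ⟨1, Subgroup.one_mem _, ?_, ?_⟩
    · rw [cj_one]; exact le_sup_left
    · rw [cj_one, hu₂1, mul_one]; exact hu₁
  obtain ⟨a, haA, ha1, hap, hza⟩ := exists_zpowers_eq hA.2.1
  obtain ⟨ψ, hψdef⟩ : ∃ ψ : G, ψ = a * u₂ * a⁻¹ * u₂⁻¹ := ⟨_, rfl⟩
  have hψ : ψ ∈ ⁅V, A⁆ := by
    have h1 : ⁅u₂, a⁆ ∈ ⁅V, A⁆ := Subgroup.commutator_mem_commutator (hW₂V hu₂) haA
    have e : ψ = (⁅u₂, a⁆)⁻¹ := by rw [hψdef, commutatorElement_def]; group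
    rw [e]; exact Subgroup.inv_mem _ h1
  have hψ1 : ψ ≠ 1 := by
    intro h
    apply hA.not_comm hHV hB hR haA ha1 hu₂ hu₂1
    calc a * u₂ = (a * u₂ * a⁻¹ * u₂⁻¹) * u₂ * a := by group
      _ = u₂ * a := by rw [← hψdef, h, one_mul]
  have hzψ := zpowers_eq_of_card_prime hA.2.2 hψ hψ1
  have hu₁' : u₁ ∈ Submonoid.powers ψ := by
    rw [mem_powers_iff_mem_zpowers, hzψ]; exact hu₁
  obtain ⟨k, rfl⟩ := hu₁'
  have haψ : a * ψ = ψ * a := hA.comm hHV haA hψ
  have key : ∀ n : ℕ, a ^ n * u₂ * (a ^ n)⁻¹ = ψ ^ n * u₂ := by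
    intro n
    induction n with
    | zero => simp
    | succ n ih =>
      have e : a ^ (n + 1) * u₂ * (a ^ (n + 1))⁻¹ = a * (a ^ n * u₂ * (a ^ n)⁻¹) * a⁻¹ := by
        rw [pow_succ']; group
      rw [e, ih]
      have hc : a * ψ ^ n = ψ ^ n * a := (Commute.pow_right haψ n).eq
      calc a * (ψ ^ n * u₂) * a⁻¹ = (a * ψ ^ n) * (u₂ * a⁻¹) := by group
        _ = ψ ^ n * (a * u₂ * a⁻¹ * u₂⁻¹) * u₂ := by rw [hc]; group
        _ = ψ ^ (n + 1) * u₂ := by rw [← hψdef, pow_succ]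
  have hakA : a ^ k ∈ A := A.pow_mem haA k
  have hcjq : cj (a ^ k * y * (a ^ k)⁻¹) A = cj (a ^ k) (cj y A) := by
    rw [cj_mul, cj_mul, cj_eq_self (x := (a ^ k)⁻¹) (A := A) (Subgroup.le_normalizer (A.inv_mem hakA))]
  refine ⟨a ^ k * y * (a ^ k)⁻¹, conj_mem_qc (hA.1 hakA) hy, ?_, ?_⟩
  · rw [hcjq]
    intro g hg
    rw [mem_cj] at hg
    have haL : a ^ k ∈ A ⊔ cj y A := Subgroup.mem_sup_left hakA
    have e : g = a ^ k * ((a ^ k)⁻¹ * g * a ^ k) * (a ^ k)⁻¹ := by group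
    rw [e]
    exact Subgroup.mul_mem _ (Subgroup.mul_mem _ haL (Subgroup.mem_sup_right hg))
      (Subgroup.inv_mem _ haL)
  · rw [hcjq, commutator_cj (hHV (hA.1 hakA)), mem_cj]
    have e : (a ^ k)⁻¹ * (ψ ^ k * u₂) * a ^ k = u₂ := by
      rw [← key k]; group
    rw [e]; exact hu₂

/-- `[V, ⟨A, A^y⟩]` has no nontrivial fixed points of `⟨A, A^y⟩`. -/
theorem IsTrans.inf_fixed_eq_bot (hV : Cfsg.IsElementaryAbelian p V)
    (hHV : H ≤ Subgroup.normalizer (V : Set G))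
    (hf : H ⊓ Subgroup.centralizer (V : Set G) = ⊥)
    {A : Subgroup G} (hA : IsTrans p V H A) {y : G} (hy : y ∈ qc p H)
    (hyA : y ∉ Subgroup.centralizer (A : Set G)) :
    ⁅V, A ⊔ cj y A⁆ ⊓ (V ⊓ Subgroup.centralizer ((A ⊔ cj y A : Subgroup G) : Set G)) = ⊥ := by
  have hVc := comm_of_isElementaryAbelian hV
  have hyH := qc_le p H hy
  have hB : IsTrans p V H (cj y A) := hA.conj hHV hyH
  have hne := hA.cj_ne_self hy hyA
  obtain ⟨-, -, hR, -⟩ := hA.pair hV hHV hf hy hne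
  have hR' : (cj y A ⊔ A) ⊓ Subgroup.centralizer ((⁅V, cj y A ⊔ A⁆ : Subgroup G) : Set G) = ⊥ := by
    rw [sup_comm]; exact hR
  have hW₁V : ⁅V, A⁆ ≤ V := Subgroup.le_normalizer_iff_commutator_le_left.mp (hA.1.trans hHV)
  have hW₂V : ⁅V, cj y A⁆ ≤ V :=
    Subgroup.le_normalizer_iff_commutator_le_left.mp (hB.1.trans hHV)
  rw [eq_bot_iff]
  rintro w ⟨hw, -, hwC⟩
  rw [SetLike.mem_coe, commutator_sup_eq (hA.1.trans hHV) (hB.1.trans hHV)] at hw
  obtain ⟨u₁, hu₁, u₂, hu₂, rfl⟩ :=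
    exists_mul_of_mem_sup (fun x hx y hy => hVc x (hW₁V hx) y (hW₂V hy)) hw
  rw [SetLike.mem_coe, centralizer_sup_eq] at hwC
  obtain ⟨a, haA, ha1, -, -⟩ := exists_zpowers_eq hA.2.1
  obtain ⟨b, hbB, hb1, -, -⟩ := exists_zpowers_eq hB.2.1
  have ha_w : a * (u₁ * u₂) = (u₁ * u₂) * a := (Subgroup.mem_centralizer_iff.mp hwC.1) a haA
  have hb_w : b * (u₁ * u₂) = (u₁ * u₂) * b := (Subgroup.mem_centralizer_iff.mp hwC.2) b hbB
  have hu₂1 : u₂ = 1 := by
    by_contra h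
    apply hA.not_comm hHV hB hR haA ha1 hu₂ h
    have h1 : a * u₁ = u₁ * a := hA.comm hHV haA hu₁
    calc a * u₂ = u₁⁻¹ * (u₁ * a) * u₂ := by group
      _ = u₁⁻¹ * (a * (u₁ * u₂)) := by rw [← h1]; group
      _ = u₁⁻¹ * ((u₁ * u₂) * a) := by rw [ha_w]
      _ = u₂ * a := by group
  have hu₁1 : u₁ = 1 := by
    by_contra h
    apply hB.not_comm hHV hA hR' hbB hb1 hu₁ h
    have h1 : b * u₂ = u₂ * b := hB.comm hHV hbB hu₂
    calc b * u₁ = (b * (u₁ * u₂)) * u₂⁻¹ := by group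
      _ = ((u₁ * u₂) * b) * u₂⁻¹ := by rw [hb_w]
      _ = u₁ * (u₂ * b) * u₂⁻¹ := by group
      _ = u₁ * (b * u₂) * u₂⁻¹ := by rw [h1]
      _ = u₁ * b := by group
  rw [hu₁1, hu₂1, mul_one]
  exact Subgroup.mem_bot.mpr rfl

/-- A transvection subgroup fixes a nontrivial element of any subgroup of order `p²` of `V`. -/
theorem IsTrans.exists_fixed (hV : Cfsg.IsElementaryAbelian p V)
    (hHV : H ≤ Subgroup.normalizer (V : Set G)) {A' : Subgroup G} (hA' : IsTrans p V H A')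
    {W : Subgroup G} (hWV : W ≤ V) (hW : Nat.card W = p ^ 2) :
    ∃ w ∈ W, w ≠ 1 ∧ w ∈ Subgroup.centralizer (A' : Set G) := by
  obtain ⟨C, hC⟩ : ∃ C : Subgroup G, C = V ⊓ Subgroup.centralizer (A' : Set G) := ⟨_, rfl⟩
  have hrel : C.relIndex V = p := hC ▸ hA'.relIndex hV hHV
  have h1 : C.relIndex W ≤ p := by
    have := Subgroup.relIndex_le_of_le_right hWV (H := C) (by rw [hrel]; exact hp.out.ne_zero)
    rwa [hrel] at this
  have h2 : Nat.card ↥(C ⊓ W) * (C ⊓ W).relIndex W = Nat.card W :=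
    card_mul_relIndex_eq inf_le_right
  rw [Subgroup.inf_relIndex_right, hW] at h2
  have hp1 := hp.out.one_lt
  have h3 : C ⊓ W ≠ ⊥ := by
    intro h
    rw [h, Subgroup.card_bot, one_mul] at h2
    rw [h2] at h1
    nlinarith
  obtain ⟨⟨w, hw⟩, hw1⟩ := Subgroup.ne_bot_iff_exists_ne_one.mp h3
  have hwC : w ∈ C := hw.1
  rw [hC] at hwC
  exact ⟨w, hw.2, fun h => hw1 (Subtype.ext h), hwC.2⟩

/-- All `O_{p'}(H)`-conjugates of `A` lie in `⟨A, A^y⟩`. -/
theorem IsTrans.cj_le_sup (hV : Cfsg.IsElementaryAbelian p V)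
    (hHV : H ≤ Subgroup.normalizer (V : Set G))
    (hf : H ⊓ Subgroup.centralizer (V : Set G) = ⊥)
    {A : Subgroup G} (hA : IsTrans p V H A) {y : G} (hy : y ∈ qc p H)
    (hyA : y ∉ Subgroup.centralizer (A : Set G)) {z : G} (hz : z ∈ qc p H) :
    cj z A ≤ A ⊔ cj y A := by
  have hzH := qc_le p H hz
  have hAz : IsTrans p V H (cj z A) := hA.conj hHV hzH
  have hne := hA.cj_ne_self hy hyA
  obtain ⟨-, hWcard, -, -⟩ := hA.pair hV hHV hf hy hne
  have hWV : ⁅V, A ⊔ cj y A⁆ ≤ V := Subgroup.le_normalizer_iff_commutator_le_left.mp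
    (sup_le (hA.1.trans hHV) ((cj_le (qc_le p H hy) hA.1).trans hHV))
  obtain ⟨w, hw, hw1, hwC⟩ := hAz.exists_fixed hV hHV hWV hWcard
  obtain ⟨q, hq, hqL, hwq⟩ := hA.exists_cj_of_mem hV hHV hf hy hyA hw
  have hqH := qc_le p H hq
  have hAq : IsTrans p V H (cj q A) := hA.conj hHV hqH
  suffices h : cj z A = cj q A by rw [h]; exact hqL
  by_contra hne2
  have e : cj (z * q⁻¹) (cj q A) = cj z A := by
    rw [← cj_mul]
    congr 1
    group
  have hne3 : cj (z * q⁻¹) (cj q A) ≠ cj q A := by rw [e]; exact hne2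
  obtain ⟨-, -, hR, -⟩ :=
    hAq.pair hV hHV hf ((qc p H).mul_mem hz ((qc p H).inv_mem hq)) hne3
  rw [e] at hR
  have hR' : (cj z A ⊔ cj q A) ⊓
      Subgroup.centralizer ((⁅V, cj z A ⊔ cj q A⁆ : Subgroup G) : Set G) = ⊥ := by
    rw [sup_comm]; exact hR
  obtain ⟨c, hc, hc1, -, -⟩ := exists_zpowers_eq hAz.2.1
  apply hAz.not_comm hHV hAq hR' hc hc1 hwq hw1
  exact (Subgroup.mem_centralizer_iff.mp hwC) c hc

/-- `[O_{p'}(H), A] A = ⟨A, A^y⟩`. -/
theorem IsTrans.core_sup_eq (hV : Cfsg.IsElementaryAbelian p V)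
    (hHV : H ≤ Subgroup.normalizer (V : Set G))
    (hf : H ⊓ Subgroup.centralizer (V : Set G) = ⊥)
    {A : Subgroup G} (hA : IsTrans p V H A) {y : G} (hy : y ∈ qc p H)
    (hyA : y ∉ Subgroup.centralizer (A : Set G)) :
    ⁅qc p H, A⁆ ⊔ A = A ⊔ cj y A := by
  apply le_antisymm
  · refine sup_le ?_ le_sup_left
    rw [Subgroup.commutator_le]
    intro z hz a ha
    have h1 : z * a * z⁻¹ ∈ A ⊔ cj y A := hA.cj_le_sup hV hHV hf hy hyA hz (conj_mem_cj ha)
    have e : ⁅z, a⁆ = (z * a * z⁻¹) * a⁻¹ := by rw [commutatorElement_def]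
    rw [e]
    exact Subgroup.mul_mem _ h1 (Subgroup.mem_sup_left (A.inv_mem ha))
  · refine sup_le le_sup_right ?_
    rintro g ⟨a, ha, rfl⟩
    have e : (MulAut.conj y).toMonoidHom a = ⁅y, a⁆ * a := by
      show y * a * y⁻¹ = ⁅y, a⁆ * a
      rw [commutatorElement_def]; group
    rw [e]
    exact Subgroup.mul_mem _ (Subgroup.mem_sup_left (Subgroup.commutator_mem_commutator hy ha))
      (Subgroup.mem_sup_right ha)

/-- `O_{p'}(H)` normalizes `⟨A, A^y⟩`. -/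
theorem IsTrans.cj_sup_le (hV : Cfsg.IsElementaryAbelian p V)
    (hHV : H ≤ Subgroup.normalizer (V : Set G))
    (hf : H ⊓ Subgroup.centralizer (V : Set G) = ⊥)
    {A : Subgroup G} (hA : IsTrans p V H A) {y : G} (hy : y ∈ qc p H)
    (hyA : y ∉ Subgroup.centralizer (A : Set G)) {z : G} (hz : z ∈ qc p H) :
    cj z (A ⊔ cj y A) ≤ A ⊔ cj y A := by
  rw [cj_sup, ← cj_mul]
  exact sup_le (hA.cj_le_sup hV hHV hf hy hyA hz)
    (hA.cj_le_sup hV hHV hf hy hyA ((qc p H).mul_mem hz hy))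

/-- **Dichotomy**: a transvection subgroup lies in `L = ⟨A, A^y⟩` or centralizes `[V, L]`. -/
theorem IsTrans.le_or_le_centralizer (hV : Cfsg.IsElementaryAbelian p V)
    (hHV : H ≤ Subgroup.normalizer (V : Set G))
    (hf : H ⊓ Subgroup.centralizer (V : Set G) = ⊥)
    (hS1 : Subgroup.centralizer (Cfsg.pPrimeCore p ↥H : Set ↥H) ≤ Cfsg.pPrimeCore p ↥H)
    {A : Subgroup G} (hA : IsTrans p V H A) {y : G} (hy : y ∈ qc p H)
    (hyA : y ∉ Subgroup.centralizer (A : Set G)) {A' : Subgroup G} (hA' : IsTrans p V H A') :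
    A' ≤ A ⊔ cj y A ∨
      A' ≤ Subgroup.centralizer ((⁅V, A ⊔ cj y A⁆ : Subgroup G) : Set G) := by
  have hyH := qc_le p H hy
  have hne := hA.cj_ne_self hy hyA
  obtain ⟨-, hWcard, hR, -⟩ := hA.pair hV hHV hf hy hne
  have hLH : A ⊔ cj y A ≤ H := sup_le hA.1 (cj_le hyH hA.1)
  have hWV : ⁅V, A ⊔ cj y A⁆ ≤ V :=
    Subgroup.le_normalizer_iff_commutator_le_left.mp (hLH.trans hHV)
  obtain ⟨L, hL⟩ : ∃ L : Subgroup G, L = A ⊔ cj y A := ⟨_, rfl⟩
  rw [← hL] at hWcard hR hLH hWV ⊢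
  obtain ⟨W, hW⟩ : ∃ W : Subgroup G, W = ⁅V, L⁆ := ⟨_, rfl⟩
  rw [← hW] at hWcard hR hWV ⊢
  have hQW : ∀ z ∈ qc p H, ∀ u ∈ W, z * u * z⁻¹ ∈ W := by
    intro z hz u hu
    have h1 : z * u * z⁻¹ ∈ cj z W := conj_mem_cj hu
    rw [hW, ← commutator_cj (hHV (qc_le p H hz))] at h1
    rw [hW]
    exact Subgroup.commutator_mono le_rfl (by rw [hL]; exact hA.cj_sup_le hV hHV hf hy hyA hz) h1
  by_cases hcase : ⁅V, A'⁆ ≤ W
  · left
    obtain ⟨w, hw, hw1, -, hzw⟩ := exists_zpowers_eq hA'.2.2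
    have hwW : w ∈ ⁅V, A ⊔ cj y A⁆ := by rw [← hL, ← hW]; exact hcase hw
    obtain ⟨q, hq, hqL, hwq⟩ := hA.exists_cj_of_mem hV hHV hf hy hyA hwW
    have hAq : IsTrans p V H (cj q A) := hA.conj hHV (qc_le p H hq)
    have hEq : ⁅V, A'⁆ = ⁅V, cj q A⁆ := by
      rw [← hzw]; exact zpowers_eq_of_card_prime hAq.2.2 hwq hw1
    rw [hA'.eq_of_commutator_eq hV hHV hf hS1 hAq hEq, hL]; exact hqL
  · right
    by_contra hcon
    obtain ⟨a', ha', ha'C⟩ := SetLike.not_le_iff_exists.mp hcon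
    have ha'H : a' ∈ H := hA'.1 ha'
    have hinf : ⁅V, A'⁆ ⊓ W = ⊥ := by
      by_contra h
      apply hcase
      have := eq_of_le_of_card_prime (inf_le_left : ⁅V, A'⁆ ⊓ W ≤ ⁅V, A'⁆) hA'.2.2 h
      rw [← this]; exact inf_le_right
    have hW'ne : ¬ (W ≤ cj a' W) := by
      intro hle
      have hEq : W = cj a' W := Subgroup.eq_of_le_of_card_ge hle (by rw [card_cj])
      apply ha'C
      rw [Subgroup.mem_centralizer_iff]
      intro u hu
      have h1 : ⁅u, a'⁆ ∈ ⁅V, A'⁆ := Subgroup.commutator_mem_commutator (hWV hu) ha'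
      have h2 : ⁅u, a'⁆ ∈ W := by
        have h3 : a' * u⁻¹ * a'⁻¹ ∈ W := by rw [hEq]; exact conj_mem_cj (W.inv_mem hu)
        have e : ⁅u, a'⁆ = u * (a' * u⁻¹ * a'⁻¹) := by rw [commutatorElement_def]; group
        rw [e]; exact W.mul_mem hu h3
      have h4 : ⁅u, a'⁆ = 1 := by
        have : ⁅u, a'⁆ ∈ ⁅V, A'⁆ ⊓ W := ⟨h1, h2⟩
        rw [hinf] at this
        exact Subgroup.mem_bot.mp this
      exact commutatorElement_eq_one_iff_mul_comm.mp h4
    obtain ⟨w, hw, hw1, hwC⟩ := hA'.exists_fixed hV hHV hWV hWcard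
    have hwW' : w ∈ cj a' W := by
      rw [mem_cj]
      have : a' * w = w * a' := (Subgroup.mem_centralizer_iff.mp hwC) a' ha'
      have e : a'⁻¹ * w * a' = w := by
        calc a'⁻¹ * w * a' = a'⁻¹ * (w * a') := by group
          _ = a'⁻¹ * (a' * w) := by rw [this]
          _ = w := by group
      rw [e]; exact hw
    have hwW : w ∈ ⁅V, A ⊔ cj y A⁆ := by rw [← hL, ← hW]; exact hw
    obtain ⟨q, hq, hqL, hwq⟩ := hA.exists_cj_of_mem hV hHV hf hy hyA hwW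
    have hqH := qc_le p H hq
    have hAq : IsTrans p V H (cj q A) := hA.conj hHV hqH
    obtain ⟨y', hy', hy'A⟩ := hAq.exists_not_mem_centralizer hS1
    have hne' := hAq.cj_ne_self hy' hy'A
    obtain ⟨-, hcard', -, -⟩ := hAq.pair hV hHV hf hy' hne'
    have hcq : ⁅V, cj q A⁆ ≤ W ⊓ cj a' W := by
      rw [← zpowers_eq_of_card_prime hAq.2.2 hwq hw1, Subgroup.zpowers_le]
      exact ⟨hw, hwW'⟩
    have hQU : ∀ z ∈ qc p H, ∀ u ∈ W ⊓ cj a' W, z * u * z⁻¹ ∈ W ⊓ cj a' W := by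
      intro z hz u hu
      refine Subgroup.mem_inf.mpr ⟨hQW z hz u (Subgroup.mem_inf.mp hu).1, ?_⟩
      rw [mem_cj]
      have hu2 := mem_cj.mp (Subgroup.mem_inf.mp hu).2
      have hz' : a'⁻¹ * z * a'⁻¹⁻¹ ∈ qc p H := conj_mem_qc (H.inv_mem ha'H) hz
      have := hQW _ hz' _ hu2
      have e : a'⁻¹ * (z * u * z⁻¹) * a' =
          (a'⁻¹ * z * a'⁻¹⁻¹) * (a'⁻¹ * u * a') * (a'⁻¹ * z * a'⁻¹⁻¹)⁻¹ := by group
      rw [e]; exact this
    have hle : ⁅V, cj q A ⊔ cj y' (cj q A)⁆ ≤ W ⊓ cj a' W := by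
      rw [commutator_sup_eq (hAq.1.trans hHV) ((cj_le (qc_le p H hy') hAq.1).trans hHV),
        commutator_cj (hHV (qc_le p H hy'))]
      refine sup_le hcq ?_
      intro g hg
      rw [mem_cj] at hg
      have := hQU y' hy' _ (hcq hg)
      have e : y' * (y'⁻¹ * g * y') * y'⁻¹ = g := by group
      rwa [e] at this
    apply hW'ne
    have hEq : W ⊓ cj a' W = W := by
      apply Subgroup.eq_of_le_of_card_ge inf_le_left
      rw [hWcard, ← hcard']
      exact Subgroup.card_le_of_le hle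
    exact hEq.ge.trans inf_le_right

omit [Finite G] hp in
/-- A subgroup of `H` normalizing `W` normalizes `C_H(W)`. -/
theorem le_normalizer_inf_centralizer {W X : Subgroup G} (hX : X ≤ H)
    (hXW : X ≤ Subgroup.normalizer (W : Set G)) :
    X ≤ Subgroup.normalizer ((H ⊓ Subgroup.centralizer (W : Set G) : Subgroup G) : Set G) := by
  apply le_normalizer_of_conj_mem
  intro l hl k hk
  have hk' := Subgroup.mem_inf.mp hk
  refine Subgroup.mem_inf.mpr ⟨H.mul_mem (H.mul_mem (hX hl) hk'.1) (H.inv_mem (hX hl)), ?_⟩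
  rw [Subgroup.mem_centralizer_iff]
  intro w hw
  have hw' : l⁻¹ * w * l ∈ W := by
    have := (Subgroup.mem_normalizer_iff.mp (hXW (X.inv_mem hl)) w).mp hw
    simpa using this
  have hc : (l⁻¹ * w * l) * k = k * (l⁻¹ * w * l) :=
    (Subgroup.mem_centralizer_iff.mp hk'.2) _ hw'
  calc w * (l * k * l⁻¹) = l * ((l⁻¹ * w * l) * k) * l⁻¹ := by group
    _ = l * (k * (l⁻¹ * w * l)) * l⁻¹ := by rw [hc]
    _ = l * k * l⁻¹ * w := by group

omit [Finite G] hp in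
/-- A subgroup normalizing `V` and `L` normalizes `[V, L]`. -/
theorem le_normalizer_commutator_of_le {L X : Subgroup G}
    (hXV : X ≤ Subgroup.normalizer (V : Set G)) (hXL : X ≤ Subgroup.normalizer (L : Set G)) :
    X ≤ Subgroup.normalizer ((⁅V, L⁆ : Subgroup G) : Set G) := by
  apply le_normalizer_of_conj_mem
  intro g hg w hw
  have h1 : g * w * g⁻¹ ∈ cj g ⁅V, L⁆ := conj_mem_cj hw
  rwa [cj, Subgroup.map_commutator, map_conj_eq_of_mem_normalizer (hXV hg),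
    map_conj_eq_of_mem_normalizer (hXL hg)] at h1

/-- An element of `C_H([V, L])` conjugates transvection subgroups of `L = ⟨A, A^y⟩` into `L`. -/
theorem IsTrans.cj_le_of_mem_centralizer (hV : Cfsg.IsElementaryAbelian p V)
    (hHV : H ≤ Subgroup.normalizer (V : Set G))
    (hf : H ⊓ Subgroup.centralizer (V : Set G) = ⊥)
    (hS1 : Subgroup.centralizer (Cfsg.pPrimeCore p ↥H : Set ↥H) ≤ Cfsg.pPrimeCore p ↥H)
    {A : Subgroup G} (hA : IsTrans p V H A) {y : G} (hy : y ∈ qc p H)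
    (hyA : y ∉ Subgroup.centralizer (A : Set G)) {A₁ : Subgroup G} (hA₁ : IsTrans p V H A₁)
    (hA₁L : A₁ ≤ A ⊔ cj y A) {g : G} (hgH : g ∈ H)
    (hgC : g ∈ Subgroup.centralizer ((⁅V, A ⊔ cj y A⁆ : Subgroup G) : Set G)) :
    cj g A₁ ≤ A ⊔ cj y A := by
  have hne := hA.cj_ne_self hy hyA
  obtain ⟨-, -, hR, -⟩ := hA.pair hV hHV hf hy hne
  rcases hA.le_or_le_centralizer hV hHV hf hS1 hy hyA (hA₁.conj hHV hgH) with h | h
  · exact h
  · exfalso
    obtain ⟨a₁, ha₁, ha₁1, -, -⟩ := exists_zpowers_eq hA₁.2.1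
    apply ha₁1
    have h1 : g * a₁ * g⁻¹ ∈ Subgroup.centralizer ((⁅V, A ⊔ cj y A⁆ : Subgroup G) : Set G) :=
      h (conj_mem_cj ha₁)
    have h2 : a₁ ∈ Subgroup.centralizer ((⁅V, A ⊔ cj y A⁆ : Subgroup G) : Set G) := by
      have e : a₁ = g⁻¹ * (g * a₁ * g⁻¹) * g := by group
      rw [e]
      exact Subgroup.mul_mem _ (Subgroup.mul_mem _ (Subgroup.inv_mem _ hgC) h1) hgC
    have h3 : a₁ ∈ (A ⊔ cj y A) ⊓
        Subgroup.centralizer ((⁅V, A ⊔ cj y A⁆ : Subgroup G) : Set G) :=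
      Subgroup.mem_inf.mpr ⟨hA₁L ha₁, h2⟩
    rw [hR] at h3
    exact Subgroup.mem_bot.mp h3

/-- **Structure of `L = ⟨A, A^y⟩`** for a transvection subgroup `A` in a group `H` generated by
best offenders: `L ≅ SL₂(p)`, `V = [V, L] × C_V(L)`, `H = L × C_H([V, L])`. -/
theorem IsTrans.structure (hV : Cfsg.IsElementaryAbelian p V)
    (hHV : H ≤ Subgroup.normalizer (V : Set G))
    (hf : H ⊓ Subgroup.centralizer (V : Set G) = ⊥)
    (hS1 : Subgroup.centralizer (Cfsg.pPrimeCore p ↥H : Set ↥H) ≤ Cfsg.pPrimeCore p ↥H)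
    (hS3 : H = ⨆ A : {A : Subgroup G // A ≤ H ∧ Cfsg.IsBestOffenderOn p V A}, (A : Subgroup G))
    {A : Subgroup G} (hA : IsTrans p V H A) {y : G} (hy : y ∈ qc p H)
    (hyA : y ∉ Subgroup.centralizer (A : Set G)) (L : Subgroup G) (hL : L = A ⊔ cj y A) :
    (p = 2 ∨ p = 3) ∧ Nonempty (↥L ≃* Matrix.SpecialLinearGroup (Fin 2) (ZMod p)) ∧
      Nat.card ↥⁅V, L⁆ = p ^ 2 ∧
      ⁅V, L⁆ ⊓ (V ⊓ Subgroup.centralizer (L : Set G)) = ⊥ ∧
      ⁅V, L⁆ ⊔ (V ⊓ Subgroup.centralizer (L : Set G)) = V ∧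
      ⁅L, H ⊓ Subgroup.centralizer ((⁅V, L⁆ : Subgroup G) : Set G)⁆ = ⊥ ∧
      L ⊓ (H ⊓ Subgroup.centralizer ((⁅V, L⁆ : Subgroup G) : Set G)) = ⊥ ∧
      L ⊔ (H ⊓ Subgroup.centralizer ((⁅V, L⁆ : Subgroup G) : Set G)) = H ∧
      ⁅V, H ⊓ Subgroup.centralizer ((⁅V, L⁆ : Subgroup G) : Set G)⁆ ≤
        V ⊓ Subgroup.centralizer (L : Set G) ∧
      H ≤ Subgroup.normalizer (L : Set G) := by
  have hVc := comm_of_isElementaryAbelian hV
  have hyH := qc_le p H hy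
  have hB : IsTrans p V H (cj y A) := hA.conj hHV hyH
  have hne := hA.cj_ne_self hy hyA
  obtain ⟨hp23, hWcard, hR, hiso⟩ := hA.pair hV hHV hf hy hne
  have h3 := hA.inf_fixed_eq_bot hV hHV hf hy hyA
  have hdich := fun A' hA' => hA.le_or_le_centralizer hV hHV hf hS1 hy hyA (A' := A') hA'
  have hnorm := fun A₁ hA₁ hA₁L g hgH hgC =>
    hA.cj_le_of_mem_centralizer hV hHV hf hS1 hy hyA (A₁ := A₁) hA₁ hA₁L (g := g) hgH hgC
  have hLH : A ⊔ cj y A ≤ H := sup_le hA.1 hB.1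
  have hCL : V ⊓ Subgroup.centralizer ((A ⊔ cj y A : Subgroup G) : Set G) =
      (V ⊓ Subgroup.centralizer (A : Set G)) ⊓ (V ⊓ Subgroup.centralizer (cj y A : Set G)) := by
    rw [centralizer_sup_eq]; exact inf_inf_distrib_left V _ _
  have hrelA := hA.relIndex hV hHV
  have hrelB := hB.relIndex hV hHV
  have hAL : A ≤ L := hL ▸ le_sup_left
  have hBL : cj y A ≤ L := hL ▸ le_sup_right
  rw [← hL] at hWcard hR hiso h3 hdich hnorm hLH hCL
  have hLV : L ≤ Subgroup.normalizer (V : Set G) := hLH.trans hHV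
  have hWV : ⁅V, L⁆ ≤ V := Subgroup.le_normalizer_iff_commutator_le_left.mp hLV
  have hLW : L ≤ Subgroup.normalizer ((⁅V, L⁆ : Subgroup G) : Set G) :=
    le_normalizer_commutator hLV
  obtain ⟨W, hW⟩ : ∃ W : Subgroup G, W = ⁅V, L⁆ := ⟨_, rfl⟩
  rw [← hW] at hWcard hR h3 hdich hnorm hWV hLW ⊢
  have hLK := le_normalizer_inf_centralizer hLH hLW
  obtain ⟨K, hK⟩ : ∃ K : Subgroup G, K = H ⊓ Subgroup.centralizer (W : Set G) := ⟨_, rfl⟩
  rw [← hK] at hLK ⊢
  have hKH : K ≤ H := hK ▸ inf_le_left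
  have hKC : K ≤ Subgroup.centralizer (W : Set G) := hK ▸ inf_le_right
  have h6 : L ⊓ K = ⊥ := by
    rw [eq_bot_iff, ← hR, hK]
    exact inf_le_inf_left _ inf_le_right
  have hKL : K ≤ Subgroup.normalizer (L : Set G) := by
    apply le_normalizer_of_conj_mem
    intro g hg l hl
    have h1 : g * l * g⁻¹ ∈ cj g L := conj_mem_cj hl
    have h2 : cj g L ≤ L := by
      have e : cj g L = cj g A ⊔ cj g (cj y A) := by rw [hL, cj_sup]
      rw [e]
      exact sup_le (hnorm A hA hAL g (hKH hg) (hKC hg)) (hnorm (cj y A) hB hBL g (hKH hg) (hKC hg))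
    exact h2 h1
  have h5 : ⁅L, K⁆ = ⊥ := by
    rw [eq_bot_iff, ← h6]
    refine le_inf (Subgroup.le_normalizer_iff_commutator_le_left.mp hKL) ?_
    rw [Subgroup.commutator_comm]
    exact Subgroup.le_normalizer_iff_commutator_le_left.mp hLK
  have h7 : L ⊔ K = H := by
    apply le_antisymm (sup_le hLH hKH)
    have hle : (⨆ A : {A : Subgroup G // A ≤ H ∧ Cfsg.IsBestOffenderOn p V A}, (A : Subgroup G))
        ≤ L ⊔ K := by
      apply iSup_le
      rintro ⟨B, hBH, hBoff⟩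
      obtain ⟨k, Bi, hBi, -, hsup⟩ := exists_decomposition hV hHV hf hS1 hBH hBoff
      show B ≤ L ⊔ K
      rw [← hsup]
      apply iSup_le
      intro i
      have hBiH : Bi i ≤ H := (hBi i).1.trans hBH
      have hT := isTrans_of_offender hV hHV hf hS1 hBiH (hBi i).2.1 (hBi i).2.2
      rcases hdich _ hT with h | h
      · exact h.trans le_sup_left
      · exact (hK ▸ le_inf hBiH h : Bi i ≤ K).trans le_sup_right
    exact hS3.le.trans hle
  have h8 : ⁅V, K⁆ ≤ V ⊓ Subgroup.centralizer (L : Set G) := by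
    refine le_inf (Subgroup.le_normalizer_iff_commutator_le_left.mp (hKH.trans hHV)) ?_
    rw [← Subgroup.commutator_eq_bot_iff_le_centralizer]
    apply Subgroup.commutator_commutator_eq_bot_of_rotate
    · rw [Subgroup.commutator_comm K L, h5, Subgroup.commutator_bot_left]
    · rw [Subgroup.commutator_comm L V, ← hW, Subgroup.commutator_eq_bot_iff_le_centralizer]
      exact Subgroup.le_centralizer_iff.mp hKC
  have h4 : W ⊔ (V ⊓ Subgroup.centralizer (L : Set G)) = V := by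
    apply Subgroup.eq_of_le_of_card_ge (sup_le hWV inf_le_left)
    have hN : W ≤ Subgroup.normalizer ((V ⊓ Subgroup.centralizer (L : Set G) : Subgroup G) : Set G) :=
      le_normalizer_of_comm hVc hWV inf_le_left
    have hprod := H14.card_sup_mul_card_inf W (V ⊓ Subgroup.centralizer (L : Set G)) hN
    rw [h3, Subgroup.card_bot, mul_one, hWcard] at hprod
    rw [hprod]
    have hrel : (V ⊓ Subgroup.centralizer (L : Set G)).relIndex V ≤ p * p := by
      rw [hCL]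
      have := Subgroup.relIndex_inf_le (H := V ⊓ Subgroup.centralizer (A : Set G))
        (K := V ⊓ Subgroup.centralizer (cj y A : Set G)) (L := V)
      rwa [hrelA, hrelB] at this
    have hcV := card_mul_relIndex_eq (inf_le_left : V ⊓ Subgroup.centralizer (L : Set G) ≤ V)
    calc Nat.card V = Nat.card ↥(V ⊓ Subgroup.centralizer (L : Set G)) *
          (V ⊓ Subgroup.centralizer (L : Set G)).relIndex V := hcV.symm
      _ ≤ Nat.card ↥(V ⊓ Subgroup.centralizer (L : Set G)) * (p * p) :=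
          Nat.mul_le_mul_left _ hrel
      _ = p ^ 2 * Nat.card ↥(V ⊓ Subgroup.centralizer (L : Set G)) := by ring
  have h9 : H ≤ Subgroup.normalizer (L : Set G) := by
    rw [← h7]
    exact sup_le Subgroup.le_normalizer hKL
  exact ⟨hp23, hiso, hWcard, h3, h4, h5, h6, h7, h8, h9⟩

/-- A minimal nontrivially-acting best offender is a transvection subgroup. -/
theorem isTrans_of_minimal (hV : Cfsg.IsElementaryAbelian p V)
    (hHV : H ≤ Subgroup.normalizer (V : Set G))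
    (hf : H ⊓ Subgroup.centralizer (V : Set G) = ⊥)
    (hS1 : Subgroup.centralizer (Cfsg.pPrimeCore p ↥H : Set ↥H) ≤ Cfsg.pPrimeCore p ↥H)
    {A : Subgroup G} (hAH : A ≤ H) (hA : Cfsg.IsBestOffenderOn p V A) (hAV : ⁅V, A⁆ ≠ ⊥)
    (hmin : ∀ B : Subgroup G, B ≤ A → Cfsg.IsBestOffenderOn p V B → ⁅V, B⁆ ≠ ⊥ → B = A) :
    IsTrans p V H A :=
  isTrans_of_offender hV hHV hf hS1 hAH hA
    (card_eq_prime_of_minimal hV hHV hf hS1 hAH hA hAV hmin)

/-- **Structure of `E = [O_{p'}(H), A] A`** for a transvection subgroup `A`. -/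
theorem IsTrans.structure' (hV : Cfsg.IsElementaryAbelian p V)
    (hHV : H ≤ Subgroup.normalizer (V : Set G))
    (hf : H ⊓ Subgroup.centralizer (V : Set G) = ⊥)
    (hS1 : Subgroup.centralizer (Cfsg.pPrimeCore p ↥H : Set ↥H) ≤ Cfsg.pPrimeCore p ↥H)
    (hS3 : H = ⨆ A : {A : Subgroup G // A ≤ H ∧ Cfsg.IsBestOffenderOn p V A}, (A : Subgroup G))
    {A : Subgroup G} (hA : IsTrans p V H A) :
    (p = 2 ∨ p = 3) ∧
      Nonempty (↥(⁅qc p H, A⁆ ⊔ A) ≃* Matrix.SpecialLinearGroup (Fin 2) (ZMod p)) ∧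
      Nat.card ↥⁅V, ⁅qc p H, A⁆ ⊔ A⁆ = p ^ 2 ∧
      ⁅V, ⁅qc p H, A⁆ ⊔ A⁆ ⊓ (V ⊓ Subgroup.centralizer ((⁅qc p H, A⁆ ⊔ A : Subgroup G) : Set G))
        = ⊥ ∧
      ⁅V, ⁅qc p H, A⁆ ⊔ A⁆ ⊔ (V ⊓ Subgroup.centralizer ((⁅qc p H, A⁆ ⊔ A : Subgroup G) : Set G))
        = V ∧
      ⁅⁅qc p H, A⁆ ⊔ A,
        H ⊓ Subgroup.centralizer ((⁅V, ⁅qc p H, A⁆ ⊔ A⁆ : Subgroup G) : Set G)⁆ = ⊥ ∧
      (⁅qc p H, A⁆ ⊔ A) ⊓
        (H ⊓ Subgroup.centralizer ((⁅V, ⁅qc p H, A⁆ ⊔ A⁆ : Subgroup G) : Set G)) = ⊥ ∧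
      (⁅qc p H, A⁆ ⊔ A) ⊔
        (H ⊓ Subgroup.centralizer ((⁅V, ⁅qc p H, A⁆ ⊔ A⁆ : Subgroup G) : Set G)) = H ∧
      ⁅V, H ⊓ Subgroup.centralizer ((⁅V, ⁅qc p H, A⁆ ⊔ A⁆ : Subgroup G) : Set G)⁆ ≤
        V ⊓ Subgroup.centralizer ((⁅qc p H, A⁆ ⊔ A : Subgroup G) : Set G) ∧
      H ≤ Subgroup.normalizer ((⁅qc p H, A⁆ ⊔ A : Subgroup G) : Set G) := by
  obtain ⟨y, hy, hyA⟩ := hA.exists_not_mem_centralizer hS1
  exact hA.structure hV hHV hf hS1 hS3 hy hyA _ (hA.core_sup_eq hV hHV hf hy hyA)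

end Setting

end Cfsg.Agent.H47.Off
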