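import Mathlib
import Cfsg.Agent.H47.OffenderStruct
import Cfsg.Agent.H7.SL2

/-!
# Structure theorem for failure of factorization (Kurzweil–Stellmacher 9.3.8)

A faithful group `H` on an elementary abelian `p`-group `V`, generated by best offenders, with
`C_H(O_{p'}(H)) ≤ O_{p'}(H)`, is the direct product of the subgroups `E = [O_{p'}(H), A] A ≅ SL₂(p)`
(`A` a minimal nontrivially-acting best offender), and `V = C_V(H) × ∏ [V, E]`.
-/

set_option autoImplicit false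

namespace Cfsg.Agent.H47.Off

open Cfsg
open scoped commutatorElement

variable {G : Type*} [Group G]

/-- In `SL₂(3)` a normal subgroup of index `3` is not commutative. -/
theorem sl2_three_not_comm (N : Subgroup (Matrix.SpecialLinearGroup (Fin 2) (ZMod 3)))
    [N.Normal] (hidx : N.index = 3) : ∃ x ∈ N, ∃ y ∈ N, x * y ≠ y * x := by
  let u : Matrix.SpecialLinearGroup (Fin 2) (ZMod 3) := ⟨!![0, 1; -1, 0], by decide⟩
  let v : Matrix.SpecialLinearGroup (Fin 2) (ZMod 3) := ⟨!![1, 1; 1, -1], by decide⟩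
  refine ⟨u ^ 3, hidx ▸ Subgroup.pow_index_mem N u, v ^ 3, hidx ▸ Subgroup.pow_index_mem N v, ?_⟩
  decide

/-- Independence and generation for a family of direct decompositions `V = W i × C i` of an
abelian subgroup with `W j ≤ C i` for `j ≠ i`. -/
theorem indep_aux {ι : Type*} [Finite ι] {V : Subgroup G}
    (hVc : ∀ x ∈ V, ∀ y ∈ V, x * y = y * x)
    (W C : ι → Subgroup G) (hW : ∀ i, W i ≤ V) (hC : ∀ i, C i ≤ V)
    (h2 : ∀ i, W i ⊓ C i = ⊥) (h3 : ∀ i, W i ⊔ C i = V) (h4 : ∀ i j, i ≠ j → W j ≤ C i) :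
    (⨆ i, W i) ⊓ (V ⊓ ⨅ i, C i) = ⊥ ∧ (⨆ i, W i) ⊔ (V ⊓ ⨅ i, C i) = V := by
  classical
  cases nonempty_fintype ι
  have key : ∀ S : Finset ι, (⨆ i ∈ S, W i) ⊓ (V ⊓ ⨅ i ∈ S, C i) = ⊥ ∧
      (⨆ i ∈ S, W i) ⊔ (V ⊓ ⨅ i ∈ S, C i) = V := by
    intro S
    induction S using Finset.induction_on with
    | empty => simp
    | insert i₀ S hi₀ ih =>
      obtain ⟨ih1, ih2⟩ := ih
      rw [Finset.iSup_insert, Finset.iInf_insert]
      have hYV : (⨆ i ∈ S, W i) ≤ V := iSup₂_le fun i _ => hW i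
      have hYZ : (⨆ i ∈ S, W i) ≤ C i₀ := iSup₂_le fun i hi => h4 i₀ i (fun h => hi₀ (h ▸ hi))
      obtain ⟨Y, hY⟩ : ∃ Y : Subgroup G, Y = ⨆ i ∈ S, W i := ⟨_, rfl⟩
      obtain ⟨D, hD⟩ : ∃ D : Subgroup G, D = ⨅ i ∈ S, C i := ⟨_, rfl⟩
      rw [← hY, ← hD] at ih1 ih2 ⊢
      rw [← hY] at hYV hYZ
      have hcXY : ∀ x ∈ W i₀, ∀ y ∈ Y, x * y = y * x :=
        fun x hx y hy => hVc x (hW i₀ hx) y (hYV hy)
      constructor
      · rw [eq_bot_iff]
        intro g hg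
        obtain ⟨hg1, hg2⟩ := Subgroup.mem_inf.mp hg
        obtain ⟨hgV, hg3⟩ := Subgroup.mem_inf.mp hg2
        obtain ⟨hgZ, hgD⟩ := Subgroup.mem_inf.mp hg3
        obtain ⟨x, hx, y, hy, rfl⟩ := exists_mul_of_mem_sup hcXY hg1
        have hxZ : x ∈ C i₀ := by
          have e : x = (x * y) * y⁻¹ := by group
          rw [e]; exact (C i₀).mul_mem hgZ ((C i₀).inv_mem (hYZ hy))
        have hx1 : x = 1 := by
          have : x ∈ W i₀ ⊓ C i₀ := Subgroup.mem_inf.mpr ⟨hx, hxZ⟩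
          rw [h2] at this; exact Subgroup.mem_bot.mp this
        rw [hx1, one_mul] at hgV hgD ⊢
        have : y ∈ Y ⊓ (V ⊓ D) := Subgroup.mem_inf.mpr ⟨hy, Subgroup.mem_inf.mpr ⟨hgV, hgD⟩⟩
        rw [ih1] at this; exact this
      · apply le_antisymm
        · exact sup_le (sup_le (hW i₀) hYV) inf_le_left
        · intro v hv
          rw [← h3 i₀] at hv
          obtain ⟨x, hx, z, hz, rfl⟩ :=
            exists_mul_of_mem_sup (fun x hx y hy => hVc x (hW i₀ hx) y (hC i₀ hy)) hv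
          have hzV : z ∈ V := hC i₀ hz
          rw [← ih2] at hzV
          obtain ⟨y, hy, d, hd, rfl⟩ := exists_mul_of_mem_sup
            (fun x hx y hy => hVc x (hYV hx) y (Subgroup.mem_inf.mp hy).1) hzV
          obtain ⟨hdV, hdD⟩ := Subgroup.mem_inf.mp hd
          have hdZ : d ∈ C i₀ := by
            have e : d = y⁻¹ * (y * d) := by group
            rw [e]; exact (C i₀).mul_mem ((C i₀).inv_mem (hYZ hy)) hz
          have e : x * (y * d) = (x * y) * d := by group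
          rw [e]
          exact Subgroup.mul_mem _ (Subgroup.mem_sup_left
            (Subgroup.mul_mem _ (Subgroup.mem_sup_left hx) (Subgroup.mem_sup_right hy)))
            (Subgroup.mem_sup_right
              (Subgroup.mem_inf.mpr ⟨hdV, Subgroup.mem_inf.mpr ⟨hdZ, hdD⟩⟩))
  have h := key Finset.univ
  simpa using h

section Setting

variable [Finite G] {p : ℕ} [hp : Fact p.Prime] {V H : Subgroup G}

/-- `[O_{p'}(H), A]` is a `3`-group for `p = 2` and a nonabelian `2`-group for `p = 3`. -/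
theorem IsTrans.commutator_pgroup (hV : Cfsg.IsElementaryAbelian p V)
    (hHV : H ≤ Subgroup.normalizer (V : Set G))
    (hf : H ⊓ Subgroup.centralizer (V : Set G) = ⊥)
    (hS1 : Subgroup.centralizer (Cfsg.pPrimeCore p ↥H : Set ↥H) ≤ Cfsg.pPrimeCore p ↥H)
    (hS3 : H = ⨆ A : {A : Subgroup G // A ≤ H ∧ Cfsg.IsBestOffenderOn p V A}, (A : Subgroup G))
    {A : Subgroup G} (hA : IsTrans p V H A) :
    (p = 2 ∧ IsPGroup 3 ↥⁅qc p H, A⁆) ∨
      (p = 3 ∧ IsPGroup 2 ↥⁅qc p H, A⁆ ∧ ¬ IsMulCommutative ↥⁅qc p H, A⁆) := by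
  obtain ⟨hp23, ⟨φ⟩, -, -, -, -, -, -, -, -⟩ := hA.structure' hV hHV hf hS1 hS3
  have hAQ : A ≤ Subgroup.normalizer (qc p H : Set G) := hA.1.trans (le_normalizer_qc p H)
  have hNQ : ⁅qc p H, A⁆ ≤ qc p H := Subgroup.le_normalizer_iff_commutator_le_left.mp hAQ
  have hAN : A ≤ Subgroup.normalizer ((⁅qc p H, A⁆ : Subgroup G) : Set G) :=
    le_normalizer_commutator hAQ
  obtain ⟨N, hN⟩ : ∃ N : Subgroup G, N = ⁅qc p H, A⁆ := ⟨_, rfl⟩
  rw [← hN] at φ hNQ hAN ⊢
  have hinf : A ⊓ N = ⊥ := by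
    rw [eq_bot_iff]
    intro x hx
    obtain ⟨hxA, hxN⟩ := Subgroup.mem_inf.mp hx
    exact Subgroup.mem_bot.mpr (eq_one_of_mem_qc (hNQ hxN) (pow_eq_one_of_card_eq hA.2.1 hxA))
  have hcard := H14.card_sup_mul_card_inf A N hAN
  rw [hinf, Subgroup.card_bot, mul_one, hA.2.1, sup_comm] at hcard
  have hSL : Nat.card ↥(N ⊔ A) = p * (p ^ 2 - 1) := by
    rw [Nat.card_congr φ.toEquiv, H7.card_SL2, ZMod.card]
  rw [hSL] at hcard
  have hcardN : Nat.card N = p ^ 2 - 1 := (Nat.eq_of_mul_eq_mul_left hp.out.pos hcard).symm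
  rcases hp23 with rfl | rfl
  · left
    refine ⟨rfl, IsPGroup.of_card (n := 1) ?_⟩
    rw [hcardN]; norm_num
  · right
    refine ⟨rfl, IsPGroup.of_card (n := 3) (by rw [hcardN]; norm_num), ?_⟩
    intro hcomm
    have hnormal : (N.subgroupOf (N ⊔ A)).Normal :=
      Subgroup.normal_subgroupOf_of_le_normalizer (sup_le Subgroup.le_normalizer hAN)
    obtain ⟨N', hN'⟩ : ∃ N' : Subgroup (Matrix.SpecialLinearGroup (Fin 2) (ZMod 3)),
        N' = (N.subgroupOf (N ⊔ A)).map φ.toMonoidHom := ⟨_, rfl⟩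
    have hN'normal : N'.Normal := hN' ▸ Subgroup.Normal.map hnormal φ.toMonoidHom φ.surjective
    have hcardN' : Nat.card N' = 8 := by
      rw [hN', Subgroup.card_map_of_injective φ.injective,
        Nat.card_congr (Subgroup.subgroupOfEquivOfLe (le_sup_left : N ≤ N ⊔ A)).toEquiv, hcardN]
      norm_num
    have hidx : N'.index = 3 := by
      have h1 := Subgroup.card_mul_index N'
      rw [hcardN', H7.card_SL2, ZMod.card] at h1
      omega
    obtain ⟨x, hx, y, hy, hxy⟩ := sl2_three_not_comm N' hidx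
    rw [hN'] at hx hy
    obtain ⟨x₀, hx₀, rfl⟩ := hx
    obtain ⟨y₀, hy₀, rfl⟩ := hy
    apply hxy
    rw [← map_mul, ← map_mul]
    congr 1
    apply Subtype.ext
    have := (isMulCommutative_iff.mp hcomm) ⟨x₀.1, Subgroup.mem_subgroupOf.mp hx₀⟩
      ⟨y₀.1, Subgroup.mem_subgroupOf.mp hy₀⟩
    have h2 : (x₀ : G) * (y₀ : G) = (y₀ : G) * (x₀ : G) := congrArg Subtype.val this
    exact h2

end Setting

end Cfsg.Agent.H47.Off
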