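import Mathlib
import Cfsg.Agent.H47.OffenderStruct2

/-!
# Structure theorem for failure of factorization: the direct decomposition

`H = ∏ E`, `V = C_V(H) × ∏ [V, E]` over the components `E = [O_{p'}(H), A] A`, `A` a minimal
nontrivially-acting best offender (Kurzweil–Stellmacher 9.3.8).
-/

set_option autoImplicit false

namespace Cfsg.Agent.H47.Off

open Cfsg
open scoped commutatorElement

variable {G : Type*} [Group G]

/-- `E = [O_{p'}(H), A] A` for a minimal nontrivially-acting best offender `A` on `V`. -/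
def IsComp (p : ℕ) (V H E : Subgroup G) : Prop :=
  ∃ A : Subgroup G, A ≤ H ∧ Cfsg.IsBestOffenderOn p V A ∧ ⁅V, A⁆ ≠ ⊥ ∧
    (∀ B : Subgroup G, B ≤ A → Cfsg.IsBestOffenderOn p V B → ⁅V, B⁆ ≠ ⊥ → B = A) ∧
    E = ⁅((Cfsg.pPrimeCore p ↥H).map H.subtype), A⁆ ⊔ A

/-- The properties of a component. -/
structure CompProps (p : ℕ) (V H E : Subgroup G) : Prop where
  prime : p = 2 ∨ p = 3
  le : E ≤ H
  iso : Nonempty (↥E ≃* Matrix.SpecialLinearGroup (Fin 2) (ZMod p))
  card : Nat.card ↥⁅V, E⁆ = p ^ 2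
  inf_fixed : ⁅V, E⁆ ⊓ (V ⊓ Subgroup.centralizer (E : Set G)) = ⊥
  sup_fixed : ⁅V, E⁆ ⊔ (V ⊓ Subgroup.centralizer (E : Set G)) = V
  inf_cent : E ⊓ (H ⊓ Subgroup.centralizer ((⁅V, E⁆ : Subgroup G) : Set G)) = ⊥
  comm_cent : ⁅V, H ⊓ Subgroup.centralizer ((⁅V, E⁆ : Subgroup G) : Set G)⁆ ≤
    V ⊓ Subgroup.centralizer (E : Set G)
  normal : H ≤ Subgroup.normalizer (E : Set G)

section Setting

variable [Finite G] {p : ℕ} [hp : Fact p.Prime] {V H : Subgroup G}

theorem IsTrans.compProps (hV : Cfsg.IsElementaryAbelian p V)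
    (hHV : H ≤ Subgroup.normalizer (V : Set G))
    (hf : H ⊓ Subgroup.centralizer (V : Set G) = ⊥)
    (hS1 : Subgroup.centralizer (Cfsg.pPrimeCore p ↥H : Set ↥H) ≤ Cfsg.pPrimeCore p ↥H)
    (hS3 : H = ⨆ A : {A : Subgroup G // A ≤ H ∧ Cfsg.IsBestOffenderOn p V A}, (A : Subgroup G))
    {A : Subgroup G} (hA : IsTrans p V H A) : CompProps p V H (⁅qc p H, A⁆ ⊔ A) := by
  obtain ⟨h0, h1, h2, h3, h4, -, h6, h7, h8, h9⟩ := hA.structure' hV hHV hf hS1 hS3
  have hle : ⁅qc p H, A⁆ ⊔ A ≤ H := le_sup_left.trans h7.le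
  exact { prime := h0, le := hle, iso := h1, card := h2, inf_fixed := h3, sup_fixed := h4,
          inf_cent := h6, comm_cent := h8, normal := h9 }

theorem IsComp.exists_trans (hV : Cfsg.IsElementaryAbelian p V)
    (hHV : H ≤ Subgroup.normalizer (V : Set G))
    (hf : H ⊓ Subgroup.centralizer (V : Set G) = ⊥)
    (hS1 : Subgroup.centralizer (Cfsg.pPrimeCore p ↥H : Set ↥H) ≤ Cfsg.pPrimeCore p ↥H)
    {E : Subgroup G} (hE : IsComp p V H E) :
    ∃ A : Subgroup G, IsTrans p V H A ∧ E = ⁅qc p H, A⁆ ⊔ A := by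
  obtain ⟨A, hAH, hA, hAV, hmin, rfl⟩ := hE
  exact ⟨A, isTrans_of_minimal hV hHV hf hS1 hAH hA hAV hmin, rfl⟩

theorem IsComp.props (hV : Cfsg.IsElementaryAbelian p V)
    (hHV : H ≤ Subgroup.normalizer (V : Set G))
    (hf : H ⊓ Subgroup.centralizer (V : Set G) = ⊥)
    (hS1 : Subgroup.centralizer (Cfsg.pPrimeCore p ↥H : Set ↥H) ≤ Cfsg.pPrimeCore p ↥H)
    (hS3 : H = ⨆ A : {A : Subgroup G // A ≤ H ∧ Cfsg.IsBestOffenderOn p V A}, (A : Subgroup G))
    {E : Subgroup G} (hE : IsComp p V H E) : CompProps p V H E := by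
  obtain ⟨A, hA, rfl⟩ := hE.exists_trans hV hHV hf hS1
  exact hA.compProps hV hHV hf hS1 hS3

/-- A best offender of order `p` spans a component. -/
theorem isComp_of_card_prime (hV : Cfsg.IsElementaryAbelian p V)
    (hHV : H ≤ Subgroup.normalizer (V : Set G))
    (hf : H ⊓ Subgroup.centralizer (V : Set G) = ⊥)
    (hS1 : Subgroup.centralizer (Cfsg.pPrimeCore p ↥H : Set ↥H) ≤ Cfsg.pPrimeCore p ↥H)
    {B : Subgroup G} (hBH : B ≤ H) (hB : Cfsg.IsBestOffenderOn p V B) (hcard : Nat.card B = p) :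
    IsComp p V H (⁅qc p H, B⁆ ⊔ B) := by
  have hT := isTrans_of_offender hV hHV hf hS1 hBH hB hcard
  have hne : ⁅V, B⁆ ≠ ⊥ := by
    intro h
    have h2 := hT.2.2
    rw [h, Subgroup.card_bot] at h2
    exact hp.out.one_lt.ne h2
  refine ⟨B, hBH, hB, hne, ?_, rfl⟩
  intro B' hB'B _ hB'V
  apply eq_of_le_of_card_prime hB'B hcard
  rintro rfl
  apply hB'V
  exact Subgroup.commutator_bot_right V

/-- Two components are equal, or the second centralizes the plane of the first. -/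
theorem IsTrans.comp_eq_or_le (hV : Cfsg.IsElementaryAbelian p V)
    (hHV : H ≤ Subgroup.normalizer (V : Set G))
    (hf : H ⊓ Subgroup.centralizer (V : Set G) = ⊥)
    (hS1 : Subgroup.centralizer (Cfsg.pPrimeCore p ↥H : Set ↥H) ≤ Cfsg.pPrimeCore p ↥H)
    (hS3 : H = ⨆ A : {A : Subgroup G // A ≤ H ∧ Cfsg.IsBestOffenderOn p V A}, (A : Subgroup G))
    {A A' : Subgroup G} (hA : IsTrans p V H A) (hA' : IsTrans p V H A') :
    ⁅qc p H, A'⁆ ⊔ A' = ⁅qc p H, A⁆ ⊔ A ∨
      ⁅qc p H, A'⁆ ⊔ A' ≤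
        H ⊓ Subgroup.centralizer ((⁅V, ⁅qc p H, A⁆ ⊔ A⁆ : Subgroup G) : Set G) := by
  obtain ⟨y, hy, hyA⟩ := hA.exists_not_mem_centralizer hS1
  have hE := hA.core_sup_eq hV hHV hf hy hyA
  have hP := hA.compProps hV hHV hf hS1 hS3
  have hP' := hA'.compProps hV hHV hf hS1 hS3
  have hdich := hA.le_or_le_centralizer hV hHV hf hS1 hy hyA hA'
  rw [← hE] at hdich
  obtain ⟨E, hEdef⟩ : ∃ E : Subgroup G, E = ⁅qc p H, A⁆ ⊔ A := ⟨_, rfl⟩
  rw [← hEdef] at hdich hP ⊢
  have hQN : qc p H ≤ Subgroup.normalizer (E : Set G) := (qc_le p H).trans hP.normal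
  rcases hdich with h | h
  · left
    apply Subgroup.eq_of_le_of_card_ge
    · refine sup_le ?_ h
      calc ⁅qc p H, A'⁆ ≤ ⁅qc p H, E⁆ := Subgroup.commutator_mono le_rfl h
        _ = ⁅E, qc p H⁆ := Subgroup.commutator_comm _ _
        _ ≤ E := Subgroup.le_normalizer_iff_commutator_le_left.mp hQN
    · obtain ⟨φ⟩ := hP.iso
      obtain ⟨φ'⟩ := hP'.iso
      rw [Nat.card_congr φ.toEquiv, Nat.card_congr φ'.toEquiv]
  · right
    have hHW : H ≤ Subgroup.normalizer ((⁅V, E⁆ : Subgroup G) : Set G) :=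
      le_normalizer_commutator_of_le hHV hP.normal
    have hHK := le_normalizer_inf_centralizer (le_refl H) hHW
    have hA'K : A' ≤ H ⊓ Subgroup.centralizer ((⁅V, E⁆ : Subgroup G) : Set G) := le_inf hA'.1 h
    refine sup_le ?_ hA'K
    calc ⁅qc p H, A'⁆ ≤ ⁅qc p H, H ⊓ Subgroup.centralizer ((⁅V, E⁆ : Subgroup G) : Set G)⁆ :=
          Subgroup.commutator_mono le_rfl hA'K
      _ = ⁅H ⊓ Subgroup.centralizer ((⁅V, E⁆ : Subgroup G) : Set G), qc p H⁆ :=
          Subgroup.commutator_comm _ _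
      _ ≤ H ⊓ Subgroup.centralizer ((⁅V, E⁆ : Subgroup G) : Set G) :=
          Subgroup.le_normalizer_iff_commutator_le_left.mp ((qc_le p H).trans hHK)

theorem IsComp.eq_or_le (hV : Cfsg.IsElementaryAbelian p V)
    (hHV : H ≤ Subgroup.normalizer (V : Set G))
    (hf : H ⊓ Subgroup.centralizer (V : Set G) = ⊥)
    (hS1 : Subgroup.centralizer (Cfsg.pPrimeCore p ↥H : Set ↥H) ≤ Cfsg.pPrimeCore p ↥H)
    (hS3 : H = ⨆ A : {A : Subgroup G // A ≤ H ∧ Cfsg.IsBestOffenderOn p V A}, (A : Subgroup G))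
    {E E' : Subgroup G} (hE : IsComp p V H E) (hE' : IsComp p V H E') :
    E' = E ∨ E' ≤ H ⊓ Subgroup.centralizer ((⁅V, E⁆ : Subgroup G) : Set G) := by
  obtain ⟨A, hA, rfl⟩ := hE.exists_trans hV hHV hf hS1
  obtain ⟨A', hA', rfl⟩ := hE'.exists_trans hV hHV hf hS1
  exact hA.comp_eq_or_le hV hHV hf hS1 hS3 hA'

/-- **Structure theorem for failure of factorization.** -/
theorem structure_theorem (hV : Cfsg.IsElementaryAbelian p V)
    (hHV : H ≤ Subgroup.normalizer (V : Set G))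
    (hf : H ⊓ Subgroup.centralizer (V : Set G) = ⊥)
    (hS1 : Subgroup.centralizer (Cfsg.pPrimeCore p ↥H : Set ↥H) ≤ Cfsg.pPrimeCore p ↥H)
    (hS3 : H = ⨆ A : {A : Subgroup G // A ≤ H ∧ Cfsg.IsBestOffenderOn p V A}, (A : Subgroup G))
    (hH1 : H ≠ ⊥) :
    (p = 2 ∨ p = 3) ∧
      (∀ E : {E : Subgroup G // IsComp p V H E},
        H ≤ Subgroup.normalizer ((E : Subgroup G) : Set G) ∧
        Nonempty (↥(E : Subgroup G) ≃* Matrix.SpecialLinearGroup (Fin 2) (ZMod p)) ∧
        Nat.card ↥(⁅V, (E : Subgroup G)⁆) = p ^ 2) ∧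
      iSupIndep (fun E : {E : Subgroup G // IsComp p V H E} => (E : Subgroup G)) ∧
      (⨆ E : {E : Subgroup G // IsComp p V H E}, (E : Subgroup G)) = H ∧
      iSupIndep (fun o : Option {E : Subgroup G // IsComp p V H E} =>
        o.elim (V ⊓ Subgroup.centralizer (H : Set G)) (fun E => ⁅V, (E : Subgroup G)⁆)) ∧
      (V ⊓ Subgroup.centralizer (H : Set G)) ⊔
        (⨆ E : {E : Subgroup G // IsComp p V H E}, ⁅V, (E : Subgroup G)⁆) = V := by
  have hVc := comm_of_isElementaryAbelian hV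
  have hprops : ∀ E : {E : Subgroup G // IsComp p V H E}, CompProps p V H E.1 :=
    fun E => E.2.props hV hHV hf hS1 hS3
  have hd : (⨆ E : {E : Subgroup G // IsComp p V H E}, (E : Subgroup G)) = H := by
    apply le_antisymm
    · exact iSup_le fun E => (hprops E).le
    · have hle : (⨆ A : {A : Subgroup G // A ≤ H ∧ Cfsg.IsBestOffenderOn p V A}, (A : Subgroup G))
          ≤ ⨆ E : {E : Subgroup G // IsComp p V H E}, (E : Subgroup G) := by
        apply iSup_le
        rintro ⟨B, hBH, hBoff⟩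
        obtain ⟨k, Bi, hBi, -, hsup⟩ := exists_decomposition hV hHV hf hS1 hBH hBoff
        show B ≤ _
        rw [← hsup]
        apply iSup_le
        intro i
        have hBiH : Bi i ≤ H := (hBi i).1.trans hBH
        have hcomp := isComp_of_card_prime hV hHV hf hS1 hBiH (hBi i).2.1 (hBi i).2.2
        exact le_sup_right.trans
          (le_iSup (fun E : {E : Subgroup G // IsComp p V H E} => (E : Subgroup G)) ⟨_, hcomp⟩)
      exact hS3.le.trans hle
  have hne : Nonempty {E : Subgroup G // IsComp p V H E} := by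
    by_contra hemp
    rw [not_nonempty_iff] at hemp
    apply hH1
    rw [← hd, iSup_of_empty]
  obtain ⟨E₀⟩ := hne
  have hc : iSupIndep (fun E : {E : Subgroup G // IsComp p V H E} => (E : Subgroup G)) := by
    rw [iSupIndep_def]
    intro E
    rw [disjoint_iff, eq_bot_iff, ← (hprops E).inf_cent]
    refine inf_le_inf_left _ (iSup₂_le fun E' hE' => ?_)
    rcases E.2.eq_or_le hV hHV hf hS1 hS3 E'.2 with h | h
    · exact absurd (Subtype.ext h) hE'
    · exact h
  have hWV : ∀ E : {E : Subgroup G // IsComp p V H E}, ⁅V, E.1⁆ ≤ V := fun E =>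
    Subgroup.le_normalizer_iff_commutator_le_left.mp ((hprops E).le.trans hHV)
  have h4 : ∀ E E' : {E : Subgroup G // IsComp p V H E}, E ≠ E' →
      ⁅V, E'.1⁆ ≤ V ⊓ Subgroup.centralizer (E.1 : Set G) := by
    intro E E' hne
    rcases E.2.eq_or_le hV hHV hf hS1 hS3 E'.2 with h | h
    · exact absurd (Subtype.ext h).symm hne
    · exact (Subgroup.commutator_mono le_rfl h).trans (hprops E).comm_cent
  obtain ⟨haux1, haux2⟩ := indep_aux hVc
    (fun E : {E : Subgroup G // IsComp p V H E} => ⁅V, E.1⁆)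
    (fun E : {E : Subgroup G // IsComp p V H E} => V ⊓ Subgroup.centralizer (E.1 : Set G))
    hWV (fun E => inf_le_left) (fun E => (hprops E).inf_fixed) (fun E => (hprops E).sup_fixed) h4
  have hCH : V ⊓ ⨅ E : {E : Subgroup G // IsComp p V H E},
      (V ⊓ Subgroup.centralizer (E.1 : Set G)) = V ⊓ Subgroup.centralizer (H : Set G) := by
    apply le_antisymm
    · refine le_inf inf_le_left ?_
      rw [Subgroup.le_centralizer_iff]
      conv_lhs => rw [← hd]
      apply iSup_le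
      intro E
      rw [Subgroup.le_centralizer_iff]
      exact inf_le_right.trans ((iInf_le _ E).trans inf_le_right)
    · exact le_inf inf_le_left (le_iInf fun E => le_inf inf_le_left
        (inf_le_right.trans
          (Subgroup.centralizer_le (SetLike.coe_subset_coe.mpr (hprops E).le))))
  rw [hCH] at haux1 haux2
  refine ⟨(hprops E₀).prime, fun E => ⟨(hprops E).normal, (hprops E).iso, (hprops E).card⟩,
    hc, hd, ?_, ?_⟩
  · rw [iSupIndep_def]
    intro o
    cases o with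
    | none =>
      show Disjoint (V ⊓ Subgroup.centralizer (H : Set G)) _
      rw [disjoint_comm, disjoint_iff, eq_bot_iff, ← haux1]
      refine inf_le_inf_right _ (iSup₂_le fun j hj => ?_)
      cases j with
      | none => exact absurd rfl hj
      | some E =>
        exact le_iSup (fun E : {E : Subgroup G // IsComp p V H E} => ⁅V, E.1⁆) E
    | some E =>
      show Disjoint ⁅V, E.1⁆ _
      rw [disjoint_iff, eq_bot_iff, ← (hprops E).inf_fixed]
      refine inf_le_inf_left _ (iSup₂_le fun j hj => ?_)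
      cases j with
      | none =>
        exact inf_le_inf_left _
          (Subgroup.centralizer_le (SetLike.coe_subset_coe.mpr (hprops E).le))
      | some E' => exact h4 E E' (fun h => hj (congrArg some h.symm))
  · rw [sup_comm]; exact haux2

end Setting

end Cfsg.Agent.H47.Off
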