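import Mathlib
import Cfsg.Agent.H17.PmDefs

set_option autoImplicit false

/-!
S2140 project, piece STR (structure lemma), with the two inputs TRDUAL and PIDX taken as
hypotheses (`str_aux`).
-/

namespace Cfsg.Agent.H47.Pm

open Cfsg Cfsg.Geo Cfsg.Agent.H17.Mn Cfsg.Agent.H17.Pm
open scoped MatrixGroups Matrix

variable {ι : Type} [Fintype ι] [DecidableEq ι] {F : Type*} [Field F]

/-- Two linear forms with `ker φ ≤ ker ψ` are proportional. -/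
lemma exists_smul_of_ker_le (φ ψ : (ι → F) →ₗ[F] F) (h : ∀ x, φ x = 0 → ψ x = 0) :
    ∃ a : F, ψ = a • φ := by
  by_cases h0 : ∀ x, φ x = 0
  · refine ⟨0, LinearMap.ext fun x => ?_⟩
    rw [h x (h0 x)]
    simp
  · obtain ⟨v, hv⟩ := not_forall.1 h0
    refine ⟨ψ v / φ v, LinearMap.ext fun x => ?_⟩
    have h1 : φ (x - (φ x / φ v) • v) = 0 := by
      rw [map_sub, map_smul, smul_eq_mul, div_mul_cancel₀ _ hv, sub_self]
    have h2 := h _ h1
    rw [map_sub, map_smul, smul_eq_mul, sub_eq_zero] at h2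
    rw [LinearMap.smul_apply, smul_eq_mul, h2]
    field_simp

/-- The structure lemma, with TRDUAL (`hTR`) and PIDX (`hPI`) as hypotheses. -/
theorem str_aux (c : ι → F)
    (hTR : ∀ A : AddSubgroup ↥(Yc c), A.index.Prime →
      ∃ w : ι → F, w ∉ Submodule.span F {c} ∧ ∀ y : ↥(Yc c), y.1 w = 0 → y ∈ A)
    (hPI : ∀ (S : AddSubgroup ↥(Yc c)) (y : ↥(Yc c)), y ∉ S →
      ∃ A : AddSubgroup ↥(Yc c), A.index.Prime ∧ S ≤ A ∧ y ∉ A)
    {I : Type*} (S : I → AddSubgroup ↥(Yc c)) (hS : ∀ i, S i ≠ ⊤)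
    (huniq : ∀ A : AddSubgroup ↥(Yc c), A.index.Prime → ∀ i j, S i ≤ A → S j ≤ A → S i = S j)
    (hinv : ∀ i (w : ι → F) (θ : ↥(Yc c)), θ.1 w = 0 →
      ∃ j, ∀ y : ↥(Yc c), y ∈ S j ↔ y + y.1 w • θ ∈ S i) :
    ∀ i, S i = ⊥ ∨ ∃ w : ι → F, w ∉ Submodule.span F {c} ∧
      ∀ y : ↥(Yc c), y.1 w = 0 → y ∈ S i := by
  intro i
  have claim2 : ∀ (A : AddSubgroup ↥(Yc c)), A.index.Prime → S i ≤ A →
      ∀ (θ : ↥(Yc c)) (w' : ι → F), (∀ a : F, a • θ ∈ A) → θ.1 w' = 0 →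
      ∀ y ∈ S i, y.1 w' • θ ∈ S i := by
    intro A hA hSA θ w' hθA hθw' y hy
    obtain ⟨j, hj⟩ := hinv i w' θ hθw'
    have hjA : S j ≤ A := by
      intro z hz
      have h1 : z + z.1 w' • θ ∈ A := hSA ((hj z).1 hz)
      have h2 : z.1 w' • θ ∈ A := hθA _
      have h3 := A.sub_mem h1 h2
      have e : z + z.1 w' • θ - z.1 w' • θ = z := by abel
      rwa [e] at h3
    have hij : S i = S j := huniq A hA i j hSA hjA
    have h3 : y + y.1 w' • θ ∈ S i := (hj y).1 (hij ▸ hy)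
    have h4 := (S i).sub_mem h3 hy
    have e : y + y.1 w' • θ - y = y.1 w' • θ := by abel
    rwa [e] at h4
  by_cases hbot : S i = ⊥
  · exact Or.inl hbot
  right
  obtain ⟨y1, hy1⟩ : ∃ y1, y1 ∉ S i := by
    by_contra hcon
    push_neg at hcon
    exact hS i (by rw [eq_top_iff]; intro y _; exact hcon y)
  obtain ⟨A₀, hA₀, hSA₀, -⟩ := hPI (S i) y1 hy1
  by_cases hα : ∃ y₀ ∈ S i, ∃ A : AddSubgroup ↥(Yc c), A.index.Prime ∧ S i ≤ A ∧
      ∃ w : ι → F, w ∉ Submodule.span F {c} ∧ (∀ y : ↥(Yc c), y.1 w = 0 → y ∈ A) ∧ y₀.1 w ≠ 0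
  · obtain ⟨y₀, hy₀, A, hA, hSA, w, hw, hWA, hy₀w⟩ := hα
    refine ⟨w, hw, ?_⟩
    intro θ hθw
    have hθA : ∀ a : F, a • θ ∈ A := fun a => hWA _ (by
      show (a • θ.1) w = 0
      rw [LinearMap.smul_apply, hθw, smul_zero])
    have hθw' : θ.1 ((y₀.1 w)⁻¹ • w) = 0 := by rw [map_smul, hθw, smul_zero]
    have h1 := claim2 A hA hSA θ ((y₀.1 w)⁻¹ • w) hθA hθw' y₀ hy₀
    have h2 : y₀.1 ((y₀.1 w)⁻¹ • w) = 1 := by
      rw [map_smul, smul_eq_mul, inv_mul_cancel₀ hy₀w]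
    rw [h2, one_smul] at h1
    exact h1
  · push_neg at hα
    obtain ⟨w, hw, hWA⟩ := hTR A₀ hA₀
    refine ⟨w, hw, ?_⟩
    have hFS : ∀ y ∈ S i, ∀ a : F, a • y ∈ S i := by
      intro y hy a
      by_contra hcon
      obtain ⟨A, hA, hSA, hyA⟩ := hPI (S i) (a • y) hcon
      obtain ⟨w', hw', hWA'⟩ := hTR A hA
      have h0 := hα y hy A hA hSA w' hw' hWA'
      exact hyA (hWA' _ (by
        show (a • y.1) w' = 0
        rw [LinearMap.smul_apply, h0, smul_zero]))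
    obtain ⟨y₀, hy₀, hy₀0⟩ : ∃ y₀ ∈ S i, y₀ ≠ 0 := by
      by_contra hcon
      push_neg at hcon
      exact hbot (by rw [eq_bot_iff]; intro y hy; exact (AddSubgroup.mem_bot).2 (hcon y hy))
    intro θ hθw
    by_cases hprop : ∀ x, θ.1 x = 0 → y₀.1 x = 0
    · obtain ⟨a, ha⟩ := exists_smul_of_ker_le θ.1 y₀.1 hprop
      have ha0 : a ≠ 0 := by
        rintro rfl
        apply hy₀0
        apply Subtype.ext
        rw [ha, zero_smul]
        rfl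
      have hθ : θ = a⁻¹ • y₀ := by
        apply Subtype.ext
        show θ.1 = a⁻¹ • y₀.1
        rw [ha, smul_smul, inv_mul_cancel₀ ha0, one_smul]
      rw [hθ]
      exact hFS y₀ hy₀ _
    · push_neg at hprop
      obtain ⟨x, hθx, hyx⟩ := hprop
      have hθA : ∀ a : F, a • θ ∈ A₀ := fun a => hWA _ (by
        show (a • θ.1) w = 0
        rw [LinearMap.smul_apply, hθw, smul_zero])
      have hθw' : θ.1 ((y₀.1 x)⁻¹ • x) = 0 := by rw [map_smul, hθx, smul_zero]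
      have h1 := claim2 A₀ hA₀ hSA₀ θ ((y₀.1 x)⁻¹ • x) hθA hθw' y₀ hy₀
      have h2 : y₀.1 ((y₀.1 x)⁻¹ • x) = 1 := by
        rw [map_smul, smul_eq_mul, inv_mul_cancel₀ hyx]
      rw [h2, one_smul] at h1
      exact h1

end Cfsg.Agent.H47.Pm
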