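import Mathlib
import Cfsg.Agent.H17.PmDefs
import Cfsg.Agent.H47.PmStrAux
import Cfsg.Agent.H4.PmPidx
import Cfsg.Agent.H54.PmTrDual

set_option autoImplicit false

/-!
S2140 project, piece STR (structure lemma): the exact posted statement.
-/

namespace Cfsg.Agent.H47.Pm

open Cfsg Cfsg.Geo Cfsg.Agent.H17.Mn Cfsg.Agent.H17.Pm
open scoped MatrixGroups Matrix

variable {ι : Type} [Fintype ι] [DecidableEq ι] {F : Type*} [Field F]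

/-- **S2140-STR**. -/
theorem str [Fintype F] (c : ι → F) (hc : c ≠ 0) {I : Type*} (S : I → AddSubgroup ↥(Yc c))
    (hS : ∀ i, S i ≠ ⊤)
    (huniq : ∀ A : AddSubgroup ↥(Yc c), A.index.Prime → ∀ i j, S i ≤ A → S j ≤ A → S i = S j)
    (hinv : ∀ i (w : ι → F) (θ : ↥(Yc c)), θ.1 w = 0 →
      ∃ j, ∀ y : ↥(Yc c), y ∈ S j ↔ y + y.1 w • θ ∈ S i) :
    ∀ i, S i = ⊥ ∨ ∃ w : ι → F, w ∉ Submodule.span F {c} ∧
      ∀ y : ↥(Yc c), y.1 w = 0 → y ∈ S i := by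
  haveI : Finite ((ι → F) →ₗ[F] F) := DFunLike.finite _
  exact str_aux c (fun A hA => Cfsg.Agent.H54.Pm.exists_hyperplane_le c hc A hA)
    (fun T y hy => Cfsg.Agent.H4.Pm.exists_prime_index_sep (F := F) T y hy) S hS huniq hinv

end Cfsg.Agent.H47.Pm

section check
open Cfsg Cfsg.Geo Cfsg.Agent.H17.Mn Cfsg.Agent.H17.Pm
open scoped MatrixGroups Matrix
variable {ι : Type} [Fintype ι] [DecidableEq ι] {F : Type*} [Field F]

example [Fintype F] (c : ι → F) (hc : c ≠ 0) {I : Type*} (S : I → AddSubgroup ↥(Yc c)) (hS : ∀ i, S i ≠ ⊤) (huniq : ∀ A : AddSubgroup ↥(Yc c), A.index.Prime → ∀ i j, S i ≤ A → S j ≤ A → S i = S j) (hinv : ∀ i (w : ι → F) (θ : ↥(Yc c)), θ.1 w = 0 → ∃ j, ∀ y : ↥(Yc c), y ∈ S j ↔ y + y.1 w • θ ∈ S i) : ∀ i, S i = ⊥ ∨ ∃ w : ι → F, w ∉ Submodule.span F {c} ∧ ∀ y : ↥(Yc c), y.1 w = 0 → y ∈ S i :=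
  Cfsg.Agent.H47.Pm.str c hc S hS huniq hinv
end check
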