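import Mathlib
import Cfsg.Agent.H47.BG139Defs

set_option autoImplicit false

/-!
# Bender–Glauberman Lemma 13.12 (τ₁-asymmetry): definitions for the team project BG1312 (helper47)

No configuration `M`, `N` (non-conjugate maximal subgroups), `P ≤ M ∩ N` of order
`p ∈ τ₁(M) ∩ τ₁(N)`, `Q` a `P`-invariant Sylow `q`-subgroup of `M` with `C_Q(P) = 1` and
`N_G(Q) ≤ N`, `T` a `P`-invariant Sylow `t`-subgroup of `N` with `C_T(P) = 1` and `N_G(T) ≤ M`.
-/

namespace Cfsg.Agent.H47.BG1312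

open Cfsg Subgroup
open scoped Pointwise

universe u

variable {G : Type u} [Group G]

/-- One side of the configuration of B&G 13.12. -/
structure Side (M N P Q : Subgroup G) (p q : ℕ) : Prop where
  hM : IsCoatom M
  hN : IsCoatom N
  hnc : ∀ g : G, N ≠ MulAut.conj g • M
  hp : p ∈ tau1 M
  hPM : P ≤ M
  hPN : P ≤ N
  hPc : Nat.card P = p
  hq : q.Prime
  hQq : IsPGroup q Q
  hQ1 : Q ≠ ⊥
  hQM : Q ≤ M
  hQS : ¬ q ∣ Q.relIndex M
  hPQ : P ≤ normalizer (Q : Set G)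
  hfix : Q ⊓ centralizer (P : Set G) = ⊥
  hNQ : normalizer (Q : Set G) ≤ N

/-- B&G Lemma 13.12, with `Q` Sylow in `M` and `T` Sylow in `N`. -/
def St1312 (G : Type u) [Group G] : Prop :=
  ∀ (M N P Q T : Subgroup G) (p q t : ℕ), Side M N P Q p q → Side N M P T p t → False

/-- B&G Lemma 13.12 in its original form (`Q`, `T` Sylow subgroups of `M ∩ N`). -/
def St1312BG (G : Type u) [Group G] : Prop :=
  ∀ (M N P Q T : Subgroup G) (p q t : ℕ), IsCoatom M → IsCoatom N →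
    (∀ g : G, N ≠ M.map (MulAut.conj g).toMonoidHom) →
    p ∈ tau1 M → p ∈ tau1 N → P ≤ M ⊓ N → Nat.card P = p →
    q.Prime → IsPGroup q Q → Q ≠ ⊥ → Q ≤ M ⊓ N → ¬ q ∣ Q.relIndex (M ⊓ N) →
    t.Prime → IsPGroup t T → T ≠ ⊥ → T ≤ M ⊓ N → ¬ t ∣ T.relIndex (M ⊓ N) →
    P ≤ normalizer (Q : Set G) → P ≤ normalizer (T : Set G) →
    Q ⊓ centralizer (P : Set G) = ⊥ → T ⊓ centralizer (P : Set G) = ⊥ →
    normalizer (Q : Set G) ≤ N → normalizer (T : Set G) ≤ M → False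

/-- (SYL, pure group theory) a Sylow `q`-subgroup `Q` of `K ≤ M` with `N_M(Q) ≤ K` is a Sylow
`q`-subgroup of `M`. -/
def StSyl (G : Type u) [Group G] : Prop :=
  ∀ (M K Q : Subgroup G) (q : ℕ), q.Prime → IsPGroup q Q → Q ≤ K → K ≤ M →
    ¬ q ∣ Q.relIndex K → M ⊓ normalizer (Q : Set G) ≤ K → ¬ q ∣ Q.relIndex M

/-- (SIG) `q ∉ σ(M)`. -/
def StSig (G : Type u) [Group G] : Prop :=
  ∀ (M N P Q : Subgroup G) (p q : ℕ), Side M N P Q p q → q ∉ sigma M

/-- (COMM) `Q = [Q, P] ≤ M'`. -/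
def StComm (G : Type u) [Group G] : Prop :=
  ∀ (M N P Q : Subgroup G) (p q : ℕ), Side M N P Q p q → Q ≤ ⁅M, M⁆

/-- (E) some complement `E` of `M_σ` in `M` contains `P` and lies in `N`. -/
def StE (G : Type u) [Group G] : Prop :=
  ∀ (M N P Q : Subgroup G) (p q : ℕ), Side M N P Q p q →
    ∃ E : Subgroup G, IsComplIn E (sigmaCore M) M ∧ P ≤ E ∧ E ≤ N

/-- (ALPHA) `M_α ≠ 1` and `α(M) ⊆ β(M)`. -/
def StAlpha (G : Type u) [Group G] : Prop :=
  ∀ (M N P Q : Subgroup G) (p q : ℕ), Side M N P Q p q →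
    alphaCore M ≠ ⊥ ∧ ∀ s : ℕ, s ∈ alpha M → s ∈ beta M

/-- (ELT) `C_{M_α}(P)` contains an element `x` of prime order in `α(M)`, and `M` is the only
maximal subgroup over `C_G(x)`. -/
def StElt (G : Type u) [Group G] : Prop :=
  ∀ (M N P Q : Subgroup G) (p q : ℕ), Side M N P Q p q →
    ∃ x : G, x ∈ alphaCore M ∧ x ∈ centralizer (P : Set G) ∧ (orderOf x).Prime ∧
      orderOf x ∈ alpha M ∧
      centralizer ((zpowers x : Subgroup G) : Set G) ≤ M ∧
      ∀ L : Subgroup G, IsCoatom L →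
        centralizer ((zpowers x : Subgroup G) : Set G) ≤ L → L = M

/-- (TRANSPORT) an element `x ∈ C_N(P)` of prime order outside `σ(N)` is conjugate, under
`C_{N_σ}(P)`, into any complement `E` of `N_σ` in `N` containing `P` (`|P| = p ∈ τ₁(N)`). -/
def StTransport (G : Type u) [Group G] : Prop :=
  ∀ (N E P : Subgroup G) (p : ℕ) (x : G), IsCoatom N → IsComplIn E (sigmaCore N) N → P ≤ E →
    p ∈ tau1 N → Nat.card P = p → x ∈ N → x ∈ centralizer (P : Set G) → (orderOf x).Prime →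
    orderOf x ∉ sigma N →
    ∃ u : G, u ∈ sigmaCore N ∧ u ∈ centralizer (P : Set G) ∧ u⁻¹ * x * u ∈ E

/-- (KILL) no non-identity element of `C_{M_α}(P)` lies in `N`, if some complement `E` of `N_σ`
in `N` lies in `M`. -/
def StKill (G : Type u) [Group G] : Prop :=
  ∀ (M N P Q : Subgroup G) (p q : ℕ), Side M N P Q p q →
    ∀ E : Subgroup G, IsComplIn E (sigmaCore N) N → E ≤ M →
    ∀ x : G, x ∈ alphaCore M → x ≠ 1 → x ∈ centralizer (P : Set G) → x ∈ N → False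

end Cfsg.Agent.H47.BG1312
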