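import Mathlib
import Cfsg.Agent.H47.BG1216Defs2
import Cfsg.Agent.H92.BG12Uniq
import Cfsg.Agent.Lib.Helper30.BG129C

set_option autoImplicit false

/-!
# B&G 12.15(e) (piece E1 of S1425/S1427): `q ∈ σ(M)`, `q ∉ σ(M*)` (helper47)
-/

namespace Cfsg.Agent.H47.BG12

open Cfsg Subgroup Cfsg.Agent.H58.BG10 Cfsg.Agent.H57.BG12 Cfsg.Agent.H76.BG12 Cfsg.Agent.H63.Sig
open scoped Pointwise

universe u

variable {G : Type u} [Group G] [Finite G]

/-- `M` normalizes `M_σ`. -/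
theorem conj_mem_sigmaCore {M : Subgroup G} {g x : G} (hg : g ∈ M) (hx : x ∈ sigmaCore M) :
    g * x * g⁻¹ ∈ sigmaCore M := by
  obtain ⟨y, hy, rfl⟩ := hx
  exact ⟨⟨g, hg⟩ * y * ⟨g, hg⟩⁻¹, (piCore_normal (sigma M) ↥M).conj_mem y hy ⟨g, hg⟩, rfl⟩

/-- Schur–Zassenhaus: `M_σ` has a complement in `M`. -/
theorem exists_complIn_sigmaCore (h50 : St1350 G) {M : Subgroup G} (hM : IsCoatom M) :
    ∃ E : Subgroup G, IsComplIn E (sigmaCore M) M := by
  obtain ⟨⟨hle, hpi, hidx⟩, -, -⟩ := h50 M hM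
  have hcop : (Nat.card (piCore (sigma M) ↥M)).Coprime (piCore (sigma M) ↥M).index := by
    apply Nat.coprime_of_dvd
    intro p hp hp1 hp2
    have h1 : p ∣ Nat.card (sigmaCore M) := by
      rw [show sigmaCore M = (piCore (sigma M) ↥M).map M.subtype from rfl,
        Subgroup.card_subtype]
      exact hp1
    have h2 := hidx p hp (hpi p hp h1)
    rw [show sigmaCore M = (piCore (sigma M) ↥M).map M.subtype from rfl,
      Cfsg.Agent.H76.BG10.relIndex_map_subtype'] at h2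
    exact h2 hp2
  obtain ⟨H, hH⟩ := Subgroup.exists_right_complement'_of_coprime hcop
  have hH' : Subgroup.IsComplement' H (piCore (sigma M) ↥M) := hH.symm
  refine ⟨H.map M.subtype, Subgroup.map_subtype_le _, hle, ?_, ?_⟩
  · rw [eq_bot_iff]
    rintro x ⟨⟨h, hh, rfl⟩, ⟨n, hn, hnx⟩⟩
    have hnh : n = h := Subtype.ext hnx
    rw [hnh] at hn
    have : h ∈ H ⊓ piCore (sigma M) ↥M := ⟨hh, hn⟩
    rw [hH'.disjoint.eq_bot, Subgroup.mem_bot] at this
    rw [this]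
    exact Subgroup.mem_bot.mpr rfl
  · intro m hm
    obtain ⟨⟨⟨a, ha⟩, ⟨b, hb⟩⟩, hab⟩ := hH'.surjective ⟨m, hm⟩
    have hab' : (a : G) * b = m := congrArg Subtype.val hab
    exact ⟨a, Subgroup.mem_map_of_mem _ ha, b, Subgroup.mem_map_of_mem _ hb, hab'.symm⟩

/-- A conjugate of a complement of `M_σ` by an element of `M` is a complement. -/
theorem complIn_cj {M E : Subgroup G} (hE : IsComplIn E (sigmaCore M) M) {g : G} (hg : g ∈ M) :
    IsComplIn (MulAut.conj g • E) (sigmaCore M) M := by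
  obtain ⟨hEM, hNM, hdisj, hsurj⟩ := hE
  refine ⟨?_, hNM, ?_, ?_⟩
  · intro x hx
    rw [mem_cj] at hx
    have h1 : x = g * (g⁻¹ * x * g) * g⁻¹ := by group
    rw [h1]
    exact mul_mem (mul_mem hg (hEM hx)) (inv_mem hg)
  · rw [eq_bot_iff]
    rintro x ⟨hx1, hx2⟩
    have hx1' : g⁻¹ * x * g ∈ E := mem_cj.mp hx1
    have h2 : g⁻¹ * x * g ∈ sigmaCore M := by
      have := conj_mem_sigmaCore (inv_mem hg) hx2
      simpa using this
    have h3 : g⁻¹ * x * g ∈ E ⊓ sigmaCore M := ⟨hx1', h2⟩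
    rw [hdisj, Subgroup.mem_bot] at h3
    have h4 : x = g * (g⁻¹ * x * g) * g⁻¹ := by group
    rw [h4, h3]
    simp
  · intro m hm
    obtain ⟨a, ha, b, hb, hab⟩ := hsurj (g⁻¹ * m * g) (mul_mem (mul_mem (inv_mem hg) hm) hg)
    refine ⟨g * a * g⁻¹, ?_, g * b * g⁻¹, conj_mem_sigmaCore hg hb, ?_⟩
    · rw [mem_cj]
      have : g⁻¹ * (g * a * g⁻¹) * g = a := by group
      rw [this]
      exact ha
    · have h1 : m = g * (g⁻¹ * m * g) * g⁻¹ := by group
      rw [h1, hab]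
      group

/-- An elementary abelian group of order `q ^ 2` is a `q`-group and is not cyclic. -/
theorem elem_sq_facts {q : ℕ} [Fact q.Prime] {A : Subgroup G} (hel : IsElementaryAbelian q A)
    (hcard : Nat.card A = q ^ 2) : IsPGroup q A ∧ ¬ IsCyclic A := by
  have hq : q.Prime := Fact.out
  refine ⟨?_, ?_⟩
  · intro a
    exact ⟨1, by rw [pow_one]; exact Subtype.ext (hel.2 a a.2)⟩
  · intro hcyc
    obtain ⟨a, ha⟩ := hcyc.exists_generator
    have h1 : orderOf a = Nat.card A := orderOf_eq_card_of_forall_mem_zpowers ha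
    have h2 : a ^ q = 1 := Subtype.ext (hel.2 a a.2)
    have h3 : orderOf a ∣ q := orderOf_dvd_of_pow_eq_one h2
    rw [h1, hcard] at h3
    have h4 : q ^ 2 ≤ q := Nat.le_of_dvd hq.pos h3
    have h5 : 2 ≤ q := hq.two_le
    nlinarith

/-- **Piece E1.** -/
theorem embE1 (hG : IsMinSimpleOddOrder G) (h50 : St1350 G) (h03 : St1403 G) (h17 : St1417 G)
    (h18 : St1418 G) (h20c : St1420c G) (hSC : StSigConj G) : StEmbE1 G := by
  intro M Ms hM hMs hne q _ hqM hqMs X hX1 hNX S hSq hXS hSM hSMs hSyl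
  have hq : q.Prime := Fact.out
  have hXq : IsPGroup q X := hSq.to_le hXS
  -- `q ∣ card Ms`
  have hqdvd : q ∣ Nat.card ↥Ms := by
    have h1 : q ∣ Nat.card X := by
      obtain ⟨n, hn⟩ := IsPGroup.iff_card.mp hXq
      have hn0 : n ≠ 0 := by
        rintro rfl
        rw [pow_zero] at hn
        exact hX1 (Subgroup.card_eq_one.mp hn)
      rw [hn]
      exact dvd_pow_self q hn0
    exact h1.trans (Subgroup.card_dvd_of_le (hXS.trans hSMs))
  -- `S` as a Sylow subgroup of `Ms`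
  have hS'q : IsPGroup q (S.subgroupOf Ms) := hSq.comap_subtype
  obtain ⟨P, hP⟩ : ∃ P : Sylow q Ms, (P : Subgroup Ms) = S.subgroupOf Ms :=
    ⟨hS'q.toSylow hSyl, rfl⟩
  have hPS : (P : Subgroup Ms).map Ms.subtype = S := by
    rw [hP]; exact Subgroup.map_subgroupOf_eq_of_le hSMs
  -- `S` is not cyclic
  have hSnc : ¬ IsCyclic S := by
    intro hcyc
    apply hqMs
    refine ⟨hq, hqdvd, P, ?_⟩
    rw [hPS]
    exact (normalizer_le_of_cyclic hcyc hXS).trans hNX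
  have hq2 : q ≠ 2 := Cfsg.Agent.H76.BG10.ne_two_of_dvd hG Ms hqdvd
  have hrk : ¬ PRankLE q 1 ↥S := fun h =>
    hSnc (Cfsg.Agent.Helper55.isCyclic_of_pRankLE_one hq2 hSq h)
  obtain ⟨A, hAS, hAel, hAcard⟩ :=
    Cfsg.Agent.Lib.Helper30.BG12.exists_elem_sq_of_not_pRankLE_one hrk
  have hAM : A ≤ M := hAS.trans hSM
  have hAMs : A ≤ Ms := hAS.trans hSMs
  obtain ⟨hAq, hAnc⟩ := elem_sq_facts hAel hAcard
  -- `q ∈ τ₂(Ms)`
  have hτ : q ∈ tau2 Ms := by
    refine ⟨hq, hqMs, ?_, ?_⟩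
    · by_contra h
      exact hqMs (Cfsg.Agent.H58.BG10.alpha_subset_sigma hG h03 hMs ⟨hq, h⟩)
    · intro h
      have hcomm : IsMulCommutative ↥(A.subgroupOf Ms) := by
        refine ⟨⟨fun a b => ?_⟩⟩
        have h1 := hAel.1.is_comm.comm (⟨((a : Ms) : G), a.2⟩ : A) ⟨((b : Ms) : G), b.2⟩
        have h2 : ((a : Ms) : G) * ((b : Ms) : G) = ((b : Ms) : G) * ((a : Ms) : G) :=
          congrArg Subtype.val h1
        apply Subtype.ext
        apply Subtype.ext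
        exact h2
      have hexp : ∀ a ∈ A.subgroupOf Ms, a ^ q = 1 := by
        intro a ha
        apply Subtype.ext
        exact hAel.2 (a : G) ha
      have h1 := h (A.subgroupOf Ms) hcomm hexp
      rw [Nat.card_congr (Subgroup.subgroupOfEquivOfLe hAMs).toEquiv, hAcard, pow_one] at h1
      have h5 : 2 ≤ q := hq.two_le
      nlinarith
  obtain ⟨hnil, -, -, -, hother, -⟩ := h17 Ms hMs q hτ A ⟨hAMs, hAel, hAcard⟩
  have hint : sigmaCore Ms ⊓ M = ⊥ := hother M hM (Ne.symm hne) hAM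
  -- primes of `card (M ⊓ Ms)` are not in `σ(Ms)`
  have hpi : ∀ p : ℕ, p.Prime → p ∣ Nat.card ↥(M ⊓ Ms) → p ∉ sigma Ms := by
    intro p hp hpd hps
    have : Fact p.Prime := ⟨hp⟩
    obtain ⟨y, hy⟩ := exists_prime_orderOf_dvd_card' (G := ↥(M ⊓ Ms)) p hpd
    have hyo : orderOf (y : G) = p := by rw [← hy]; exact (Subgroup.orderOf_coe y)
    have hzp : IsPGroup p (Subgroup.zpowers (y : G)) := by
      rw [IsPGroup.iff_card, Nat.card_zpowers, hyo]
      exact ⟨1, (pow_one p).symm⟩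
    have hzle : Subgroup.zpowers (y : G) ≤ Ms := by
      rw [Subgroup.zpowers_le]; exact y.2.2
    have h1 : Subgroup.zpowers (y : G) ≤ sigmaCore Ms :=
      Cfsg.Agent.H92.BG12.le_sigmaCore_of_mem h50 hMs hps hzp hzle
    have h2 : (y : G) ∈ sigmaCore Ms ⊓ M := ⟨h1 (Subgroup.mem_zpowers _), y.2.1⟩
    rw [hint, Subgroup.mem_bot] at h2
    rw [h2, orderOf_one] at hyo
    exact hp.one_lt.ne hyo
  obtain ⟨E₀, hE₀⟩ := exists_complIn_sigmaCore h50 hMs
  obtain ⟨g, hgMs, hg⟩ := hSC Ms hMs E₀ hE₀ (M ⊓ Ms) inf_le_right hpi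
  have hE : IsComplIn (MulAut.conj g⁻¹ • E₀) (sigmaCore Ms) Ms := complIn_cj hE₀ (inv_mem hgMs)
  have hle : M ⊓ Ms ≤ MulAut.conj g⁻¹ • E₀ := le_cj_inv (by rw [← map_conj_eq_smul]; exact hg)
  obtain ⟨⟨hEN, -⟩, -, -⟩ := h18 Ms hMs _ hE q hτ A ⟨(le_inf hAM hAMs).trans hle, hAel, hAcard⟩
  have hNA : normalizer (A : Set G) ≤ M := h20c M hM q A hqM hAq hAM hAnc
  have hEle : MulAut.conj g⁻¹ • E₀ ≤ M ⊓ Ms := le_inf (hEN.trans hNA) hE.1
  have heq : M ⊓ Ms = MulAut.conj g⁻¹ • E₀ := le_antisymm hle hEle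
  exact ⟨hnil, hint, heq ▸ hE⟩

end Cfsg.Agent.H47.BG12
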