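import Mathlib
import Cfsg.Agent.H47.BG1312Defs
import Cfsg.Agent.H1.Coprime

set_option autoImplicit false

/-!
# B&G 13.12 (project BG1312), piece COMM (helper47): `q ≠ p` and `Q = [Q, P] ≤ M'`
-/

namespace Cfsg.Agent.H47.BG1312

open Cfsg Subgroup
open scoped Pointwise

universe u

variable {G : Type u} [Group G]

/-- In a `Side`, `P` is not contained in `Q`. -/
theorem side_not_le {M N P Q : Subgroup G} {p q : ℕ} (hS : Side M N P Q p q) : ¬ P ≤ Q := by
  intro hle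
  have hpp : p.Prime := hS.hp.1
  haveI : Fact p.Prime := ⟨hpp⟩
  have hcyc : IsCyclic ↥P := isCyclic_of_prime_card hS.hPc
  have hPcen : P ≤ centralizer (P : Set G) := by
    intro a ha
    rw [mem_centralizer_iff]
    intro b hb
    obtain ⟨g, hg⟩ := IsCyclic.exists_generator (α := ↥P)
    obtain ⟨i, hi⟩ := hg ⟨a, ha⟩
    obtain ⟨j, hj⟩ := hg ⟨b, hb⟩
    have h1 : (⟨b, hb⟩ : ↥P) * ⟨a, ha⟩ = ⟨a, ha⟩ * ⟨b, hb⟩ := by
      rw [← hi, ← hj]
      exact ((Commute.refl g).zpow_zpow j i).eq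
    exact congrArg Subtype.val h1
  have hbot : P = ⊥ := by
    rw [eq_bot_iff, ← hS.hfix]
    exact le_inf hle hPcen
  have hPc := hS.hPc
  rw [hbot, Subgroup.card_bot] at hPc
  exact hpp.one_lt.ne hPc

/-- In a `Side`, `q ≠ p`. -/
theorem side_q_ne_p [Finite G] {M N P Q : Subgroup G} {p q : ℕ} (hS : Side M N P Q p q) :
    q ≠ p := by
  intro hqp
  have hpp : p.Prime := hS.hp.1
  haveI : Fact p.Prime := ⟨hpp⟩
  apply side_not_le hS
  have hPp : IsPGroup p P := IsPGroup.of_card (n := 1) (by rw [hS.hPc, pow_one])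
  have hQp : IsPGroup p Q := hqp ▸ hS.hQq
  have hJ : IsPGroup p (P ⊔ Q : Subgroup G) := hPp.to_sup_of_normal_right' hQp hS.hPQ
  have hJM : P ⊔ Q ≤ M := sup_le hS.hPM hS.hQM
  -- the index of `Q` in `P ⊔ Q` is a power of `p` dividing `Q.relIndex M`
  have h1 : Q.relIndex (P ⊔ Q) ∣ Q.relIndex M :=
    Dvd.intro _ (Subgroup.relIndex_mul_relIndex Q (P ⊔ Q) M le_sup_right hJM)
  have h2 : Q.relIndex (P ⊔ Q) ∣ Nat.card (P ⊔ Q : Subgroup G) := Subgroup.relIndex_dvd_card _ _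
  obtain ⟨k, hk⟩ := IsPGroup.iff_card.mp hJ
  rw [hk] at h2
  obtain ⟨j, -, hj⟩ := (Nat.dvd_prime_pow hpp).mp h2
  have hj0 : j = 0 := by
    by_contra hne
    apply hS.hQS
    rw [hqp]
    exact (dvd_pow_self p hne).trans (hj ▸ h1)
  rw [hj0, pow_zero] at hj
  have h3 : P ⊔ Q ≤ Q := Subgroup.relIndex_eq_one.mp hj
  exact le_sup_left.trans h3

/-- In a `Side`, `Q = [Q, P]`. -/
theorem side_le_comm [Finite G] {M N P Q : Subgroup G} {p q : ℕ} (hS : Side M N P Q p q) :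
    Q ≤ ⁅Q, P⁆ := by
  have hpp : p.Prime := hS.hp.1
  have hq : q.Prime := hS.hq
  have : Fact q.Prime := ⟨hq⟩
  have hne := side_q_ne_p hS
  obtain ⟨k, hk⟩ := IsPGroup.iff_card.mp hS.hQq
  have hcop : (Nat.card P).Coprime (Nat.card Q) := by
    rw [hS.hPc, hk]
    exact Nat.Coprime.pow_right _ ((Nat.coprime_primes hpp hq).mpr (Ne.symm hne))
  have hsolv : Group.IsSolvable ↥P ∨ Group.IsSolvable ↥Q := by
    right
    have := hS.hQq.isNilpotent
    infer_instance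
  have h := Cfsg.Agent.H1.coprime_commutator_sup_centralizer P Q hS.hPQ hcop hsolv
  rw [hS.hfix, sup_bot_eq] at h
  exact h.ge

theorem comm [Finite G] : StComm G := by
  intro M N P Q p q hS
  exact (side_le_comm hS).trans (Subgroup.commutator_mono hS.hQM hS.hPM)

example [Finite G] : StComm G := comm

end Cfsg.Agent.H47.BG1312
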