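import Mathlib
import Cfsg.Agent.H47.BG1312Defs
import Cfsg.Agent.H92.BG123
import Cfsg.Agent.H58.BG10FG
import Cfsg.Agent.Lib.Helper30.Trans

set_option autoImplicit false
set_option linter.unusedSectionVars false
set_option linter.unusedVariables false

/-!
# Bender–Glauberman Lemma 13.12 (τ₁-asymmetry): assembly from the pieces (helper47, BG1312)
-/

namespace Cfsg.Agent.H47.BG1312

open Cfsg Subgroup Cfsg.Agent.H58.BG10 Cfsg.Agent.H63.Sig Cfsg.Agent.H47.BG139
open scoped Pointwise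

universe u

variable {G : Type u} [Group G]

/-- **B&G Lemma 13.12** from the pieces. -/
theorem main1312 [Finite G] (hG : IsMinSimpleOddOrder G) (h03 : St1403 G) (h05 : St1405 G)
    (hE : StE G) (hElt : StElt G) (hCyc : StCyc G) (hZH : StZH G) (hInN : StInN G)
    (hTr : StTransport G) (hKill : StKill G) : St1312 G := by
  intro M N P Q T p q t hS hS'
  obtain ⟨x, hxA, hxR, hxp, hxα, hxM, hxU⟩ := hElt M N P Q p q hS
  obtain ⟨y, hyA, hyR, hyp, hyα, hyN, hyU⟩ := hElt N M P T p t hS'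
  have hpM : p ∈ tau1 M := hS.hp
  have hpN : p ∈ tau1 N := hS'.hp
  have hpp : p.Prime := hpM.1
  have hst : orderOf x ≠ orderOf y := by
    intro h
    have h1 : orderOf x ∈ sigma N := by
      rw [h]
      exact alpha_subset_sigma hG h03 hS.hN hyα
    obtain ⟨g, hg⟩ := Cfsg.Agent.H92.BG12.conj_of_alpha_sigma hG h03 hS.hM hS.hN hxα h1
    exact hS'.hnc g hg
  -- `C_G(P)` is solvable
  have hCsol : Group.IsSolvable ↥(centralizer (P : Set G)) := by
    apply Cfsg.Agent.Lib.Helper30.minSimple_solvable_of_ne_top hG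
    intro htop
    have hRcen : P ≤ center G := by
      intro a ha
      rw [Subgroup.mem_center_iff]
      intro b
      have hb : b ∈ centralizer (P : Set G) := by
        rw [htop]
        exact Subgroup.mem_top b
      exact (Subgroup.mem_centralizer_iff.mp hb a ha).symm
    haveI := hG.2.1
    rcases (inferInstance : (center G).Normal).eq_bot_or_eq_top with h1 | h1
    · rw [h1, le_bot_iff] at hRcen
      have hPc := hS.hPc
      rw [hRcen, Subgroup.card_bot] at hPc
      exact hpp.one_lt.ne hPc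
    · apply hG.2.2.1
      refine ⟨⟨fun a b => ?_⟩⟩
      have hb : b ∈ center G := by
        rw [h1]
        exact Subgroup.mem_top b
      exact Subgroup.mem_center_iff.mp hb a
  have hx1 := hCyc M hS.hM p P hpM hS.hPM hS.hPc x hxA hxR hxp hxM
  have hy1 := hCyc N hS.hN p P hpN hS.hPN hS.hPc y hyA hyR hyp hyN
  obtain ⟨c, hcC, hdisj⟩ :=
    hZH (centralizer (P : Set G)) x y hCsol hxR hyR hxp hyp hst hx1 hy1
  -- the conjugate `N' = c N c⁻¹`
  have hN'co : IsCoatom (MulAut.conj c • N : Subgroup G) := isCoatom_cj c hS.hN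
  have hy'R : c * y * c⁻¹ ∈ centralizer (P : Set G) := mul_mem (mul_mem hcC hyR) (inv_mem hcC)
  have hy'o : orderOf (c * y * c⁻¹) = orderOf y :=
    orderOf_injective (MulAut.conj c).toMonoidHom (MulAut.conj c).injective y
  have hy'σ : orderOf (c * y * c⁻¹) ∉ sigma M := by
    rw [hy'o]
    intro h
    obtain ⟨g, hg⟩ := Cfsg.Agent.H92.BG12.conj_of_alpha_sigma hG h03 hS.hN hS.hM hyα h
    exact hS.hnc g hg
  have hzp : (zpowers (c * y * c⁻¹) : Subgroup G) = MulAut.conj c • zpowers y := by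
    rw [← map_conj_eq_smul, MonoidHom.map_zpowers]
    rfl
  have hcen : centralizer ((zpowers (c * y * c⁻¹) : Subgroup G) : Set G) =
      MulAut.conj c • centralizer ((zpowers y : Subgroup G) : Set G) := by
    rw [hzp, centralizer_cj]
  have hy'N : centralizer ((zpowers (c * y * c⁻¹) : Subgroup G) : Set G) ≤ MulAut.conj c • N ∧
      ∀ L : Subgroup G, IsCoatom L →
        centralizer ((zpowers (c * y * c⁻¹) : Subgroup G) : Set G) ≤ L →
          L = MulAut.conj c • N := by
    refine ⟨?_, ?_⟩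
    · rw [hcen]
      exact cj_mono c hyN
    · intro L hL hle
      rw [hcen] at hle
      have h1 : centralizer ((zpowers y : Subgroup G) : Set G) ≤ MulAut.conj c⁻¹ • L := by
        have := cj_mono c⁻¹ hle
        rwa [cj_inv_cj] at this
      have h2 := hyU (MulAut.conj c⁻¹ • L) (isCoatom_cj c⁻¹ hL) h1
      rw [← h2, cj_cj_inv]
  have hxσ : x ∈ sigmaCore M := (h05 M hS.hM).2.2.1 hxA
  have hxN' : x ∈ MulAut.conj c • N :=
    hInN M (MulAut.conj c • N) hS.hM hN'co p P hpM hS.hPM hS.hPc x (c * y * c⁻¹) hxσ hxR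
      ⟨hxM, hxU⟩ hy'R (hy'o ▸ hyp) hy'σ hy'N hdisj
  have hx1' : x ≠ 1 := by
    rintro rfl
    rw [orderOf_one] at hxp
    exact Nat.not_prime_one hxp
  -- move `x` into a complement of `N_σ` in `N` that lies in `M`
  obtain ⟨E, hEc, hPE, hEM⟩ := hE N M P T p t hS'
  have hx'N : c⁻¹ * x * c ∈ N := mem_cj.mp hxN'
  have hx'R : c⁻¹ * x * c ∈ centralizer (P : Set G) :=
    mul_mem (mul_mem (inv_mem hcC) hxR) hcC
  have hx'o : orderOf (c⁻¹ * x * c) = orderOf x := by
    have := orderOf_injective (MulAut.conj c⁻¹).toMonoidHom (MulAut.conj c⁻¹).injective x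
    simpa using this
  have hxσN : orderOf x ∉ sigma N := by
    intro h
    obtain ⟨g, hg⟩ := Cfsg.Agent.H92.BG12.conj_of_alpha_sigma hG h03 hS.hM hS.hN hxα h
    exact hS'.hnc g hg
  obtain ⟨u, huσ, huR, huE⟩ :=
    hTr N E P p (c⁻¹ * x * c) hS.hN hEc hPE hpN hS.hPc hx'N hx'R (hx'o ▸ hxp) (hx'o ▸ hxσN)
  have hx₁o : orderOf (u⁻¹ * (c⁻¹ * x * c) * u) = orderOf x := by
    have := orderOf_injective (MulAut.conj u⁻¹).toMonoidHom (MulAut.conj u⁻¹).injective
      (c⁻¹ * x * c)
    rw [← hx'o]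
    simpa using this
  have hx₁R : u⁻¹ * (c⁻¹ * x * c) * u ∈ centralizer (P : Set G) :=
    mul_mem (mul_mem (inv_mem huR) hx'R) huR
  have hx₁1 : u⁻¹ * (c⁻¹ * x * c) * u ≠ 1 := by
    intro h
    rw [h, orderOf_one] at hx₁o
    rw [← hx₁o] at hxp
    exact Nat.not_prime_one hxp
  have hx₁A : u⁻¹ * (c⁻¹ * x * c) * u ∈ alphaCore M := by
    haveI : Fact (orderOf x).Prime := ⟨hxp⟩
    have hpg : IsPGroup (orderOf x) (zpowers (u⁻¹ * (c⁻¹ * x * c) * u)) := by
      apply IsPGroup.of_card (n := 1)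
      rw [Nat.card_zpowers, hx₁o, pow_one]
    have hle : zpowers (u⁻¹ * (c⁻¹ * x * c) * u) ≤ M := by
      rw [zpowers_le]
      exact hEM huE
    exact Cfsg.Agent.H92.BG12.le_alphaCore_of_mem h05 hS.hM hxα hpg hle (mem_zpowers _)
  exact hKill M N P Q p q hS E hEc hEM _ hx₁A hx₁1 hx₁R (hEc.1 huE)

end Cfsg.Agent.H47.BG1312
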