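import Mathlib
import Cfsg.Agent.H47.BG1312Main
import Cfsg.Agent.H47.BG1312Comm
import Cfsg.Agent.H18.BG1312Syl
import Cfsg.Agent.H18.BG1312Alpha
import Cfsg.Agent.H36.BG1312Sig
import Cfsg.Agent.H36.BG1312Transport
import Cfsg.Agent.H59.BG1312E
import Cfsg.Agent.H59.BG1312Elt
import Cfsg.Agent.H63.BG1312Kill
import Cfsg.Agent.S1378

set_option autoImplicit false

/-!
# Bender–Glauberman Lemma 13.12 (τ₁-asymmetry), unconditionally (helper47, team project BG1312)

Pieces: SYL, ALPHA (helper18), SIG, TRANSPORT (helper36), E, ELT (helper59), KILL (helper63),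
COMM and the assembly (helper47).
-/

namespace Cfsg.Agent.H47.BG1312

open Cfsg Subgroup Cfsg.Agent.H58.BG10 Cfsg.Agent.H47.BG139
open scoped Pointwise

universe u

variable {G : Type u} [Group G]

/-- **B&G Lemma 13.12** (`Q` Sylow in `M`, `T` Sylow in `N`). -/
theorem st1312 [Finite G] (hG : IsMinSimpleOddOrder G) : St1312 G := by
  have h50 := Cfsg.Agent.H58.BG10.st1350 hG
  have h03 := Cfsg.Agent.H58.BG10.st1403 hG
  have h05 := Cfsg.Agent.H58.BG10.st1405 hG
  have h06 := Cfsg.Agent.H58.BG10.st1406 hG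
  have h09 := Cfsg.Agent.H58.BG10.st1409 hG
  have hT := Cfsg.Agent.H58.BG10.stSigComm hG
  have h14 : Cfsg.Agent.H58.BG10.St1414 G :=
    Cfsg.Agent.H76.BG10.bg108 hG hT h05 (Cfsg.Agent.H58.BG10.st1410 hG)
  have h15 : Cfsg.Agent.H58.BG10.St1415 G := Cfsg.Agent.H76.BG10.bg109 hG h05
  have h16 := Cfsg.Agent.H63.BG11.st1416 hG
  have h17 := Cfsg.Agent.H63.BG11.st1417 hG
  have h23 := Cfsg.Agent.Lib.Helper30.BG12T.st1423_core hG h16 h17
  have hSC := Cfsg.Agent.H57.BG12Hall.sigConj hG h50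
  have hLR := Cfsg.Agent.H29.BG134.stLR hG
  have h28 : Cfsg.Agent.Lib.Helper30.BG134.St1428 G :=
    fun M hM E hE p hp P hPE hP R hRE hR =>
      Cfsg.Agent.S1428.result hG M hM E hE p hp P hPE hP R hRE hR
  have h78 : St1378b G := fun M N hM hN h => (Cfsg.Agent.S1378.result hG).2 M N hM hN h
  have hCyc := Cfsg.Agent.H32.BG139.cyc hG h05 h06 h09
  have hZH : Cfsg.Agent.H47.BG139.StZH G := Cfsg.Agent.H72.BG139.zh
  have hInN := Cfsg.Agent.H57.BG139.inN hG h50 hSC h28
  have hSig : StSig G := Cfsg.Agent.H36.BG1312.sig h78 h50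
  have hComm : StComm G := comm
  have hAl : StAlpha G := Cfsg.Agent.H18.BG1312.alpha hG h03 h05 h06 h14 hSig hComm
  have hElt : StElt G := Cfsg.Agent.H59.BG1312Elt.elt hG h03 h05 h23 hLR hSig hAl
  have hE : StE G := Cfsg.Agent.H59.BG1312E.e h50 h15 hSC hSig
  have hTr : StTransport G := Cfsg.Agent.H36.BG1312.transport hSC
  have hKill : StKill G := Cfsg.Agent.H63.BG1312.kill hG h03 h05 h50 h17 h78 hSig hLR hSC
  exact main1312 hG h03 h05 hE hElt hCyc hZH hInN hTr hKill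

/-- **B&G Lemma 13.12** in its original form (`Q`, `T` Sylow subgroups of `M ∩ N`). -/
theorem st1312BG [Finite G] (hG : IsMinSimpleOddOrder G) : St1312BG G := by
  intro M N P Q T p q t hM hN hnc hpM hpN hP hPc hq hQq hQ1 hQ hQS ht hTt hT1 hT hTS hPQ hPT
    hfQ hfT hNQ hNT
  have hsyl : StSyl G := Cfsg.Agent.H18.BG1312.syl
  have hnc1 : ∀ g : G, N ≠ MulAut.conj g • M := by
    intro g h
    exact hnc g (by rw [h, Cfsg.Agent.H63.Sig.map_conj_eq_smul])
  have hnc2 : ∀ g : G, M ≠ MulAut.conj g • N := by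
    intro g h
    apply hnc1 g⁻¹
    rw [h, Cfsg.Agent.H63.Sig.cj_inv_cj]
  have hQS' : ¬ q ∣ Q.relIndex M :=
    hsyl M (M ⊓ N) Q q hq hQq hQ inf_le_left hQS
      (le_inf inf_le_left (inf_le_right.trans hNQ))
  have hTS' : ¬ t ∣ T.relIndex N := by
    have := hsyl N (N ⊓ M) T t ht hTt (by rw [inf_comm]; exact hT) inf_le_left
      (by rw [inf_comm]; exact hTS) (le_inf inf_le_left (inf_le_right.trans hNT))
    exact this
  have hS1 : Side M N P Q p q :=
    { hM := hM, hN := hN, hnc := hnc1, hp := hpM, hPM := hP.trans inf_le_left,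
      hPN := hP.trans inf_le_right, hPc := hPc, hq := hq, hQq := hQq, hQ1 := hQ1,
      hQM := hQ.trans inf_le_left, hQS := hQS', hPQ := hPQ, hfix := hfQ, hNQ := hNQ }
  have hS2 : Side N M P T p t :=
    { hM := hN, hN := hM, hnc := hnc2, hp := hpN, hPM := hP.trans inf_le_right,
      hPN := hP.trans inf_le_left, hPc := hPc, hq := ht, hQq := hTt, hQ1 := hT1,
      hQM := hT.trans inf_le_right, hQS := hTS', hPQ := hPT, hfix := hfT, hNQ := hNT }
  exact st1312 hG M N P Q T p q t hS1 hS2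

end Cfsg.Agent.H47.BG1312
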