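import Mathlib
import Cfsg.Agent.H47.BG139Defs
import Cfsg.Agent.H92.BG123
import Cfsg.Agent.Lib.Helper30.Trans

set_option autoImplicit false
set_option linter.unusedSectionVars false
set_option linter.unusedVariables false

/-!
# Bender–Glauberman Theorem 13.9 (S1378): assembly from the pieces (helper47, project BG139)
-/

namespace Cfsg.Agent.H47.BG139

open Cfsg Subgroup Cfsg.Agent.H58.BG10 Cfsg.Agent.H63.Sig
open scoped Pointwise

universe u

variable {G : Type u} [Group G]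

/-- The configuration is symmetric in `M` and `N`. -/
theorem SCfg.symm {M N Q : Subgroup G} {q : ℕ} (h : SCfg M N Q q) : SCfg N M Q q :=
  { hM := h.hN, hN := h.hM, hq := h.hq, hqM := h.hqN, hqN := h.hqM, hQq := h.hQq, hQ1 := h.hQ1,
    hQi := h.hQi, hNM := h.hNN, hNN := h.hNM,
    hnc := fun g hg => h.hnc g⁻¹ (by rw [hg, cj_inv_cj]) }

/-- **B&G Theorem 13.9** (second half of S1378) from the pieces. -/
theorem main [Finite G] (hG : IsMinSimpleOddOrder G) (h03 : St1403 G) (h05 : St1405 G)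
    (hRed : StRed G) (hAbel : StAbel G) (hTau : StTau G) (hFix : StFix G)
    (hPP : StPrimPow G) (hStep : StStep G) (hElt : StElt G) (hCyc : StCyc G)
    (hZH : StZH G) (hInN : StInN G) (hFinal : StFinal G) : St1378b G := by
  intro M N hM hN hne
  obtain ⟨q, hqM, hqN⟩ := hne
  by_contra hcon
  have hnc : ∀ g : G, N ≠ MulAut.conj g • M := by
    intro g hg
    exact hcon ⟨g, by rw [hg, map_conj_eq_smul]⟩
  obtain ⟨g₀, Q, hC⟩ := hRed M N q hM hN hqM hqN hnc
  generalize MulAut.conj g₀ • N = N₁ at hC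
  have hC' : SCfg N₁ M Q q := hC.symm
  obtain ⟨hQMs, hab⟩ := hAbel M N₁ Q q hC
  have hfix := hFix M N₁ Q q hC
  obtain ⟨u, v, hu, hvD, ⟨k, hk⟩, z, hzQ, hvz⟩ :=
    hPP Q (normalizer (Q : Set G)) hC.hQ1 hfix
  have huM : u ∈ tau1 M := hTau M N₁ Q q hC u v hu hvD ⟨k, hk⟩ ⟨z, hzQ, hvz⟩
  have huN : u ∈ tau1 N₁ := hTau N₁ M Q q hC' u v hu hvD ⟨k, hk⟩ ⟨z, hzQ, hvz⟩
  -- the subgroup `R` of order `u` of `⟨v⟩`
  have hv1 : v ≠ 1 := by
    rintro rfl
    simp at hvz
  have hk0 : k ≠ 0 := by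
    rintro rfl
    rw [pow_zero, orderOf_eq_one_iff] at hk
    exact hv1 hk
  have hwo : orderOf (v ^ (u ^ (k - 1))) = u := by
    rw [orderOf_pow' _ (pow_ne_zero _ hu.ne_zero), hk]
    have h1 : Nat.gcd (u ^ k) (u ^ (k - 1)) = u ^ (k - 1) :=
      Nat.gcd_eq_right (pow_dvd_pow u (Nat.sub_le k 1))
    rw [h1]
    have h2 : u ^ k = u ^ (k - 1) * u := by
      rw [← pow_succ]
      congr 1
      omega
    rw [h2, Nat.mul_div_cancel_left _ (pow_pos hu.pos _)]
  obtain ⟨R, hRdef⟩ : ∃ R : Subgroup G, R = zpowers (v ^ (u ^ (k - 1))) := ⟨_, rfl⟩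
  have hRD : R ≤ normalizer (Q : Set G) := by
    rw [hRdef, zpowers_le]
    exact pow_mem hvD _
  have hRc : Nat.card R = u := by rw [hRdef, Nat.card_zpowers, hwo]
  -- `R` acts without fixed points on `Q`
  have hfree : Q ⊓ centralizer (R : Set G) = ⊥ := by
    by_contra hZ
    have hZfix : (Q ⊓ centralizer (R : Set G)) ⊓
        centralizer ((normalizer (Q : Set G) : Subgroup G) : Set G) = ⊥ := by
      rw [eq_bot_iff, ← hfix]
      exact inf_le_inf_right _ inf_le_left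
    obtain ⟨u', v', hu', hv'D, hk', z', hz'Z, hv'z'⟩ :=
      hPP _ (normalizer (Q : Set G)) hZ hZfix
    have hu'M : u' ∈ tau1 M := hTau M N₁ Q q hC u' v' hu' hv'D hk' ⟨z', hz'Z.1, hv'z'⟩
    exact hv'z' (hStep M N₁ Q q hC u R huM hRD hRc u' v' hu'M hv'D hk' z' hz'Z)
  -- the elements `x` and `y`
  obtain ⟨x, hxA, hxR, hxp, hxα, hxM, hxU⟩ := hElt M N₁ Q q hC u R huM hRD hRc hfree
  obtain ⟨y, hyA, hyR, hyp, hyα, hyN, hyU⟩ := hElt N₁ M Q q hC' u R huN hRD hRc hfree
  have hst : orderOf x ≠ orderOf y := by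
    intro h
    have h1 : orderOf x ∈ sigma N₁ := by
      rw [h]
      exact alpha_subset_sigma hG h03 hC.hN hyα
    obtain ⟨g, hg⟩ := Cfsg.Agent.H92.BG12.conj_of_alpha_sigma hG h03 hC.hM hC.hN hxα h1
    exact hC'.hnc g hg
  have hRM : R ≤ M := hRD.trans hC.hNM
  have hRN : R ≤ N₁ := hRD.trans hC.hNN
  -- `C_G(R)` is solvable
  have hCsol : Group.IsSolvable ↥(centralizer (R : Set G)) := by
    apply Cfsg.Agent.Lib.Helper30.minSimple_solvable_of_ne_top hG
    intro htop
    have hRcen : R ≤ center G := by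
      intro a ha
      rw [Subgroup.mem_center_iff]
      intro b
      have hb : b ∈ centralizer (R : Set G) := by
        rw [htop]
        exact Subgroup.mem_top b
      exact (Subgroup.mem_centralizer_iff.mp hb a ha).symm
    haveI := hG.2.1
    rcases (inferInstance : (center G).Normal).eq_bot_or_eq_top with h1 | h1
    · rw [h1, le_bot_iff] at hRcen
      rw [hRcen, Subgroup.card_bot] at hRc
      exact hu.one_lt.ne hRc
    · apply hG.2.2.1
      refine ⟨⟨fun a b => ?_⟩⟩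
      have hb : b ∈ center G := by
        rw [h1]
        exact Subgroup.mem_top b
      exact Subgroup.mem_center_iff.mp hb a
  have hx1 := hCyc M hC.hM u R huM hRM hRc x hxA hxR hxp hxM
  have hy1 := hCyc N₁ hC.hN u R huN hRN hRc y hyA hyR hyp hyN
  obtain ⟨c, hcC, hdisj⟩ :=
    hZH (centralizer (R : Set G)) x y hCsol hxR hyR hxp hyp hst hx1 hy1
  -- the conjugate `N' = c N₁ c⁻¹`
  have hN'co : IsCoatom (MulAut.conj c • N₁ : Subgroup G) := isCoatom_cj c hC.hN
  have hy'R : c * y * c⁻¹ ∈ centralizer (R : Set G) := mul_mem (mul_mem hcC hyR) (inv_mem hcC)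
  have hy'o : orderOf (c * y * c⁻¹) = orderOf y :=
    orderOf_injective (MulAut.conj c).toMonoidHom (MulAut.conj c).injective y
  have hy'σ : orderOf (c * y * c⁻¹) ∉ sigma M := by
    rw [hy'o]
    intro h
    obtain ⟨g, hg⟩ := Cfsg.Agent.H92.BG12.conj_of_alpha_sigma hG h03 hC.hN hC.hM hyα h
    exact hC.hnc g hg
  have hzp : (zpowers (c * y * c⁻¹) : Subgroup G) = MulAut.conj c • zpowers y := by
    rw [← map_conj_eq_smul, MonoidHom.map_zpowers]
    rfl
  have hcen : centralizer ((zpowers (c * y * c⁻¹) : Subgroup G) : Set G) =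
      MulAut.conj c • centralizer ((zpowers y : Subgroup G) : Set G) := by
    rw [hzp, centralizer_cj]
  have hy'N : centralizer ((zpowers (c * y * c⁻¹) : Subgroup G) : Set G) ≤ MulAut.conj c • N₁ ∧
      ∀ L : Subgroup G, IsCoatom L →
        centralizer ((zpowers (c * y * c⁻¹) : Subgroup G) : Set G) ≤ L →
          L = MulAut.conj c • N₁ := by
    refine ⟨?_, ?_⟩
    · rw [hcen]
      exact cj_mono c hyN
    · intro L hL hle
      rw [hcen] at hle
      have h1 : centralizer ((zpowers y : Subgroup G) : Set G) ≤ MulAut.conj c⁻¹ • L := by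
        have := cj_mono c⁻¹ hle
        rwa [cj_inv_cj] at this
      have h2 := hyU (MulAut.conj c⁻¹ • L) (isCoatom_cj c⁻¹ hL) h1
      rw [← h2, cj_cj_inv]
  have hxσ : x ∈ sigmaCore M := (h05 M hC.hM).2.2.1 hxA
  have hxN' : x ∈ MulAut.conj c • N₁ :=
    hInN M (MulAut.conj c • N₁) hC.hM hN'co u R huM hRM hRc x (c * y * c⁻¹) hxσ hxR
      ⟨hxM, hxU⟩ hy'R (hy'o ▸ hyp) hy'σ hy'N hdisj
  have hx1' : x ≠ 1 := by
    rintro rfl
    rw [orderOf_one] at hxp
    exact Nat.not_prime_one hxp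
  exact hFinal M N₁ Q q hC u R huM huN hRD hRc hfree c x hcC hxA hx1' hxR hxα hxM hxN'

end Cfsg.Agent.H47.BG139
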