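import Mathlib
import Cfsg.Agent.Lib.Helper30.BG144

set_option autoImplicit false

/-!
# B&G 14.4: the cosets `x R(x)` are pairwise disjoint (S1433) — helper47

Built on helper30's analysis of `C_G(x)`, `x ∈ M_σ` (`Lib.Helper30.BG144`).
-/

namespace Cfsg.Agent.H47.BG144D

open Cfsg Subgroup Cfsg.Agent.H58.BG10 Cfsg.Agent.H57.BG12 Cfsg.Agent.H76.BG12
  Cfsg.Agent.H47.BG12 Cfsg.Agent.Lib.Helper30.BG134 Cfsg.Agent.Lib.Helper30.BG144
open scoped Pointwise

universe u

variable {G : Type u} [Group G]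

theorem orderOf_dvd_card_of_mem {H : Subgroup G} {x : G} (hx : x ∈ H) :
    orderOf x ∣ Nat.card H := by
  have := orderOf_dvd_natCard (⟨x, hx⟩ : ↥H)
  rwa [Subgroup.orderOf_mk] at this

theorem mem_zpowers_mul_left {x r : G} (hc : Commute x r)
    (hcop : (orderOf x).Coprime (orderOf r)) : x ∈ zpowers (x * r) := by
  obtain ⟨m, hm⟩ := exists_pow_eq_self_of_coprime (x := x) (n := orderOf r) hcop.symm
  have h1 : (x * r) ^ orderOf r = x ^ orderOf r := by
    rw [hc.mul_pow, pow_orderOf_eq_one, mul_one]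
  have h2 : (x * r) ^ orderOf r ∈ zpowers (x * r) := pow_mem (mem_zpowers _) _
  rw [h1] at h2
  have h3 := pow_mem h2 m
  rwa [hm] at h3

theorem mem_zpowers_mul_right {x r : G} (hc : Commute x r)
    (hcop : (orderOf x).Coprime (orderOf r)) : r ∈ zpowers (x * r) := by
  have := mem_zpowers_mul_left hc.symm hcop.symm
  rwa [hc.symm.eq] at this

theorem commute_of_mem_zpowers {z a b : G} (ha : a ∈ zpowers z) (hb : b ∈ zpowers z) :
    Commute a b := by
  obtain ⟨i, rfl⟩ := mem_zpowers_iff.mp ha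
  obtain ⟨j, rfl⟩ := mem_zpowers_iff.mp hb
  exact Commute.zpow_zpow_self z i j

/-- `M_F ≤ M_σ`: a normal Sylow subgroup of a maximal subgroup belongs to a prime of `σ(M)`. -/
theorem fittingHallOf_le_sigmaCore [Finite G] (hG : IsMinSimpleOddOrder G) {L : Subgroup G}
    (hL : IsCoatom L) : fittingHallOf L ≤ sigmaCore L := by
  unfold fittingHallOf sigmaCore
  apply Subgroup.map_mono
  unfold fittingHall piCore
  apply sSup_le_sSup
  rintro N ⟨hNn, hNnil, hNcop⟩
  refine ⟨hNn, ?_⟩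
  intro p hp hpN
  have : Fact p.Prime := ⟨hp⟩
  have hpi : ¬ p ∣ N.index := fun h =>
    hp.one_lt.ne' (Nat.eq_one_of_dvd_coprimes hNcop hpN h)
  obtain ⟨P₀⟩ : Nonempty (Sylow p ↥N) := inferInstance
  have htfae : Group.IsNilpotent ↥N ↔
      ∀ (p : ℕ) (_hp : Fact p.Prime) (P : Sylow p ↥N), (↑P : Subgroup ↥N).Normal :=
    (Group.isNilpotent_of_finite_tfae (G := ↥N)).out 0 3
  have hP₀n : ((P₀ : Subgroup ↥N)).Normal := htfae.mp hNnil p inferInstance P₀
  have : ((P₀ : Subgroup ↥N)).Characteristic := Sylow.characteristic_of_normal P₀ hP₀n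
  have := hNn
  have hP₁n : ((P₀ : Subgroup ↥N).map N.subtype).Normal :=
    ConjAct.normal_of_characteristic_of_normal
  have hP₁p : IsPGroup p ((P₀ : Subgroup ↥N).map N.subtype) := P₀.isPGroup'.map N.subtype
  have hP₁i : ¬ p ∣ ((P₀ : Subgroup ↥N).map N.subtype).index := by
    rw [Subgroup.index_map_subtype]
    intro h
    rcases (Nat.Prime.dvd_mul hp).mp h with h1 | h1
    · exact P₀.not_dvd_index h1
    · exact hpi h1
  have hP₀1 : (P₀ : Subgroup ↥N) ≠ ⊥ := P₀.ne_bot_of_dvd_card hpN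
  have hP₁1 : (P₀ : Subgroup ↥N).map N.subtype ≠ ⊥ :=
    (Subgroup.map_eq_bot_iff_of_injective _ (Subgroup.subtype_injective N)).not.mpr hP₀1
  have hP₂1 : ((P₀ : Subgroup ↥N).map N.subtype).map L.subtype ≠ ⊥ :=
    (Subgroup.map_eq_bot_iff_of_injective _ (Subgroup.subtype_injective L)).not.mpr hP₁1
  have hP₂L : ((P₀ : Subgroup ↥N).map N.subtype).map L.subtype ≤ L := Subgroup.map_subtype_le _
  have hP₂top : ((P₀ : Subgroup ↥N).map N.subtype).map L.subtype ≠ ⊤ :=
    fun h => hL.1 (top_le_iff.mp (h ▸ hP₂L))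
  have hNtop : normalizer ((((P₀ : Subgroup ↥N).map N.subtype).map L.subtype : Subgroup G) : Set G)
      ≠ ⊤ := Cfsg.Agent.H51.BG10.normalizer_ne_top_of_ne hG hP₂1 hP₂top
  have hLle : L ≤ normalizer ((((P₀ : Subgroup ↥N).map N.subtype).map L.subtype : Subgroup G) :
      Set G) := by
    rw [Subgroup.le_normalizer_iff]
    intro l hl k hk
    obtain ⟨k', hk', rfl⟩ := hk
    exact ⟨⟨l, hl⟩ * k' * ⟨l, hl⟩⁻¹, hP₁n.conj_mem k' hk' ⟨l, hl⟩, rfl⟩
  have hNle : normalizer ((((P₀ : Subgroup ↥N).map N.subtype).map L.subtype : Subgroup G) : Set G)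
      ≤ L := by
    by_contra hcon
    exact hNtop (hL.2 _ (lt_of_le_of_ne hLle (fun h => hcon (h ▸ le_rfl))))
  refine ⟨hp, ?_, hP₁p.toSylow hP₁i, ?_⟩
  · have h1 : Nat.card ↥N ∣ Nat.card ↥L := Subgroup.card_subgroup_dvd_card N
    exact hpN.trans h1
  · rw [IsPGroup.toSylow_coe]
    exact hNle

/-- helper30's dichotomy for `x ∈ M_σ`, `x ≠ 1`: either `C_G(x) ≤ M`, or some maximal subgroup
`N`, not conjugate to `M`, contains `C_G(x)` and has `N_σ ∩ M = 1`. -/
theorem dich [Finite G] (hG : IsMinSimpleOddOrder G) (h50 : St1350 G) (h04 : St1404 G)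
    (h24 : St1424 G) (hE1 : StEmbE1 G) (hPart : StPart G) (M : Subgroup G) (hM : IsCoatom M)
    (x : G) (hx : x ∈ sigmaCore M) (hx1 : x ≠ 1) :
    centralizer ({x} : Set G) ≤ M ∨ ∃ N : Subgroup G, IsCoatom N ∧
      (∀ g : G, N ≠ M.map (MulAut.conj g).toMonoidHom) ∧ centralizer ({x} : Set G) ≤ N ∧
      sigmaCore N ⊓ M = ⊥ := by
  have hσM : sigmaCore M ≤ M := (h50 M hM).1.1
  have hxM : x ∈ M := hσM hx
  have hord : orderOf x ≠ 1 := fun h => hx1 (orderOf_eq_one_iff.mp h)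
  obtain ⟨q, hq, hqd⟩ := Nat.exists_prime_and_dvd hord
  have : Fact q.Prime := ⟨hq⟩
  have hord0 : orderOf x ≠ 0 := (orderOf_pos x).ne'
  have hyq : orderOf (x ^ (orderOf x / q)) = q := orderOf_pow_orderOf_div hord0 hqd
  have hYc : Nat.card (zpowers (x ^ (orderOf x / q))) = q := by
    rw [Nat.card_zpowers, hyq]
  have hYq : IsPGroup q (zpowers (x ^ (orderOf x / q))) :=
    IsPGroup.of_card (n := 1) (by rw [hYc, pow_one])
  have hY1 : zpowers (x ^ (orderOf x / q)) ≠ ⊥ := ne_bot_of_card_prime hq hYc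
  have hYσ : zpowers (x ^ (orderOf x / q)) ≤ sigmaCore M := by
    rw [zpowers_le]
    exact pow_mem hx _
  have hYM : zpowers (x ^ (orderOf x / q)) ≤ M := hYσ.trans hσM
  have hqσ : q ∈ sigma M := by
    refine (h50 M hM).1.2.1 q hq ?_
    rw [← hYc]
    exact Subgroup.card_dvd_of_le hYσ
  have hCY : centralizer ({x} : Set G) ≤
      centralizer ((zpowers (x ^ (orderOf x / q)) : Subgroup G) : Set G) := by
    intro c hc
    rw [mem_centralizer_iff]
    intro z hz
    obtain ⟨k, rfl⟩ := mem_zpowers_iff.mp hz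
    have h1 : Commute x c := (mem_centralizer_iff.mp hc) x rfl
    exact ((h1.pow_left _).zpow_left k).eq
  have hYtop : zpowers (x ^ (orderOf x / q)) ≠ ⊤ := fun h => hM.1 (top_le_iff.mp (h ▸ hYM))
  have hNtop : normalizer ((zpowers (x ^ (orderOf x / q)) : Subgroup G) : Set G) ≠ ⊤ :=
    Cfsg.Agent.H51.BG10.normalizer_ne_top_of_ne hG hY1 hYtop
  by_cases hex : ∃ N : Subgroup G, IsCoatom N ∧ N ≠ M ∧
      normalizer ((zpowers (x ^ (orderOf x / q)) : Subgroup G) : Set G) ≤ N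
  swap
  · left
    have hNYM : normalizer ((zpowers (x ^ (orderOf x / q)) : Subgroup G) : Set G) ≤ M := by
      obtain ⟨L, hL, hNL⟩ := (eq_top_or_exists_le_coatom _).resolve_left hNtop
      have hLM : L = M := by
        by_contra hne
        exact hex ⟨L, hL, hne, hNL⟩
      rw [← hLM]
      exact hNL
    exact hCY.trans ((Cfsg.Agent.Lib.Helper30.centralizer_le_normalizer' _).trans hNYM)
  · right
    obtain ⟨N, hN, hNneM, hNYN⟩ := hex
    obtain ⟨S, hYS⟩ := exists_sylow_ge hYq (le_inf hYM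
      ((Subgroup.le_normalizer).trans hNYN))
    obtain ⟨hnc, -, hSyl⟩ := h24 M hM q hqσ _ hYq hY1 hYM N hN hNneM hNYN S hYS
    have hqN : q ∉ sigma N := by
      intro h
      obtain ⟨g, hg⟩ := hPart M N hM hN ⟨q, hqσ, h⟩
      exact hnc g hg
    obtain ⟨-, hdisj, -⟩ := hE1 M N hM hN hNneM q hqσ hqN _ hY1 hNYN _ (S.2.map _) hYS
      ((Subgroup.map_subtype_le _).trans inf_le_left)
      ((Subgroup.map_subtype_le _).trans inf_le_right) hSyl
    exact ⟨N, hN, hnc,
      hCY.trans ((Cfsg.Agent.Lib.Helper30.centralizer_le_normalizer' _).trans hNYN), hdisj⟩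

/-- The data carried by an element of `R(x) = supportR M x`. -/
theorem supportR_data [Finite G] (hG : IsMinSimpleOddOrder G) (h50 : St1350 G) (h04 : St1404 G)
    (h24 : St1424 G) (hE1 : StEmbE1 G) (hPart : StPart G) {M : Subgroup G} (hM : IsCoatom M)
    {x : G} (hx : x ∈ sigmaCore M) (hx1 : x ≠ 1) {r : G} (hr : r ∈ supportR M x) :
    r ∈ centralizer ({x} : Set G) ∧ (r = 1 ∨ ∃ L : Subgroup G, IsCoatom L ∧
      (∀ g : G, L ≠ M.map (MulAut.conj g).toMonoidHom) ∧ centralizer ({x} : Set G) ≤ L ∧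
      (∀ L₂ : Subgroup G, IsCoatom L₂ → centralizer ({x} : Set G) ≤ L₂ → L₂ = L) ∧
      r ∈ sigmaCore L) := by
  unfold supportR at hr
  split_ifs at hr with h
  · obtain ⟨hnot, hex⟩ := h
    have hspec := Classical.choose_spec hex.exists
    have huniq : ∀ L₂ : Subgroup G, IsCoatom L₂ → centralizer ({x} : Set G) ≤ L₂ →
        L₂ = Classical.choose hex.exists := fun L₂ h1 h2 => hex.unique ⟨h1, h2⟩ hspec
    refine ⟨hr.2, Or.inr ⟨Classical.choose hex.exists, hspec.1, ?_, hspec.2, huniq,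
      fittingHallOf_le_sigmaCore hG hspec.1 hr.1⟩⟩
    rcases dich hG h50 h04 h24 hE1 hPart M hM x hx hx1 with h1 | ⟨N₂, hN₂, hnc, hC, -⟩
    · exact absurd h1 hnot
    · have h3 := huniq N₂ hN₂ hC
      rw [← h3]
      exact hnc
  · rw [Subgroup.mem_bot] at hr
    exact ⟨hr ▸ one_mem _, Or.inl hr⟩

/-- **S1433**: the cosets `x R(x)`, `x ∈ M_σ ∖ 1`, are pairwise disjoint. -/
theorem coset_ne [Finite G] (hG : IsMinSimpleOddOrder G) (h50 : St1350 G) (h04 : St1404 G)
    (h24 : St1424 G) (hE1 : StEmbE1 G) (hPart : StPart G) (M N : Subgroup G) (hM : IsCoatom M)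
    (hN : IsCoatom N) (x y : G) (hx : x ∈ sigmaCore M) (hy : y ∈ sigmaCore N) (hx1 : x ≠ 1)
    (hy1 : y ≠ 1) (hxy : x ≠ y) :
    ∀ r ∈ supportR M x, ∀ s ∈ supportR N y, x * r ≠ y * s := by
  intro r hr s hs heq
  obtain ⟨hrC, hrD⟩ := supportR_data hG h50 h04 h24 hE1 hPart hM hx hx1 hr
  obtain ⟨hsC, hsD⟩ := supportR_data hG h50 h04 h24 hE1 hPart hN hy hy1 hs
  have hxr : Commute x r := (mem_centralizer_iff.mp hrC) x rfl
  have hys : Commute y s := (mem_centralizer_iff.mp hsC) y rfl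
  have hpx : ∀ p : ℕ, p.Prime → p ∣ orderOf x → p ∈ sigma M := fun p hp hd =>
    (h50 M hM).1.2.1 p hp (hd.trans (orderOf_dvd_card_of_mem hx))
  have hpy : ∀ p : ℕ, p.Prime → p ∣ orderOf y → p ∈ sigma N := fun p hp hd =>
    (h50 N hN).1.2.1 p hp (hd.trans (orderOf_dvd_card_of_mem hy))
  have hpr : ∀ p : ℕ, p.Prime → p ∣ orderOf r → ∃ L : Subgroup G, IsCoatom L ∧
      (∀ g : G, L ≠ M.map (MulAut.conj g).toMonoidHom) ∧ p ∈ sigma L := by
    intro p hp hd
    rcases hrD with h1 | ⟨L, hL, hnc, -, -, hrL⟩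
    · rw [h1, orderOf_one] at hd
      exact absurd (Nat.dvd_one.mp hd) hp.ne_one
    · exact ⟨L, hL, hnc, (h50 L hL).1.2.1 p hp (hd.trans (orderOf_dvd_card_of_mem hrL))⟩
  have hps : ∀ p : ℕ, p.Prime → p ∣ orderOf s → ∃ L : Subgroup G, IsCoatom L ∧
      (∀ g : G, L ≠ N.map (MulAut.conj g).toMonoidHom) ∧ p ∈ sigma L := by
    intro p hp hd
    rcases hsD with h1 | ⟨L, hL, hnc, -, -, hsL⟩
    · rw [h1, orderOf_one] at hd
      exact absurd (Nat.dvd_one.mp hd) hp.ne_one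
    · exact ⟨L, hL, hnc, (h50 L hL).1.2.1 p hp (hd.trans (orderOf_dvd_card_of_mem hsL))⟩
  have hcxr : (orderOf x).Coprime (orderOf r) := by
    apply Nat.coprime_of_dvd
    intro p hp h1 h2
    obtain ⟨L, hL, hnc, hpL⟩ := hpr p hp h2
    obtain ⟨g, hg⟩ := hPart M L hM hL ⟨p, hpx p hp h1, hpL⟩
    exact hnc g hg
  have hcys : (orderOf y).Coprime (orderOf s) := by
    apply Nat.coprime_of_dvd
    intro p hp h1 h2
    obtain ⟨L, hL, hnc, hpL⟩ := hps p hp h2
    obtain ⟨g, hg⟩ := hPart N L hN hL ⟨p, hpy p hp h1, hpL⟩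
    exact hnc g hg
  by_cases hconj : ∃ g : G, N = M.map (MulAut.conj g).toMonoidHom
  · obtain ⟨g₀, hg₀⟩ := hconj
    have hxz : x ∈ zpowers (x * r) := mem_zpowers_mul_left hxr hcxr
    have hrz : r ∈ zpowers (x * r) := mem_zpowers_mul_right hxr hcxr
    have hyz : y ∈ zpowers (x * r) := heq ▸ mem_zpowers_mul_left hys hcys
    have hsz : s ∈ zpowers (x * r) := heq ▸ mem_zpowers_mul_right hys hcys
    have hw : y⁻¹ * x = s * r⁻¹ := by
      have h1 : y⁻¹ * (x * r) * r⁻¹ = y⁻¹ * (y * s) * r⁻¹ := by rw [heq]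
      simpa [mul_assoc] using h1
    have hw1 : y⁻¹ * x = 1 := by
      by_contra hne
      have hord : orderOf (y⁻¹ * x) ≠ 1 := fun h => hne (orderOf_eq_one_iff.mp h)
      obtain ⟨p, hp, hpd⟩ := Nat.exists_prime_and_dvd hord
      have h1 : orderOf (y⁻¹ * x) ∣ orderOf y * orderOf x := by
        have hc : Commute y⁻¹ x := (commute_of_mem_zpowers hyz hxz).inv_left
        have h2 := hc.orderOf_mul_dvd_lcm
        rw [orderOf_inv] at h2
        exact h2.trans (Nat.lcm_dvd_mul _ _)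
      have h2 : orderOf (s * r⁻¹) ∣ orderOf s * orderOf r := by
        have hc : Commute s r⁻¹ := (commute_of_mem_zpowers hsz hrz).inv_right
        have h3 := hc.orderOf_mul_dvd_lcm
        rw [orderOf_inv] at h3
        exact h3.trans (Nat.lcm_dvd_mul _ _)
      have hpd' : p ∣ orderOf (s * r⁻¹) := hw ▸ hpd
      have hMN : M = N.map (MulAut.conj g₀⁻¹).toMonoidHom := by
        rw [hg₀, Cfsg.Agent.H63.Sig.map_conj_eq_smul, Cfsg.Agent.H63.Sig.map_conj_eq_smul,
          Cfsg.Agent.H63.Sig.cj_inv_cj]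
      rcases (Nat.Prime.dvd_mul hp).mp (hpd.trans h1) with ha | ha <;>
        rcases (Nat.Prime.dvd_mul hp).mp (hpd'.trans h2) with hb | hb
      · obtain ⟨L, hL, hnc, hpL⟩ := hps p hp hb
        obtain ⟨g, hg⟩ := hPart N L hN hL ⟨p, hpy p hp ha, hpL⟩
        exact hnc g hg
      · obtain ⟨L, hL, hnc, hpL⟩ := hpr p hp hb
        obtain ⟨g, hg⟩ := hPart N L hN hL ⟨p, hpy p hp ha, hpL⟩
        apply hnc (g * g₀)
        rw [hg, hg₀]
        simp only [Cfsg.Agent.H63.Sig.map_conj_eq_smul, Cfsg.Agent.H63.Sig.cj_mul]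
      · obtain ⟨L, hL, hnc, hpL⟩ := hps p hp hb
        obtain ⟨g, hg⟩ := hPart M L hM hL ⟨p, hpx p hp ha, hpL⟩
        apply hnc (g * g₀⁻¹)
        rw [hg]
        nth_rewrite 1 [hMN]
        simp only [Cfsg.Agent.H63.Sig.map_conj_eq_smul, Cfsg.Agent.H63.Sig.cj_mul]
      · obtain ⟨L, hL, hnc, hpL⟩ := hpr p hp hb
        obtain ⟨g, hg⟩ := hPart M L hM hL ⟨p, hpx p hp ha, hpL⟩
        exact hnc g hg
    exact hxy (eq_of_inv_mul_eq_one hw1).symm
  · have hcxy : (orderOf x).Coprime (orderOf y) := by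
      apply Nat.coprime_of_dvd
      intro p hp h1 h2
      obtain ⟨g, hg⟩ := hPart M N hM hN ⟨p, hpx p hp h1, hpy p hp h2⟩
      exact hconj ⟨g, hg⟩
    have hk : x ^ (orderOf y * orderOf r) = s ^ (orderOf y * orderOf r) := by
      have h1 : (x * r) ^ (orderOf y * orderOf r) = x ^ (orderOf y * orderOf r) := by
        rw [hxr.mul_pow, pow_mul' r, pow_orderOf_eq_one, one_pow, mul_one]
      have h2 : (y * s) ^ (orderOf y * orderOf r) = s ^ (orderOf y * orderOf r) := by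
        rw [hys.mul_pow, pow_mul y, pow_orderOf_eq_one, one_pow, one_mul]
      rw [← h1, heq, h2]
    have hk' : y ^ (orderOf x * orderOf s) = r ^ (orderOf x * orderOf s) := by
      have h1 : (y * s) ^ (orderOf x * orderOf s) = y ^ (orderOf x * orderOf s) := by
        rw [hys.mul_pow, pow_mul' s, pow_orderOf_eq_one, one_pow, mul_one]
      have h2 : (x * r) ^ (orderOf x * orderOf s) = r ^ (orderOf x * orderOf s) := by
        rw [hxr.mul_pow, pow_mul x, pow_orderOf_eq_one, one_pow, one_mul]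
      rw [← h1, ← heq, h2]
    obtain ⟨m, hm⟩ := exists_pow_eq_self_of_coprime
      (Nat.Coprime.mul_left hcxy.symm hcxr.symm : (orderOf y * orderOf r).Coprime (orderOf x))
    obtain ⟨m', hm'⟩ := exists_pow_eq_self_of_coprime
      (Nat.Coprime.mul_left hcxy hcys.symm : (orderOf x * orderOf s).Coprime (orderOf y))
    rcases hsD with hs1 | ⟨L', hL', hnc', hC', hu', hsL'⟩
    · rw [hs1, one_pow] at hk
      rw [hk, one_pow] at hm
      exact hx1 hm.symm
    rcases hrD with hr1 | ⟨L, hL, hnc, hC, hu, hrL⟩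
    · rw [hr1, one_pow] at hk'
      rw [hk', one_pow] at hm'
      exact hy1 hm'.symm
    have hxL' : x ∈ sigmaCore L' := by
      rw [← hm, hk]
      exact pow_mem (pow_mem hsL' _) _
    have hyL : y ∈ sigmaCore L := by
      rw [← hm', hk']
      exact pow_mem (pow_mem hrL _) _
    have hxL : x ∈ L := hC (by
      rw [mem_centralizer_iff]
      intro h hh
      rw [Set.mem_singleton_iff.mp hh])
    have hne : L ≠ L' := by
      intro hLL
      have hord : orderOf x ≠ 1 := fun h => hx1 (orderOf_eq_one_iff.mp h)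
      obtain ⟨p, hp, hpd⟩ := Nat.exists_prime_and_dvd hord
      have h2 : p ∈ sigma L := by
        rw [hLL]
        exact (h50 L' hL').1.2.1 p hp (hpd.trans (orderOf_dvd_card_of_mem hxL'))
      obtain ⟨g, hg⟩ := hPart M L hM hL ⟨p, hpx p hp hpd, h2⟩
      exact hnc g hg
    rcases dich hG h50 h04 h24 hE1 hPart L hL y hyL hy1 with h1 | ⟨N₂, hN₂, -, hCN₂, hdisj⟩
    · exact hne (hu' L hL h1)
    · have h3 : N₂ = L' := hu' N₂ hN₂ hCN₂
      rw [h3] at hdisj
      have h4 : x ∈ sigmaCore L' ⊓ L := ⟨hxL', hxL⟩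
      rw [hdisj, Subgroup.mem_bot] at h4
      exact hx1 h4

end Cfsg.Agent.H47.BG144D
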