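import Mathlib
import Cfsg.Agent.H58.FCDefs

set_option autoImplicit false

/-!
# FC-AB (helper47, for helper58's step (Z) of S1353/S1354): the Frobenius counting lemma

`|T| = |Fix ε| ^ n` for a finite commutative group `T` with automorphisms `β` (fixed-point-free,
`β ^ r = 1`, `r` prime) and `ε` (`ε ^ n = 1`, `ε β ε⁻¹ = β ^ k`, `k` of order `n` modulo `r`).

Proof: `V = Additive T` is a `ℤ[X]`-module through `β`; the Vandermonde system in the commuting
operators `β ^ (k ^ d)` is injective (adjugate), and `w ↦ ∑ β ^ i (w i)` is a bijection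
`(Fin n → Fix ε) → V`.
-/

namespace Cfsg.Agent.H47.FC

open Polynomial

universe u

variable {V : Type u} [AddCommGroup V]

/-- The action of `ℤ[X]` on `V` through the endomorphism `B`. -/
noncomputable def act (B : Module.End ℤ V) (p : ℤ[X]) : V →ₗ[ℤ] V := Polynomial.aeval B p

theorem act_mul (B : Module.End ℤ V) (p q : ℤ[X]) (v : V) :
    act B (p * q) v = act B p (act B q v) := by
  unfold act
  rw [map_mul]
  rfl

theorem act_one (B : Module.End ℤ V) (v : V) : act B 1 v = v := by
  unfold act
  rw [map_one]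
  rfl

theorem act_zero (B : Module.End ℤ V) (v : V) : act B 0 v = 0 := by
  unfold act
  rw [map_zero]
  rfl

theorem act_sum (B : Module.End ℤ V) {ι : Type*} (s : Finset ι) (f : ι → ℤ[X]) (v : V) :
    act B (∑ d ∈ s, f d) v = ∑ d ∈ s, act B (f d) v := by
  unfold act
  rw [map_sum, LinearMap.sum_apply]

theorem act_X_pow (B : Module.End ℤ V) (a : ℕ) (v : V) : act B (X ^ a) v = (B ^ a) v := by
  unfold act
  rw [map_pow, Polynomial.aeval_X]

theorem act_sub (B : Module.End ℤ V) (p q : ℤ[X]) (v : V) :
    act B (p - q) v = act B p v - act B q v := by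
  unfold act
  rw [map_sub]
  rfl

/-- The Vandermonde system in the operators `B ^ x d` is injective, if the differences
`B ^ x j - B ^ x i` are. -/
theorem vander_inj (B : Module.End ℤ V) (n : ℕ) (x : Fin n → ℕ)
    (hx : ∀ i j : Fin n, i < j → ∀ v : V, (B ^ x j) v = (B ^ x i) v → v = 0)
    (w : Fin n → V) (hw : ∀ d : Fin n, ∑ i : Fin n, (B ^ (x d * (i : ℕ))) (w i) = 0) : w = 0 := by
  classical
  let M : Matrix (Fin n) (Fin n) ℤ[X] := Matrix.vandermonde (fun d => (X : ℤ[X]) ^ x d)
  have hM : ∀ d i, act B (M d i) (w i) = (B ^ (x d * (i : ℕ))) (w i) := by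
    intro d i
    have : M d i = X ^ (x d * (i : ℕ)) := by
      simp only [M, Matrix.vandermonde_apply]
      rw [← pow_mul]
    rw [this, act_X_pow]
  have hrow : ∀ d, ∑ i, act B (M d i) (w i) = 0 := by
    intro d
    simp_rw [hM]
    exact hw d
  have hdet : ∀ i, act B M.det (w i) = 0 := by
    intro i
    have h1 : M.adjugate * M = M.det • (1 : Matrix (Fin n) (Fin n) ℤ[X]) := Matrix.adjugate_mul M
    have h2 : ∑ j, act B ((M.adjugate * M) i j) (w j) = act B M.det (w i) := by
      rw [h1, Finset.sum_eq_single i]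
      · simp [Matrix.smul_apply]
      · intro j _ hji
        simp [Matrix.smul_apply, Matrix.one_apply_ne (Ne.symm hji), act_zero]
      · intro h
        exact absurd (Finset.mem_univ i) h
    rw [← h2]
    have h3 : ∀ j, act B ((M.adjugate * M) i j) (w j) =
        ∑ d, act B (M.adjugate i d) (act B (M d j) (w j)) := by
      intro j
      rw [Matrix.mul_apply, act_sum]
      simp_rw [act_mul]
    simp_rw [h3]
    rw [Finset.sum_comm]
    apply Finset.sum_eq_zero
    intro d _
    rw [← map_sum, hrow d, map_zero]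
  have hinj : ∀ v : V, act B M.det v = 0 → v = 0 := by
    have hdetM : M.det = ∏ i : Fin n, ∏ j ∈ Finset.Ioi i, ((X : ℤ[X]) ^ x j - X ^ x i) :=
      Matrix.det_vandermonde _
    rw [hdetM]
    have hmul : ∀ a b : ℤ[X], (∀ v : V, act B a v = 0 → v = 0) → (∀ v : V, act B b v = 0 → v = 0) →
        (∀ v : V, act B (a * b) v = 0 → v = 0) := by
      intro a b ha hb v hv
      rw [act_mul] at hv
      exact hb v (ha _ hv)
    have hone : ∀ v : V, act B 1 v = 0 → v = 0 := by
      intro v hv
      rwa [act_one] at hv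
    apply Finset.prod_induction _ (fun q : ℤ[X] => ∀ v : V, act B q v = 0 → v = 0) hmul hone
    intro i _
    apply Finset.prod_induction _ (fun q : ℤ[X] => ∀ v : V, act B q v = 0 → v = 0) hmul hone
    intro j hj
    have hij : i < j := Finset.mem_Ioi.mp hj
    intro v hv
    rw [act_sub, act_X_pow, act_X_pow, sub_eq_zero] at hv
    exact hx i j hij v hv
  funext i
  exact hinj (w i) (hdet i)

/-- The sums `∑ i, B ^ (k ^ d * i) (w i)`. -/
noncomputable def psi (B : Module.End ℤ V) (k : ℕ) {n : ℕ} (w : Fin n → V) (d : ℕ) : V :=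
  ∑ i : Fin n, (B ^ (k ^ d * (i : ℕ))) (w i)

/-- The Frobenius counting lemma, additive form. -/
theorem card_add [Finite V] (B E : Module.End ℤ V) (r n k : ℕ) (hr : r.Prime) (hn : 0 < n)
    (hBr : B ^ r = 1) (hEn : E ^ n = 1) (hconj : E * B = B ^ k * E)
    (hkord : ∀ i : ℕ, 0 < i → i < n → ¬ (k ^ i ≡ 1 [MOD r]))
    (hfix : ∀ v : V, B v = v → v = 0) :
    Nat.card V = Nat.card {v : V // E v = v} ^ n := by
  classical
  by_cases hV : Subsingleton V
  · have h1 : Nat.card V = 1 := Nat.card_eq_one_iff_unique.mpr ⟨hV, ⟨0⟩⟩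
    have h2 : Nat.card {v : V // E v = v} = 1 := by
      refine Nat.card_eq_one_iff_unique.mpr ⟨⟨fun a b => Subtype.ext (Subsingleton.elim _ _)⟩, ⟨⟨0, map_zero E⟩⟩⟩
    rw [h1, h2, one_pow]
  rw [not_subsingleton_iff_nontrivial] at hV
  obtain ⟨v₀, hv₀⟩ := exists_ne (0 : V)
  -- conjugation formulas
  have hEB : ∀ m : ℕ, E * B ^ m = B ^ (k * m) * E := by
    intro m
    induction m with
    | zero => simp
    | succ m ih =>
      calc E * B ^ (m + 1) = (E * B ^ m) * B := by rw [pow_succ, mul_assoc]
        _ = B ^ (k * m) * (E * B) := by rw [ih, mul_assoc]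
        _ = B ^ (k * m) * (B ^ k * E) := by rw [hconj]
        _ = B ^ (k * (m + 1)) * E := by rw [← mul_assoc, ← pow_add, mul_add, mul_one]
  have hEjB : ∀ j m : ℕ, E ^ j * B ^ m = B ^ (k ^ j * m) * E ^ j := by
    intro j
    induction j with
    | zero => intro m; simp
    | succ j ih =>
      intro m
      calc E ^ (j + 1) * B ^ m = E * (E ^ j * B ^ m) := by rw [pow_succ', mul_assoc]
        _ = (E * B ^ (k ^ j * m)) * E ^ j := by rw [ih, mul_assoc]
        _ = B ^ (k * (k ^ j * m)) * (E * E ^ j) := by rw [hEB, mul_assoc]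
        _ = B ^ (k ^ (j + 1) * m) * E ^ (j + 1) := by
          rw [← pow_succ' E j, ← mul_assoc k, ← pow_succ' k j]
  -- `B ^ m` is injective
  have hBinj : ∀ (m : ℕ) (v u : V), (B ^ m) v = (B ^ m) u → v = u := by
    intro m v u h
    have h1 : B ^ (m * (r - 1)) * B ^ m = 1 := by
      rw [← pow_add]
      have : m * (r - 1) + m = r * m := by
        have := hr.pos
        obtain ⟨q, rfl⟩ : ∃ q, r = q + 1 := ⟨r - 1, by omega⟩
        simp only [Nat.add_sub_cancel]
        ring
      rw [this, pow_mul, hBr, one_pow]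
    have h2 : ∀ z : V, (B ^ (m * (r - 1))) ((B ^ m) z) = z := by
      intro z
      have := congrArg (fun f : Module.End ℤ V => f z) h1
      simpa using this
    rw [← h2 v, ← h2 u, h]
  -- elements fixed by `B ^ m`, `r ∤ m`
  have hfixm : ∀ (m : ℕ) (v : V), ¬ r ∣ m → (B ^ m) v = v → v = 0 := by
    intro m v hm hv
    have hcop : Nat.Coprime m r := ((Nat.Prime.coprime_iff_not_dvd hr).mpr hm).symm
    obtain ⟨s, hs⟩ := Nat.exists_mul_mod_eq_one_of_coprime hcop hr.one_lt
    have h1 : ∀ t : ℕ, ((B ^ m) ^ t) v = v := by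
      intro t
      induction t with
      | zero => simp
      | succ t ih =>
        rw [pow_succ]
        show ((B ^ m) ^ t) ((B ^ m) v) = v
        rw [hv, ih]
    have h2 : (B ^ m) ^ s = B := by
      rw [← pow_mul]
      have h3 : m * s = r * (m * s / r) + 1 := by
        have := Nat.div_add_mod (m * s) r
        omega
      rw [h3, pow_add, pow_mul, hBr, one_pow, one_mul, pow_one]
    apply hfix
    have := h1 s
    rwa [h2] at this
  have hne : ∀ (a c : ℕ) (v : V), ¬ (a ≡ c [MOD r]) → (B ^ a) v = (B ^ c) v → v = 0 := by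
    have key : ∀ (a c : ℕ) (v : V), c ≤ a → ¬ (a ≡ c [MOD r]) → (B ^ a) v = (B ^ c) v → v = 0 := by
      intro a c v hca hac h
      have hm : ¬ r ∣ a - c := by
        intro hd
        exact hac ((Nat.modEq_iff_dvd' hca).mpr hd).symm
      have h1 : (B ^ c) ((B ^ (a - c)) v) = (B ^ c) v := by
        have : B ^ a = B ^ c * B ^ (a - c) := by
          rw [← pow_add]
          congr 1
          omega
        rw [this] at h
        exact h
      exact hfixm (a - c) v hm (hBinj c _ _ h1)
    intro a c v hac h
    rcases le_total c a with hca | hca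
    · exact key a c v hca hac h
    · exact key c a v hca (fun h' => hac h'.symm) h.symm
  -- `r ∤ k`
  have hrk : ¬ r ∣ k := by
    rintro ⟨q, rfl⟩
    have h1 : B ^ (r * q) = 1 := by rw [pow_mul, hBr, one_pow]
    rw [h1, one_mul] at hconj
    have h2 : E ^ (n - 1) * (E * B) = E ^ (n - 1) * E := by rw [hconj]
    have h3 : E ^ (n - 1) * E = 1 := by
      rw [← pow_succ]
      have : n - 1 + 1 = n := by omega
      rw [this, hEn]
    rw [← mul_assoc, h3, one_mul] at h2
    apply hv₀
    apply hfix
    rw [h2]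
    rfl
  have hcopk : Nat.Coprime r k := (Nat.Prime.coprime_iff_not_dvd hr).mpr hrk
  have hdist : ∀ i j : ℕ, i < j → j < n → ¬ (k ^ j ≡ k ^ i [MOD r]) := by
    intro i j hij hjn h
    have h1 : k ^ j = k ^ i * k ^ (j - i) := by
      rw [← pow_add]
      congr 1
      omega
    rw [h1] at h
    have h2 : k ^ i * k ^ (j - i) ≡ k ^ i * 1 [MOD r] := by rwa [mul_one]
    have h3 : Nat.gcd r (k ^ i) = 1 := Nat.Coprime.pow_right i hcopk
    exact hkord (j - i) (by omega) (by omega) (Nat.ModEq.cancel_left_of_coprime h3 h2)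
  -- the Vandermonde system is injective
  have hΨinj : ∀ w w' : Fin n → V, (∀ d : Fin n, psi B k w (d : ℕ) = psi B k w' (d : ℕ)) →
      w = w' := by
    intro w w' h
    have h0 : w - w' = 0 := by
      apply vander_inj B n (fun d => k ^ (d : ℕ))
      · intro i j hij v hv
        exact hne _ _ v (hdist i j hij j.2) hv
      · intro d
        have := h d
        unfold psi at this
        simp only [Pi.sub_apply, map_sub, Finset.sum_sub_distrib]
        rw [this, sub_self]
    exact sub_eq_zero.mp h0
  -- applying `E`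
  have hEΨ : ∀ (w : Fin n → V) (d : ℕ), E (psi B k w d) = psi B k (fun i => E (w i)) (d + 1) := by
    intro w d
    unfold psi
    rw [map_sum]
    apply Finset.sum_congr rfl
    intro i _
    have h1 := congrArg (fun f : Module.End ℤ V => f (w i)) (hEB (k ^ d * (i : ℕ)))
    have h2 : k * (k ^ d * (i : ℕ)) = k ^ (d + 1) * (i : ℕ) := by rw [pow_succ']; ring
    rw [h2] at h1
    exact h1
  have hΨper : ∀ w : Fin n → V, psi B k w n = psi B k w 0 := by
    intro w
    unfold psi
    apply Finset.sum_congr rfl
    intro i _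
    have h1 := hEjB n (i : ℕ)
    rw [hEn, one_mul, mul_one] at h1
    rw [← h1, pow_zero, one_mul]
  have hEpow : ∀ (w : Fin n → V), (∀ i, E (w i) = w i) → ∀ d : ℕ,
      (E ^ d) (psi B k w 0) = psi B k w d := by
    intro w hw d
    induction d with
    | zero => simp
    | succ d ih =>
      rw [pow_succ']
      show E ((E ^ d) (psi B k w 0)) = _
      rw [ih, hEΨ]
      congr 1
      funext i
      exact hw i
  -- the bijection
  let ι : (Fin n → {v : V // E v = v}) → V := fun w => psi B k (fun i => (w i : V)) 0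
  have hιinj : Function.Injective ι := by
    intro w w' h
    have h1 : (fun i => (w i : V)) = fun i => (w' i : V) := by
      apply hΨinj
      intro d
      rw [← hEpow (fun i => (w i : V)) (fun i => (w i).2) d,
        ← hEpow (fun i => (w' i : V)) (fun i => (w' i).2) d]
      exact congrArg (E ^ (d : ℕ)) h
    funext i
    exact Subtype.ext (congrFun h1 i)
  have hιsurj : Function.Surjective ι := by
    intro v
    let Φ : (Fin n → V) → (Fin n → V) := fun w d => psi B k w (d : ℕ)
    have hΦinj : Function.Injective Φ := by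
      intro w w' h
      exact hΨinj w w' (fun d => congrFun h d)
    have hΦsurj : Function.Surjective Φ := Finite.injective_iff_surjective.mp hΦinj
    obtain ⟨w, hw⟩ := hΦsurj (fun d => (E ^ (d : ℕ)) v)
    have hw' : ∀ d : ℕ, d < n → psi B k w d = (E ^ d) v := by
      intro d hd
      exact congrFun hw ⟨d, hd⟩
    have hfixw : (fun i => E (w i)) = w := by
      apply hΨinj
      intro d
      rcases Nat.eq_zero_or_pos (d : ℕ) with h0 | hpos
      · rw [h0, ← hΨper, hw' 0 hn]
        have h1 := hEΨ w (n - 1)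
        rw [Nat.sub_add_cancel hn] at h1
        rw [← h1, hw' (n - 1) (by omega)]
        show (E * E ^ (n - 1)) v = (E ^ 0) v
        rw [← pow_succ', Nat.sub_add_cancel hn, hEn, pow_zero]
      · obtain ⟨d₀, hd₀⟩ : ∃ d₀, (d : ℕ) = d₀ + 1 := ⟨(d : ℕ) - 1, by omega⟩
        rw [hd₀, ← hEΨ, hw' d₀ (by have := d.2; omega), hw' (d₀ + 1) (by have := d.2; omega)]
        show (E * E ^ d₀) v = _
        rw [← pow_succ']
    refine ⟨fun i => ⟨w i, congrFun hfixw i⟩, ?_⟩
    show psi B k w 0 = v
    rw [hw' 0 hn, pow_zero]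
    rfl
  have hcard : Nat.card (Fin n → {v : V // E v = v}) = Nat.card V :=
    Nat.card_eq_of_bijective ι ⟨hιinj, hιsurj⟩
  rw [← hcard, Nat.card_fun, Nat.card_fin]

section mul

variable {T : Type u} [CommGroup T]

/-- The additive endomorphism of `Additive T` induced by an automorphism of `T`. -/
noncomputable def toEnd (β : MulAut T) : Module.End ℤ (Additive T) :=
  (MonoidHom.toAdditive (β.toMonoidHom)).toIntLinearMap

theorem toEnd_apply (β : MulAut T) (v : Additive T) :
    toEnd β v = Additive.ofMul (β (Additive.toMul v)) := rfl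

theorem toEnd_pow (β : MulAut T) (m : ℕ) (v : Additive T) :
    (toEnd β ^ m) v = Additive.ofMul ((β ^ m) (Additive.toMul v)) := by
  induction m generalizing v with
  | zero => rfl
  | succ m ih =>
    rw [pow_succ, pow_succ]
    show (toEnd β ^ m) (toEnd β v) = _
    rw [ih, toEnd_apply]
    rfl

/-- **FC-AB**: the Frobenius counting lemma for finite commutative groups. -/
theorem ab : Cfsg.Agent.H58.FC.StAb.{u} := by
  intro T _ _ β ε r n k h
  have hBr : toEnd β ^ r = 1 := by
    apply LinearMap.ext
    intro v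
    rw [toEnd_pow, h.bpow]
    rfl
  have hEn : toEnd ε ^ n = 1 := by
    apply LinearMap.ext
    intro v
    rw [toEnd_pow, h.epow]
    rfl
  have hc : ε * β = β ^ k * ε := by
    rw [← h.conj]
    group
  have hconj : toEnd ε * toEnd β = toEnd β ^ k * toEnd ε := by
    apply LinearMap.ext
    intro v
    show toEnd ε (toEnd β v) = (toEnd β ^ k) (toEnd ε v)
    rw [toEnd_pow, toEnd_apply, toEnd_apply, toEnd_apply]
    have := congrArg (fun f : MulAut T => f (Additive.toMul v)) hc
    exact congrArg Additive.ofMul this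
  have hfix : ∀ v : Additive T, toEnd β v = v → v = 0 := by
    intro v hv
    have h1 : β (Additive.toMul v) = Additive.toMul v := congrArg Additive.toMul hv
    have h2 := h.fix _ h1
    exact congrArg Additive.ofMul h2
  have key := card_add (V := Additive T) (toEnd β) (toEnd ε) r n k h.rprime h.npos hBr hEn hconj
    h.kord hfix
  have h1 : Nat.card (Additive T) = Nat.card T := Nat.card_congr Additive.toMul
  have h2 : Nat.card {v : Additive T // toEnd ε v = v} = Nat.card {t : T // ε t = t} := by
    apply Nat.card_congr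
    refine Equiv.subtypeEquiv Additive.toMul ?_
    intro v
    constructor
    · intro hv
      exact congrArg Additive.toMul hv
    · intro hv
      exact congrArg Additive.ofMul hv
  rw [← h1, ← h2]
  exact key

end mul

example : Cfsg.Agent.H58.FC.StAb.{u} := ab

end Cfsg.Agent.H47.FC
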