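import Mathlib
import Cfsg.Agent.H92.F2Defs
import Cfsg.Agent.H47.FCAb
import Cfsg.Agent.H12.FCSub

set_option autoImplicit false

/-!
# F2-FREE (helper47, for helper92's S1353): the Frobenius counting lemma, subgroup form

`V B D ≤ G` finite, `|B| = r` prime, `V` abelian, `B, D ≤ N(V)`, `D ≤ N(B)`, `D ∩ C(B) = 1`,
`V ∩ C(B) = 1` ⟹ `|V| = |V ∩ C(D)| ^ |D|`.  (`D` is cyclic, as it embeds in `Aut B`; then
helper12's `FC-SUB` and the Vandermonde lemma `Cfsg.Agent.H47.FC.ab`.)
-/

namespace Cfsg.Agent.H47.F2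

open Cfsg Subgroup

universe u

/-- A group acting faithfully by conjugation on a subgroup of prime order is cyclic. -/
theorem isCyclic_of_faithful {G : Type u} [Group G] [Finite G] (B D : Subgroup G) (r : ℕ)
    (hr : r.Prime) (hB : Nat.card B = r) (hDB : D ≤ normalizer (B : Set G))
    (hDC : D ⊓ centralizer (B : Set G) = ⊥) : IsCyclic D := by
  let N : Subgroup G := normalizer (B : Set G)
  let B' : Subgroup N := B.subgroupOf N
  have hB'card : Nat.card B' = r := by
    rw [← hB]
    exact Nat.card_congr (Subgroup.subgroupOfEquivOfLe (Subgroup.le_normalizer)).toEquiv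
  haveI : Fact (Nat.card B').Prime := ⟨by rw [hB'card]; exact hr⟩
  haveI : IsCyclic B' := isCyclic_of_prime_card rfl
  let φ : D →* MulAut B' := (MulAut.conjNormal (H := B')).comp (Subgroup.inclusion hDB)
  have hφ : Function.Injective φ := by
    rw [injective_iff_map_eq_one]
    intro d hd
    have hdC : (d : G) ∈ D ⊓ centralizer (B : Set G) := by
      refine Subgroup.mem_inf.mpr ⟨d.2, ?_⟩
      rw [Subgroup.mem_centralizer_iff]
      intro h hh
      have hhN : h ∈ N := Subgroup.le_normalizer hh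
      have h1 : φ d ⟨⟨h, hhN⟩, Subgroup.mem_subgroupOf.mpr hh⟩ = ⟨⟨h, hhN⟩, Subgroup.mem_subgroupOf.mpr hh⟩ := by
        rw [hd]
        rfl
      have h2 := congrArg (fun x : B' => ((x : N) : G)) h1
      have h3 : (d : G) * h * (d : G)⁻¹ = h := h2
      calc h * (d : G) = ((d : G) * h * (d : G)⁻¹) * (d : G) := by rw [h3]
        _ = (d : G) * h := by group
    rw [hDC, Subgroup.mem_bot] at hdC
    exact Subtype.ext hdC
  let ψ : MulAut B' →* (ZMod (Nat.card B'))ˣ := (IsCyclic.mulAutMulEquiv B').toMonoidHom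
  have hψ : Function.Injective ψ := (IsCyclic.mulAutMulEquiv B').injective
  let f : D →* ZMod (Nat.card B') := (Units.coeHom (ZMod (Nat.card B'))).comp (ψ.comp φ)
  have hf : Function.Injective f := by
    intro x y hxy
    apply hφ
    apply hψ
    exact Units.ext hxy
  exact isCyclic_of_injective_ringHom f hf

/-- **F2-FREE.** -/
theorem free : Cfsg.Agent.H92.F2.StFree.{u} := by
  intro G _ _ V B D r hr hB hVc hBV hDV hDB hDC hVC
  have hsub : Cfsg.Agent.H58.FC.StSub G := Cfsg.Agent.H12.KU.sub Cfsg.Agent.H47.FC.ab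
  haveI : Fact r.Prime := ⟨hr⟩
  -- a generator `b` of `B`
  haveI : IsCyclic B := isCyclic_of_prime_card hB
  obtain ⟨gB, hgB⟩ := IsCyclic.exists_generator (α := B)
  have hbord : orderOf (gB : G) = r := by
    rw [Subgroup.orderOf_coe, orderOf_eq_card_of_forall_mem_zpowers hgB, hB]
  have hBz : ∀ h ∈ B, ∃ m : ℤ, (gB : G) ^ m = h := by
    intro h hh
    obtain ⟨m, hm⟩ := Subgroup.mem_zpowers_iff.mp (hgB ⟨h, hh⟩)
    refine ⟨m, ?_⟩
    have := congrArg Subtype.val hm
    simpa using this
  have hzB : (Subgroup.zpowers (gB : G) : Subgroup G) = B := by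
    apply le_antisymm
    · rw [Subgroup.zpowers_le]
      exact gB.2
    · intro h hh
      obtain ⟨m, hm⟩ := hBz h hh
      exact Subgroup.mem_zpowers_iff.mpr ⟨m, hm⟩
  -- a generator `e` of `D`
  haveI : IsCyclic D := isCyclic_of_faithful B D r hr hB hDB hDC
  obtain ⟨gD, hgD⟩ := IsCyclic.exists_generator (α := D)
  have heord : orderOf (gD : G) = Nat.card D := by
    rw [Subgroup.orderOf_coe, orderOf_eq_card_of_forall_mem_zpowers hgD]
  have hDz : ∀ d ∈ D, ∃ m : ℤ, (gD : G) ^ m = d := by
    intro d hd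
    obtain ⟨m, hm⟩ := Subgroup.mem_zpowers_iff.mp (hgD ⟨d, hd⟩)
    refine ⟨m, ?_⟩
    have := congrArg Subtype.val hm
    simpa using this
  -- commuting with the generator of `B` means centralizing `B`
  have hcB : ∀ x : G, x * (gB : G) = (gB : G) * x → x ∈ centralizer (B : Set G) := by
    intro x hx
    rw [Subgroup.mem_centralizer_iff]
    intro h hh
    obtain ⟨m, rfl⟩ := hBz h hh
    have hc : Commute x (gB : G) := hx
    exact (hc.zpow_right m).eq.symm
  have key := hsub V (gB : G) (gD : G) r hr inferInstance hVc (hBV gB.2) (hDV gD.2) hbord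
    (by rw [hzB]; exact hDB gD.2)
    (by
      intro i hi
      have h1 : (gD : G) ^ i ∈ D ⊓ centralizer (B : Set G) :=
        Subgroup.mem_inf.mpr ⟨pow_mem gD.2 i, hcB _ hi⟩
      rw [hDC, Subgroup.mem_bot] at h1
      exact h1)
    (by
      intro v hv hbv
      have h1 : v ∈ V ⊓ centralizer (B : Set G) :=
        Subgroup.mem_inf.mpr ⟨hv, hcB v hbv.symm⟩
      rw [hVC, Subgroup.mem_bot] at h1
      exact h1)
    (orderOf_pos _)
  rw [key, heord]
  congr 2
  -- `V ⊓ C(e) = V ⊓ C(D)`
  have hcent : centralizer ({(gD : G)} : Set G) = centralizer (D : Set G) := by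
    ext x
    rw [Subgroup.mem_centralizer_iff, Subgroup.mem_centralizer_iff]
    constructor
    · intro h d hd
      obtain ⟨m, rfl⟩ := hDz d hd
      have hc : Commute (gD : G) x := h _ rfl
      exact (hc.zpow_left m).eq
    · intro h y hy
      rw [Set.mem_singleton_iff] at hy
      rw [hy]
      exact h _ gD.2
  rw [hcent]

example : Cfsg.Agent.H92.F2.StFree.{u} := free

end Cfsg.Agent.H47.F2
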