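import Mathlib
import Cfsg.Agent.H47.OffenderStruct3

/-!
# Fixed points of a coprime `q`-group on the structure `H = ∏ SL₂(p)`

In the setting of the structure theorem (`OffenderStruct3.lean`), let a `q`-group `Y` normalize
`V` and `H`, with `q` prime to `|H|`.  Then for every component `E` the fixed points `C_H(Y)`
cover `H / C_H([V, E]) ≅ E ≅ SL₂(p)`, and there is a plane `W ≤ C_V(Y)` of order `p²` on which
`C_H(Y)` acts with kernel `C_{C_H(Y)}([V, E])`.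
-/

set_option autoImplicit false

namespace Cfsg.Agent.H47.Off

open Cfsg
open scoped commutatorElement

variable {G : Type*} [Group G]

/-- Conjugation action of a subgroup `Y` on a subgroup `W` it normalizes. -/
def conjMulAction (Y W : Subgroup G) (h : Y ≤ Subgroup.normalizer (W : Set G)) :
    MulAction ↥Y ↥W where
  smul y w := ⟨(y : G) * (w : G) * (y : G)⁻¹, (Subgroup.mem_normalizer_iff.mp (h y.2) w).mp w.2⟩
  one_smul w := Subtype.ext (by
    show ((1 : ↥Y) : G) * (w : G) * ((1 : ↥Y) : G)⁻¹ = w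
    simp)
  mul_smul y z w := Subtype.ext (by
    show ((y * z : ↥Y) : G) * (w : G) * ((y * z : ↥Y) : G)⁻¹ =
      (y : G) * ((z : G) * (w : G) * (z : G)⁻¹) * (y : G)⁻¹
    simp [mul_assoc])

theorem mem_normalizer_of_cj_eq {y : G} {E : Subgroup G} (h : cj y E = E) :
    y ∈ Subgroup.normalizer (E : Set G) := by
  rw [Subgroup.mem_normalizer_iff]
  intro g
  constructor
  · intro hg
    have := conj_mem_cj (x := y) hg
    rwa [h] at this
  · intro hg
    rw [← h, mem_cj] at hg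
    have e : y⁻¹ * (y * g * y⁻¹) * y = g := by group
    rwa [e] at hg

section Prime

variable [Finite G] {p : ℕ} [hp : Fact p.Prime]

/-- A `q`-group normalizing a subgroup `W` of order `p²` centralizes it, when `q` divides neither
`p² - 1` nor `p² - p`. -/
theorem le_centralizer_of_card_sq {q : ℕ} [hq : Fact q.Prime] {Y W : Subgroup G}
    (hYW : Y ≤ Subgroup.normalizer (W : Set G)) (hY : IsPGroup q Y)
    (hW : Nat.card W = p ^ 2) (h1 : ¬ q ∣ p ^ 2 - 1) (h2 : ¬ q ∣ p ^ 2 - p) :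
    W ≤ Subgroup.centralizer (Y : Set G) := by
  letI := conjMulAction Y W hYW
  have hmod := hY.card_modEq_card_fixedPoints ↥W
  have hfix : Nat.card ↥(MulAction.fixedPoints ↥Y ↥W) =
      Nat.card ↥(W ⊓ Subgroup.centralizer (Y : Set G)) := by
    apply Nat.card_congr
    refine ⟨fun w => ⟨w.1.1, Subgroup.mem_inf.mpr ⟨w.1.2, ?_⟩⟩,
      fun w => ⟨⟨w.1, (Subgroup.mem_inf.mp w.2).1⟩, ?_⟩, fun w => rfl, fun w => rfl⟩
    · rw [Subgroup.mem_centralizer_iff]
      intro y hy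
      have := w.2 ⟨y, hy⟩
      have h3 : y * (w.1 : G) * y⁻¹ = (w.1 : G) := congrArg Subtype.val this
      calc y * (w.1 : G) = (y * (w.1 : G) * y⁻¹) * y := by group
        _ = (w.1 : G) * y := by rw [h3]
    · intro y
      apply Subtype.ext
      show (y : G) * (w : G) * (y : G)⁻¹ = (w : G)
      have := (Subgroup.mem_centralizer_iff.mp (Subgroup.mem_inf.mp w.2).2) y y.2
      rw [this]; group
  rw [hfix, hW] at hmod
  have hdvd : Nat.card ↥(W ⊓ Subgroup.centralizer (Y : Set G)) ∣ p ^ 2 :=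
    hW ▸ Subgroup.card_dvd_of_le inf_le_left
  obtain ⟨k, hk, hd⟩ := (Nat.dvd_prime_pow hp.out).mp hdvd
  have hle : Nat.card ↥(W ⊓ Subgroup.centralizer (Y : Set G)) ≤ p ^ 2 :=
    Nat.le_of_dvd (pow_pos hp.out.pos 2) hdvd
  have hq' : q ∣ p ^ 2 - Nat.card ↥(W ⊓ Subgroup.centralizer (Y : Set G)) :=
    (Nat.modEq_iff_dvd' hle).mp hmod.symm
  interval_cases k
  · rw [hd, pow_zero] at hq'; exact absurd hq' h1
  · rw [hd, pow_one] at hq'; exact absurd hq' h2
  · have : W ⊓ Subgroup.centralizer (Y : Set G) = W :=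
      Subgroup.eq_of_le_of_card_ge inf_le_left (by rw [hd, hW])
    rw [← this]; exact inf_le_right

omit hp in
/-- The norm map of a group `Y` acting on a commutative subgroup `T`. -/
theorem exists_norm {T Y : Subgroup G} (hc : ∀ x ∈ T, ∀ y ∈ T, x * y = y * x)
    (hY : Y ≤ Subgroup.normalizer (T : Set G)) :
    ∃ Nm : ↥T → G,
      (∀ t, Nm t ∈ T) ∧ (∀ t, Nm t ∈ Subgroup.centralizer (Y : Set G)) ∧
      (∀ s t, Nm (s * t) = Nm s * Nm t) ∧
      (∀ d, d ∈ Subgroup.centralizer (Y : Set G) →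
        ∀ hd : d ∈ Subgroup.normalizer (T : Set G), ∀ t : ↥T,
          d * Nm t * d⁻¹ = Nm ⟨d * t * d⁻¹, (Subgroup.mem_normalizer_iff.mp hd t).mp t.2⟩) ∧
      (∀ (Y₀ R : Subgroup G) (t : ↥T), (∀ y ∈ Y, y ∈ Y₀ → y * (t : G) * y⁻¹ = t) →
        (∀ y ∈ Y, y ∉ Y₀ → y * (t : G) * y⁻¹ ∈ R) →
        ∃ r ∈ R, Nm t = (t : G) ^ Nat.card ↥(Y₀.subgroupOf Y) * r) := by
  classical
  letI : CommGroup ↥T :=
    { (inferInstance : Group ↥T) with mul_comm := fun a b => Subtype.ext (hc a a.2 b b.2) }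
  haveI : Fintype ↥Y := Fintype.ofFinite _
  let cg : ∀ g : G, g ∈ Subgroup.normalizer (T : Set G) → (↥T →* ↥T) := fun g hg =>
    { toFun := fun t => ⟨g * t * g⁻¹, (Subgroup.mem_normalizer_iff.mp hg t).mp t.2⟩
      map_one' := Subtype.ext (by
        show g * (1 : G) * g⁻¹ = 1
        group)
      map_mul' := fun s t => Subtype.ext (by
        show g * ((s : G) * (t : G)) * g⁻¹ = (g * s * g⁻¹) * (g * t * g⁻¹)
        group) }
  let N : ↥T → ↥T := fun t => ∏ y : ↥Y, cg y (hY y.2) t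
  refine ⟨fun t => (N t : G), fun t => (N t).2, ?_, ?_, ?_, ?_⟩
  · intro t
    rw [Subgroup.mem_centralizer_iff]
    intro y₀ hy₀
    have h1 : cg y₀ (hY hy₀) (N t) = N t := by
      show cg y₀ (hY hy₀) (∏ y : ↥Y, cg y (hY y.2) t) = ∏ y : ↥Y, cg y (hY y.2) t
      rw [map_prod]
      refine Fintype.prod_equiv (Equiv.mulLeft (⟨y₀, hy₀⟩ : ↥Y)) _ _ (fun y => ?_)
      apply Subtype.ext
      show y₀ * ((y : G) * (t : G) * (y : G)⁻¹) * y₀⁻¹ =
        (y₀ * (y : G)) * (t : G) * (y₀ * (y : G))⁻¹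
      group
    have h2 : y₀ * (N t : G) * y₀⁻¹ = (N t : G) := congrArg Subtype.val h1
    calc y₀ * (N t : G) = (y₀ * (N t : G) * y₀⁻¹) * y₀ := by group
      _ = (N t : G) * y₀ := by rw [h2]
  · intro s t
    have h1 : N (s * t) = N s * N t := by
      show ∏ y : ↥Y, cg y (hY y.2) (s * t) =
        (∏ y : ↥Y, cg y (hY y.2) s) * ∏ y : ↥Y, cg y (hY y.2) t
      rw [← Finset.prod_mul_distrib]
      exact Finset.prod_congr rfl (fun y _ => map_mul _ _ _)
    exact congrArg Subtype.val h1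
  · intro d hdC hdN t
    have h1 : cg d hdN (N t) = N (cg d hdN t) := by
      show cg d hdN (∏ y : ↥Y, cg y (hY y.2) t) = ∏ y : ↥Y, cg y (hY y.2) (cg d hdN t)
      rw [map_prod]
      refine Finset.prod_congr rfl (fun y _ => ?_)
      apply Subtype.ext
      show d * ((y : G) * (t : G) * (y : G)⁻¹) * d⁻¹ =
        (y : G) * (d * (t : G) * d⁻¹) * (y : G)⁻¹
      have hcomm : (y : G) * d = d * (y : G) := (Subgroup.mem_centralizer_iff.mp hdC) y y.2
      calc d * ((y : G) * (t : G) * (y : G)⁻¹) * d⁻¹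
          = (d * (y : G)) * (t : G) * (d * (y : G))⁻¹ := by group
        _ = ((y : G) * d) * (t : G) * ((y : G) * d)⁻¹ := by rw [hcomm]
        _ = (y : G) * (d * (t : G) * d⁻¹) * (y : G)⁻¹ := by group
    exact congrArg Subtype.val h1
  · intro Y₀ R t h1 h2
    have hsplit : N t =
        (∏ y ∈ Finset.univ.filter (fun y : ↥Y => (y : G) ∈ Y₀), cg y (hY y.2) t) *
        (∏ y ∈ Finset.univ.filter (fun y : ↥Y => ¬ (y : G) ∈ Y₀), cg y (hY y.2) t) :=
      (Finset.prod_filter_mul_prod_filter_not Finset.univ _ _).symm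
    have hfirst : (∏ y ∈ Finset.univ.filter (fun y : ↥Y => (y : G) ∈ Y₀), cg y (hY y.2) t) =
        t ^ (Finset.univ.filter (fun y : ↥Y => (y : G) ∈ Y₀)).card := by
      rw [← Finset.prod_const]
      refine Finset.prod_congr rfl (fun y hy => ?_)
      apply Subtype.ext
      exact h1 y y.2 (Finset.mem_filter.mp hy).2
    have hsecond : (∏ y ∈ Finset.univ.filter (fun y : ↥Y => ¬ (y : G) ∈ Y₀), cg y (hY y.2) t) ∈
        R.subgroupOf T := by
      apply Subgroup.prod_mem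
      intro y hy
      exact Subgroup.mem_subgroupOf.mpr (h2 y y.2 (Finset.mem_filter.mp hy).2)
    have hcard : (Finset.univ.filter (fun y : ↥Y => (y : G) ∈ Y₀)).card =
        Nat.card ↥(Y₀.subgroupOf Y) := by
      rw [← Fintype.card_subtype, ← Nat.card_eq_fintype_card]
      rfl
    refine ⟨_, Subgroup.mem_subgroupOf.mp hsecond, ?_⟩
    rw [← hcard]
    have h3 := congrArg Subtype.val (hsplit.trans (by rw [hfirst]))
    exact h3

end Prime

section Setting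

variable [Finite G] {p : ℕ} [hp : Fact p.Prime] {V H : Subgroup G}

omit [Finite G] hp in
/-- A normal subgroup of `H` of order prime to `p` lies in `O_{p'}(H)`. -/
theorem le_qc_of_normal {N : Subgroup G} (hNH : N ≤ H)
    (hN : H ≤ Subgroup.normalizer (N : Set G)) (hcop : (Nat.card N).Coprime p) :
    N ≤ qc p H := by
  have hnormal : (N.subgroupOf H).Normal := Subgroup.normal_subgroupOf_of_le_normalizer hN
  have hcard : Nat.card ↥(N.subgroupOf H) = Nat.card N :=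
    Nat.card_congr (Subgroup.subgroupOfEquivOfLe hNH).toEquiv
  have hle : N.subgroupOf H ≤ Cfsg.pPrimeCore p ↥H :=
    H14.le_pPrimeCore hnormal (by rw [hcard]; exact hcop)
  intro x hx
  exact ⟨⟨x, hNH hx⟩, hle (Subgroup.mem_subgroupOf.mpr hx), rfl⟩

omit hp in
/-- `O_{p'}(H)` is invariant under every element normalizing `H`. -/
theorem cj_qc {y : G} (hy : y ∈ Subgroup.normalizer (H : Set G)) : cj y (qc p H) = qc p H := by
  apply Subgroup.eq_of_le_of_card_ge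
  · apply le_qc_of_normal
    · calc cj y (qc p H) ≤ cj y H := cj_mono (qc_le p H)
        _ = H := cj_eq_self hy
    · apply le_normalizer_of_conj_mem
      intro h hh g hg
      rw [mem_cj] at hg ⊢
      have hh' : y⁻¹ * h * y ∈ H := by
        have := (Subgroup.mem_normalizer_iff.mp (Subgroup.inv_mem _ hy) h).mp hh
        simpa using this
      have := conj_mem_qc hh' hg
      have e : y⁻¹ * (h * g * h⁻¹) * y = (y⁻¹ * h * y) * (y⁻¹ * g * y) * (y⁻¹ * h * y)⁻¹ := by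
        group
      rw [e]; exact this
    · rw [card_cj]; exact qc_coprime p H
  · rw [card_cj]

omit [Finite G] hp in
theorem IsTrans.conj' {A : Subgroup G} (hA : IsTrans p V H A) {y : G}
    (hyV : y ∈ Subgroup.normalizer (V : Set G)) (hyH : y ∈ Subgroup.normalizer (H : Set G)) :
    IsTrans p V H (cj y A) := by
  refine ⟨?_, ?_, ?_⟩
  · calc cj y A ≤ cj y H := cj_mono hA.1
      _ = H := cj_eq_self hyH
  · rw [card_cj]; exact hA.2.1
  · rw [commutator_cj hyV, card_cj]; exact hA.2.2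

omit hp in
theorem cj_comp {A : Subgroup G} {y : G} (hyH : y ∈ Subgroup.normalizer (H : Set G)) :
    cj y (⁅qc p H, A⁆ ⊔ A) = ⁅qc p H, cj y A⁆ ⊔ cj y A := by
  rw [cj_sup]
  congr 1
  have h := cj_qc (p := p) hyH
  unfold cj at h ⊢
  rw [Subgroup.map_commutator, h]

omit [Finite G] in
theorem not_dvd_of_coprime {q : ℕ} (hq : q.Prime) (hp23 : p = 2 ∨ p = 3)
    (h : (p * (p ^ 2 - 1)).Coprime q) : ¬ q ∣ p ∧ ¬ q ∣ p ^ 2 - 1 ∧ ¬ q ∣ p ^ 2 - p := by
  have key : ∀ d, d ∣ p * (p ^ 2 - 1) → ¬ q ∣ d := by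
    intro d hd hqd
    have h1 : q ∣ p * (p ^ 2 - 1) := hqd.trans hd
    have h2 := Nat.Coprime.eq_one_of_dvd h.symm h1
    exact hq.one_lt.ne' h2
  refine ⟨key _ (dvd_mul_right _ _), key _ (dvd_mul_left _ _), key _ ?_⟩
  rcases hp23 with rfl | rfl <;> decide

/-- **Fixed points**: for a coprime `q`-group `Y` normalizing `V` and `H` and a component
`E = [O_{p'}(H), A] A`, there is a plane `W ≤ C_V(Y)` of order `p²` normalized by `C_H(Y)` with
`C_{C_H(Y)}(W) = C_{C_H(Y)}([V, E])`, and `H = C_H(Y) C_H([V, E])`. -/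
theorem IsTrans.fixed_points (hV : Cfsg.IsElementaryAbelian p V)
    (hHV : H ≤ Subgroup.normalizer (V : Set G))
    (hf : H ⊓ Subgroup.centralizer (V : Set G) = ⊥)
    (hS1 : Subgroup.centralizer (Cfsg.pPrimeCore p ↥H : Set ↥H) ≤ Cfsg.pPrimeCore p ↥H)
    (hS3 : H = ⨆ A : {A : Subgroup G // A ≤ H ∧ Cfsg.IsBestOffenderOn p V A}, (A : Subgroup G))
    {A : Subgroup G} (hA : IsTrans p V H A) {q : ℕ} [hq : Fact q.Prime] {Y : Subgroup G}
    (hYV : Y ≤ Subgroup.normalizer (V : Set G)) (hYH : Y ≤ Subgroup.normalizer (H : Set G))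
    (hYq : IsPGroup q Y) (hcop : (Nat.card H).Coprime q) :
    ∃ W : Subgroup G, W ≤ V ⊓ Subgroup.centralizer (Y : Set G) ∧ Nat.card W = p ^ 2 ∧
      H ⊓ Subgroup.centralizer (Y : Set G) ≤ Subgroup.normalizer (W : Set G) ∧
      (H ⊓ Subgroup.centralizer (Y : Set G)) ⊓ Subgroup.centralizer (W : Set G) =
        (H ⊓ Subgroup.centralizer (Y : Set G)) ⊓
          Subgroup.centralizer ((⁅V, ⁅qc p H, A⁆ ⊔ A⁆ : Subgroup G) : Set G) ∧
      (H ⊓ Subgroup.centralizer (Y : Set G)) ⊔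
        (H ⊓ Subgroup.centralizer ((⁅V, ⁅qc p H, A⁆ ⊔ A⁆ : Subgroup G) : Set G)) = H := by
  have hVc := comm_of_isElementaryAbelian hV
  obtain ⟨hp23, ⟨φ⟩, hWcard, h3, h4, h5, h6, h7, h8, h9⟩ := hA.structure' hV hHV hf hS1 hS3
  obtain ⟨y', hy', hy'A⟩ := hA.exists_not_mem_centralizer hS1
  have hEeq := hA.core_sup_eq hV hHV hf hy' hy'A
  have hcomp : ∀ A' : Subgroup G, IsTrans p V H A' →
      ⁅qc p H, A'⁆ ⊔ A' = ⁅qc p H, A⁆ ⊔ A ∨ ⁅qc p H, A'⁆ ⊔ A' ≤
        H ⊓ Subgroup.centralizer ((⁅V, ⁅qc p H, A⁆ ⊔ A⁆ : Subgroup G) : Set G) :=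
    fun A' hA' => hA.comp_eq_or_le hV hHV hf hS1 hS3 hA'
  have hAE' : A ≤ ⁅qc p H, A⁆ ⊔ A := le_sup_right
  obtain ⟨E, hE⟩ : ∃ E : Subgroup G, E = ⁅qc p H, A⁆ ⊔ A := ⟨_, rfl⟩
  rw [← hE] at φ hWcard h3 h4 h5 h6 h7 h8 h9 hEeq hcomp hAE' ⊢
  have hEH : E ≤ H := le_sup_left.trans h7.le
  have hWEV' : ⁅V, E⁆ ≤ V := Subgroup.le_normalizer_iff_commutator_le_left.mp (hEH.trans hHV)
  have hHWE' : H ≤ Subgroup.normalizer ((⁅V, E⁆ : Subgroup G) : Set G) :=
    le_normalizer_commutator_of_le hHV h9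
  obtain ⟨W_E, hWE⟩ : ∃ W_E : Subgroup G, W_E = ⁅V, E⁆ := ⟨_, rfl⟩
  rw [← hWE] at hWcard h3 h4 h5 h6 h7 h8 hcomp hWEV' hHWE' ⊢
  obtain ⟨K_E, hKE⟩ : ∃ K_E : Subgroup G, K_E = H ⊓ Subgroup.centralizer (W_E : Set G) :=
    ⟨_, rfl⟩
  rw [← hKE] at h5 h6 h7 h8 hcomp ⊢
  have hKEH : K_E ≤ H := hKE ▸ inf_le_left
  -- numerics
  have hcardE : Nat.card E = p * (p ^ 2 - 1) := by
    rw [Nat.card_congr φ.toEquiv, H7.card_SL2, ZMod.card]
  have hcopE : (p * (p ^ 2 - 1)).Coprime q := by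
    rw [← hcardE]
    exact Nat.Coprime.coprime_dvd_left (Subgroup.card_dvd_of_le hEH) hcop
  obtain ⟨hqp, hq1, hq2⟩ := not_dvd_of_coprime hq.out hp23 hcopE
  -- the stabilizer of `E` in `Y`
  obtain ⟨Y₀, hY₀⟩ : ∃ Y₀ : Subgroup G, Y₀ = Y ⊓ Subgroup.normalizer (E : Set G) := ⟨_, rfl⟩
  have hY₀Y : Y₀ ≤ Y := hY₀ ▸ inf_le_left
  have hY₀E : Y₀ ≤ Subgroup.normalizer (E : Set G) := hY₀ ▸ inf_le_right
  have hY₀W : Y₀ ≤ Subgroup.normalizer (W_E : Set G) :=
    hWE ▸ le_normalizer_commutator_of_le (hY₀Y.trans hYV) hY₀E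
  have hWEc : W_E ≤ Subgroup.centralizer (Y₀ : Set G) :=
    le_centralizer_of_card_sq hY₀W (hYq.to_le hY₀Y) hWcard hq1 hq2
  obtain ⟨m, hm⟩ : ∃ m : ℕ, m = Nat.card ↥(Y₀.subgroupOf Y) := ⟨_, rfl⟩
  have hmp : Nat.gcd m p = 1 := by
    obtain ⟨k, hk⟩ := (IsPGroup.iff_card.mp hYq)
    have hdvd : m ∣ q ^ k := hm ▸ hk ▸ Subgroup.card_subgroup_dvd_card _
    obtain ⟨j, -, hj⟩ := (Nat.dvd_prime_pow hq.out).mp hdvd
    rw [hj]
    exact Nat.Coprime.pow_left j
      ((Nat.coprime_primes hq.out hp.out).mpr (fun h => hqp (h ▸ dvd_rfl)))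
  -- `Y₀` centralizes `E`
  have hEc : ∀ e ∈ E, ∀ y ∈ Y₀, y * e = e * y := by
    intro e he y hy
    have hyc : ∀ w ∈ W_E, y * w = w * y :=
      fun w hw => (Subgroup.mem_centralizer_iff.mp (hWEc hw)) y hy
    have hyE : y * e⁻¹ * y⁻¹ ∈ E :=
      (Subgroup.mem_normalizer_iff.mp (hY₀E hy) e⁻¹).mp (E.inv_mem he)
    have e1 : e * y * e⁻¹ * y⁻¹ = e * (y * e⁻¹ * y⁻¹) := by group
    have hmem : e * y * e⁻¹ * y⁻¹ ∈ E ⊓ K_E := by
      refine Subgroup.mem_inf.mpr ⟨?_, ?_⟩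
      · rw [e1]; exact E.mul_mem he hyE
      · rw [hKE]
        refine Subgroup.mem_inf.mpr ⟨?_, ?_⟩
        · rw [e1]; exact H.mul_mem (hEH he) (hEH hyE)
        · rw [Subgroup.mem_centralizer_iff]
          intro w hw
          have hw1 : e⁻¹ * w * e ∈ W_E := by
            have := (Subgroup.mem_normalizer_iff.mp (hHWE' (H.inv_mem (hEH he))) w).mp hw
            simpa using this
          have c1 := hyc w hw
          have c2 := hyc _ hw1
          calc w * (e * y * e⁻¹ * y⁻¹) = e * ((e⁻¹ * w * e) * y) * e⁻¹ * y⁻¹ := by group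
            _ = e * (y * (e⁻¹ * w * e)) * e⁻¹ * y⁻¹ := by rw [c2]
            _ = e * y * e⁻¹ * (y⁻¹ * (y * w) * y⁻¹) := by group
            _ = e * y * e⁻¹ * (y⁻¹ * (w * y) * y⁻¹) := by rw [c1]
            _ = e * y * e⁻¹ * y⁻¹ * w := by group
    rw [h6] at hmem
    have h1 := Subgroup.mem_bot.mp hmem
    calc y * e = (e * y * e⁻¹ * y⁻¹)⁻¹ * e * y := by group
      _ = e * y := by rw [h1]; group
  -- the other conjugates of `E` under `Y` centralize `[V, E]`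
  have hconjE : ∀ y ∈ Y, y ∉ Y₀ → cj y E ≤ K_E := by
    intro y hy hyY₀
    have hyN : y ∈ Subgroup.normalizer (H : Set G) := hYH hy
    have hTy : IsTrans p V H (cj y A) := hA.conj' (hYV hy) hyN
    have hcjE : cj y E = ⁅qc p H, cj y A⁆ ⊔ cj y A := by rw [hE]; exact cj_comp hyN
    rcases hcomp _ hTy with h | h
    · exfalso
      apply hyY₀
      rw [hY₀]
      refine Subgroup.mem_inf.mpr ⟨hy, mem_normalizer_of_cj_eq ?_⟩
      rw [hcjE, h]
    · rw [hcjE]; exact h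
  -- the norm on `V`
  obtain ⟨Nm, hNmV, hNmC, hNmMul, hNmConj, hNmForm⟩ := exists_norm hVc hYV
  have hform : ∀ w (hw : w ∈ W_E), ∃ r ∈ V ⊓ Subgroup.centralizer (E : Set G),
      Nm ⟨w, hWEV' hw⟩ = w ^ m * r := by
    intro w hw
    rw [hm]
    refine hNmForm Y₀ (V ⊓ Subgroup.centralizer (E : Set G)) ⟨w, hWEV' hw⟩ ?_ ?_
    · intro y _ hyY₀
      have := (Subgroup.mem_centralizer_iff.mp (hWEc hw)) y hyY₀
      show y * w * y⁻¹ = w
      rw [this]; group
    · intro y hy hyY₀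
      have h1 : y * w * y⁻¹ ∈ cj y W_E := conj_mem_cj hw
      rw [hWE, ← commutator_cj (hYV hy)] at h1
      exact h8 (Subgroup.commutator_mono le_rfl (hconjE y hy hyY₀) h1)
  have hinj : ∀ w (hw : w ∈ W_E), Nm ⟨w, hWEV' hw⟩ = 1 → w = 1 := by
    intro w hw h1
    obtain ⟨r, hr, hrw⟩ := hform w hw
    rw [h1] at hrw
    have hwm : w ^ m ∈ W_E ⊓ (V ⊓ Subgroup.centralizer (E : Set G)) := by
      have e : w ^ m = r⁻¹ := by rw [eq_inv_iff_mul_eq_one]; exact hrw.symm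
      refine Subgroup.mem_inf.mpr ⟨W_E.pow_mem hw m, ?_⟩
      rw [e]; exact Subgroup.inv_mem _ hr
    rw [h3] at hwm
    have h2 : w ^ m = 1 := Subgroup.mem_bot.mp hwm
    have h4' : w ^ p = 1 := hV.2 w (hWEV' hw)
    have h5' : w ^ Nat.gcd m p = 1 := pow_gcd_eq_one.mpr ⟨h2, h4'⟩
    rwa [hmp, pow_one] at h5'
  -- the plane `W`
  let f : ↥W_E →* G := MonoidHom.mk' (fun w => Nm ⟨w.1, hWEV' w.2⟩)
    (fun a b => hNmMul ⟨a.1, hWEV' a.2⟩ ⟨b.1, hWEV' b.2⟩)
  have hfdef : ∀ w : ↥W_E, f w = Nm ⟨w.1, hWEV' w.2⟩ := fun w => rfl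
  have hfinj : Function.Injective f :=
    (injective_iff_map_eq_one f).mpr (fun w hw => Subtype.ext (hinj w.1 w.2 hw))
  obtain ⟨D, hD⟩ : ∃ D : Subgroup G, D = H ⊓ Subgroup.centralizer (Y : Set G) := ⟨_, rfl⟩
  rw [← hD]
  have hDH : D ≤ H := hD ▸ inf_le_left
  have hDC : D ≤ Subgroup.centralizer (Y : Set G) := hD ▸ inf_le_right
  have hconjf : ∀ d (hd : d ∈ D) (w : ↥W_E), d * f w * d⁻¹ =
      f ⟨d * w * d⁻¹, (Subgroup.mem_normalizer_iff.mp (hHWE' (hDH hd)) w).mp w.2⟩ := by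
    intro d hd w
    exact hNmConj d (hDC hd) (hHV (hDH hd)) ⟨w.1, hWEV' w.2⟩
  refine ⟨f.range, ?_, ?_, ?_, ?_, ?_⟩
  · rintro _ ⟨w, rfl⟩
    exact Subgroup.mem_inf.mpr ⟨hNmV _, hNmC _⟩
  · rw [← Nat.card_congr (MonoidHom.ofInjective hfinj).toEquiv, hWcard]
  · apply le_normalizer_of_conj_mem
    rintro d hd _ ⟨w, rfl⟩
    exact ⟨_, (hconjf d hd w).symm⟩
  · apply le_antisymm
    · rintro d hd
      obtain ⟨hdD, hdW⟩ := Subgroup.mem_inf.mp hd
      refine Subgroup.mem_inf.mpr ⟨hdD, ?_⟩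
      rw [Subgroup.mem_centralizer_iff]
      intro w hw
      have h1 : f ⟨w, hw⟩ * d = d * f ⟨w, hw⟩ :=
        (Subgroup.mem_centralizer_iff.mp hdW) _ ⟨⟨w, hw⟩, rfl⟩
      have h2 : d * f ⟨w, hw⟩ * d⁻¹ = f ⟨w, hw⟩ := by rw [← h1]; group
      rw [hconjf d hdD ⟨w, hw⟩] at h2
      have h3' := congrArg Subtype.val (hfinj h2)
      have h4' : d * w * d⁻¹ = w := h3'
      calc w * d = (d * w * d⁻¹) * d := by rw [h4']
        _ = d * w := by group
    · rintro d hd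
      obtain ⟨hdD, hdW⟩ := Subgroup.mem_inf.mp hd
      refine Subgroup.mem_inf.mpr ⟨hdD, ?_⟩
      rw [Subgroup.mem_centralizer_iff]
      rintro _ ⟨w, rfl⟩
      have h1 : (w : G) * d = d * (w : G) := (Subgroup.mem_centralizer_iff.mp hdW) _ w.2
      have h2 : d * f w * d⁻¹ = f w := by
        rw [hconjf d hdD w]
        congr 1
        apply Subtype.ext
        show d * (w : G) * d⁻¹ = (w : G)
        rw [← h1]; group
      calc f w * d = (d * f w * d⁻¹) * d := by rw [h2]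
        _ = d * f w := by group
  · apply le_antisymm (sup_le hDH hKEH)
    have key : ∀ A₁ : Subgroup G, IsTrans p V H A₁ → A₁ ≤ E → A₁ ≤ D ⊔ K_E := by
      intro A₁ hA₁ hA₁E
      obtain ⟨a, haA₁, ha1, hap, hza⟩ := exists_zpowers_eq hA₁.2.1
      have haE : a ∈ E := hA₁E haA₁
      have hcommute : ∀ u ∈ Y, a * (u * a * u⁻¹) = (u * a * u⁻¹) * a := by
        intro u hu
        by_cases huY₀ : u ∈ Y₀
        · have e : u * a * u⁻¹ = a := by rw [hEc a haE u huY₀]; group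
          rw [e]
        · have hk : u * a * u⁻¹ ∈ K_E := hconjE u hu huY₀ (conj_mem_cj haE)
          have := Subgroup.commutator_eq_bot_iff_le_centralizer.mp h5 haE
          exact ((Subgroup.mem_centralizer_iff.mp this) _ hk).symm
      obtain ⟨S₁, hS₁⟩ : ∃ S₁ : Set G, S₁ = {g | ∃ y ∈ Y, g = y * a * y⁻¹} := ⟨_, rfl⟩
      have hS₁comm : ∀ x ∈ S₁, ∀ z ∈ S₁, x * z = z * x := by
        rw [hS₁]
        rintro _ ⟨y, hy, rfl⟩ _ ⟨z, hz, rfl⟩
        have hu : y⁻¹ * z ∈ Y := Y.mul_mem (Y.inv_mem hy) hz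
        have := hcommute _ hu
        calc y * a * y⁻¹ * (z * a * z⁻¹)
            = y * (a * ((y⁻¹ * z) * a * (y⁻¹ * z)⁻¹)) * y⁻¹ := by group
          _ = y * (((y⁻¹ * z) * a * (y⁻¹ * z)⁻¹) * a) * y⁻¹ := by rw [this]
          _ = z * a * z⁻¹ * (y * a * y⁻¹) := by group
      obtain ⟨T₁, hT₁⟩ : ∃ T₁ : Subgroup G, T₁ = Subgroup.closure S₁ := ⟨_, rfl⟩
      have hT₁c : ∀ x ∈ T₁, ∀ z ∈ T₁, x * z = z * x := by
        have h1 : T₁ ≤ Subgroup.centralizer S₁ := by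
          rw [hT₁, Subgroup.closure_le]
          intro x hx
          exact Subgroup.mem_centralizer_iff.mpr (fun z hz => hS₁comm z hz x hx)
        have h2 : T₁ ≤ Subgroup.centralizer (T₁ : Set G) := by
          conv_lhs => rw [hT₁]
          rw [Subgroup.closure_le]
          intro x hx
          rw [SetLike.mem_coe, Subgroup.mem_centralizer_iff]
          intro z hz
          exact ((Subgroup.mem_centralizer_iff.mp (h1 hz)) x hx).symm
        intro x hx z hz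
        exact (Subgroup.mem_centralizer_iff.mp (h2 hz)) x hx
      have hYT₁ : Y ≤ Subgroup.normalizer (T₁ : Set G) := by
        apply le_normalizer_of_conj_mem
        intro y hy t ht
        rw [hT₁] at ht ⊢
        induction ht using Subgroup.closure_induction with
        | mem x hx =>
          rw [hS₁] at hx
          obtain ⟨z, hz, rfl⟩ := hx
          apply Subgroup.subset_closure
          rw [hS₁]
          exact ⟨y * z, Y.mul_mem hy hz, by group⟩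
        | one => simp
        | mul x z _ _ ihx ihz =>
          have e : y * (x * z) * y⁻¹ = (y * x * y⁻¹) * (y * z * y⁻¹) := by group
          rw [e]; exact Subgroup.mul_mem _ ihx ihz
        | inv x _ ih =>
          have e : y * x⁻¹ * y⁻¹ = (y * x * y⁻¹)⁻¹ := by group
          rw [e]; exact Subgroup.inv_mem _ ih
      have haT₁ : a ∈ T₁ := by
        rw [hT₁]
        apply Subgroup.subset_closure
        rw [hS₁]
        exact ⟨1, Y.one_mem, by group⟩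
      have hT₁H : T₁ ≤ H := by
        rw [hT₁, Subgroup.closure_le, hS₁]
        rintro _ ⟨y, hy, rfl⟩
        exact (Subgroup.mem_normalizer_iff.mp (hYH hy) a).mp (hEH haE)
      obtain ⟨Nm₁, hNm₁T, hNm₁C, -, -, hNm₁Form⟩ := exists_norm hT₁c hYT₁
      obtain ⟨k, hk, hkeq⟩ := hNm₁Form Y₀ K_E ⟨a, haT₁⟩
        (fun y _ hyY₀ => by
          show y * a * y⁻¹ = a
          rw [hEc a haE y hyY₀]; group)
        (fun y hy hyY₀ => hconjE y hy hyY₀ (conj_mem_cj haE))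
      rw [← hm] at hkeq
      have hkeq' : Nm₁ ⟨a, haT₁⟩ = a ^ m * k := hkeq
      have ham : a ^ m ∈ D ⊔ K_E := by
        have e : a ^ m = Nm₁ ⟨a, haT₁⟩ * k⁻¹ := by rw [hkeq']; group
        rw [e]
        exact Subgroup.mul_mem _
          (Subgroup.mem_sup_left (hD ▸ Subgroup.mem_inf.mpr ⟨hT₁H (hNm₁T _), hNm₁C _⟩))
          (Subgroup.mem_sup_right (Subgroup.inv_mem _ hk))
      have ham1 : a ^ m ≠ 1 := by
        intro h
        apply ha1
        have h5' : a ^ Nat.gcd m p = 1 := pow_gcd_eq_one.mpr ⟨h, hap⟩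
        rwa [hmp, pow_one] at h5'
      have hz := zpowers_eq_of_card_prime hA₁.2.1 (A₁.pow_mem haA₁ m) ham1
      rw [← hz, Subgroup.zpowers_le]
      exact ham
    rw [← h7]
    refine sup_le ?_ le_sup_right
    rw [hEeq]
    exact sup_le (key A hA hAE')
      (key _ (hA.conj hHV (qc_le p H hy')) (hEeq ▸ le_sup_right))

omit [Finite G] hp in
theorem exists_mul_of_mem_sup' {X Y : Subgroup G} (hN : X ≤ Subgroup.normalizer (Y : Set G))
    {g : G} (hg : g ∈ X ⊔ Y) : ∃ x ∈ X, ∃ y ∈ Y, x * y = g := by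
  have h1 : g ∈ ((X ⊔ Y : Subgroup G) : Set G) := hg
  rw [Subgroup.coe_mul_of_left_le_normalizer_right X Y hN, Set.mem_mul] at h1
  obtain ⟨x, hx, y, hy, rfl⟩ := h1
  exact ⟨x, hx, y, hy, rfl⟩

/-- A subgroup `M ≥ C_H(Y)` containing a transvection subgroup `A` contains its component. -/
theorem IsTrans.comp_le_of_le (hV : Cfsg.IsElementaryAbelian p V)
    (hHV : H ≤ Subgroup.normalizer (V : Set G))
    (hf : H ⊓ Subgroup.centralizer (V : Set G) = ⊥)
    (hS1 : Subgroup.centralizer (Cfsg.pPrimeCore p ↥H : Set ↥H) ≤ Cfsg.pPrimeCore p ↥H)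
    (hS3 : H = ⨆ A : {A : Subgroup G // A ≤ H ∧ Cfsg.IsBestOffenderOn p V A}, (A : Subgroup G))
    {A : Subgroup G} (hA : IsTrans p V H A) {q : ℕ} [hq : Fact q.Prime] {Y : Subgroup G}
    (hYV : Y ≤ Subgroup.normalizer (V : Set G)) (hYH : Y ≤ Subgroup.normalizer (H : Set G))
    (hYq : IsPGroup q Y) (hcop : (Nat.card H).Coprime q) {M : Subgroup G}
    (hM : H ⊓ Subgroup.centralizer (Y : Set G) ≤ M) (hAM : A ≤ M) :
    ⁅qc p H, A⁆ ⊔ A ≤ M := by
  obtain ⟨W, -, -, -, -, hsup⟩ := hA.fixed_points hV hHV hf hS1 hS3 hYV hYH hYq hcop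
  obtain ⟨-, -, -, -, -, h5, -, -, -, h9⟩ := hA.structure' hV hHV hf hS1 hS3
  obtain ⟨y', hy', hy'A⟩ := hA.exists_not_mem_centralizer hS1
  have hEeq := hA.core_sup_eq hV hHV hf hy' hy'A
  have hAE : A ≤ ⁅qc p H, A⁆ ⊔ A := le_sup_right
  obtain ⟨E, hE⟩ : ∃ E : Subgroup G, E = ⁅qc p H, A⁆ ⊔ A := ⟨_, rfl⟩
  rw [← hE] at hsup h5 h9 hEeq hAE ⊢
  have hHW : H ≤ Subgroup.normalizer ((⁅V, E⁆ : Subgroup G) : Set G) :=
    le_normalizer_commutator_of_le hHV h9
  have hDN : H ⊓ Subgroup.centralizer (Y : Set G) ≤ Subgroup.normalizer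
      ((H ⊓ Subgroup.centralizer ((⁅V, E⁆ : Subgroup G) : Set G) : Subgroup G) : Set G) :=
    le_normalizer_inf_centralizer inf_le_left (inf_le_left.trans hHW)
  have hy'H : y' ∈ (H ⊓ Subgroup.centralizer (Y : Set G)) ⊔
      (H ⊓ Subgroup.centralizer ((⁅V, E⁆ : Subgroup G) : Set G)) := by
    rw [hsup]; exact qc_le p H hy'
  obtain ⟨d, hd, k, hk, hdk⟩ := exists_mul_of_mem_sup' hDN hy'H
  rw [hEeq]
  refine sup_le hAM ?_
  rintro _ ⟨a, ha, rfl⟩
  show y' * a * y'⁻¹ ∈ M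
  have hka : k * a * k⁻¹ = a := by
    have h1 := Subgroup.commutator_eq_bot_iff_le_centralizer.mp h5 (hAE ha)
    have h2 := (Subgroup.mem_centralizer_iff.mp h1) k hk
    rw [h2]; group
  have e : y' * a * y'⁻¹ = d * (k * a * k⁻¹) * d⁻¹ := by rw [← hdk]; group
  rw [e, hka]
  exact M.mul_mem (M.mul_mem (hM hd) (hAM ha)) (M.inv_mem (hM hd))

/-- `H`-conjugates of a best offender inside a subgroup `M ≥ C_H(Y)` stay inside `M`. -/
theorem cj_offender_le (hV : Cfsg.IsElementaryAbelian p V)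
    (hHV : H ≤ Subgroup.normalizer (V : Set G))
    (hf : H ⊓ Subgroup.centralizer (V : Set G) = ⊥)
    (hS1 : Subgroup.centralizer (Cfsg.pPrimeCore p ↥H : Set ↥H) ≤ Cfsg.pPrimeCore p ↥H)
    (hS3 : H = ⨆ A : {A : Subgroup G // A ≤ H ∧ Cfsg.IsBestOffenderOn p V A}, (A : Subgroup G))
    {q : ℕ} [hq : Fact q.Prime] {Y : Subgroup G}
    (hYV : Y ≤ Subgroup.normalizer (V : Set G)) (hYH : Y ≤ Subgroup.normalizer (H : Set G))
    (hYq : IsPGroup q Y) (hcop : (Nat.card H).Coprime q) {M : Subgroup G}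
    (hM : H ⊓ Subgroup.centralizer (Y : Set G) ≤ M)
    {O : Subgroup G} (hOH : O ≤ H) (hO : Cfsg.IsBestOffenderOn p V O) (hOM : O ≤ M)
    {h : G} (hh : h ∈ H) : cj h O ≤ M := by
  obtain ⟨k, B, hB, -, hsup⟩ := exists_decomposition hV hHV hf hS1 hOH hO
  rw [← hsup]
  unfold cj
  rw [Subgroup.map_iSup]
  apply iSup_le
  intro i
  obtain ⟨hBO, hBoff, hBcard⟩ := hB i
  have hT : IsTrans p V H (B i) := isTrans_of_offender hV hHV hf hS1 (hBO.trans hOH) hBoff hBcard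
  have hEM := hT.comp_le_of_le hV hHV hf hS1 hS3 hYV hYH hYq hcop hM (hBO.trans hOM)
  obtain ⟨-, -, -, -, -, -, -, -, -, h9⟩ := hT.structure' hV hHV hf hS1 hS3
  calc (B i).map (MulAut.conj h).toMonoidHom ≤ cj h (⁅qc p H, B i⁆ ⊔ B i) := cj_mono le_sup_right
    _ = ⁅qc p H, B i⁆ ⊔ B i := cj_eq_self (h9 hh)
    _ ≤ M := hEM

/-- A nontrivial `H` contains a transvection subgroup. -/
theorem exists_isTrans (hV : Cfsg.IsElementaryAbelian p V)
    (hHV : H ≤ Subgroup.normalizer (V : Set G))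
    (hf : H ⊓ Subgroup.centralizer (V : Set G) = ⊥)
    (hS1 : Subgroup.centralizer (Cfsg.pPrimeCore p ↥H : Set ↥H) ≤ Cfsg.pPrimeCore p ↥H)
    (hS3 : H = ⨆ A : {A : Subgroup G // A ≤ H ∧ Cfsg.IsBestOffenderOn p V A}, (A : Subgroup G))
    (hH1 : H ≠ ⊥) : ∃ A : Subgroup G, IsTrans p V H A := by
  by_contra hcon
  push Not at hcon
  apply hH1
  rw [hS3]
  apply le_antisymm _ bot_le
  apply iSup_le
  rintro ⟨O, hOH, hO⟩
  obtain ⟨k, B, hB, -, hsup⟩ := exists_decomposition hV hHV hf hS1 hOH hO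
  show O ≤ ⊥
  rw [← hsup]
  apply iSup_le
  intro i
  obtain ⟨hBO, hBoff, hBcard⟩ := hB i
  exact absurd (isTrans_of_offender hV hHV hf hS1 (hBO.trans hOH) hBoff hBcard) (hcon _)

end Setting

end Cfsg.Agent.H47.Off
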