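import Mathlib
import Cfsg.Agent.H2.Transfer
import Cfsg.Agent.H3.PGroup
import Cfsg.Agent.H14.Cores
import Cfsg.Agent.H14.PSolv
import Cfsg.Agent.H66.HHA
import Cfsg.Agent.S1324
import Cfsg.Agent.H47.OffenderFix

/-!
# A `p`-subgroup acting on `O_{p,p'}` of a `p`-soluble group

For a `p`-subgroup `A` of a `p`-soluble group `M` with `Φ(A) ≤ O_p(M)` and `A ≰ O_p(M)` we find
`x ∈ O_{p,p'}(M)` such that `L = ⟨A, A^x⟩` is minimal non-`p`-group, with `x ∈ O^p(L)`.
-/

set_option autoImplicit false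

namespace Cfsg.Agent.H47.Hyp

open Cfsg
open scoped commutatorElement

variable {M : Type*} [Group M]

/-- `O^p(L)` of a subgroup, inside the ambient group. -/
def res (p : ℕ) (L : Subgroup M) : Subgroup M := (Cfsg.pResidual p ↥L).map L.subtype

theorem res_le (p : ℕ) (L : Subgroup M) : res p L ≤ L := Subgroup.map_subtype_le _

theorem mem_res_of_coprime {p : ℕ} {L : Subgroup M} {l : M} (hl : l ∈ L)
    (h : (orderOf l).Coprime p) : l ∈ res p L := by
  refine ⟨⟨l, hl⟩, ?_, rfl⟩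
  apply Subgroup.subset_closure
  show (orderOf (⟨l, hl⟩ : ↥L)).Coprime p
  rw [Subgroup.orderOf_mk]
  exact h

theorem res_le_of (p : ℕ) {L N : Subgroup M} (h : ∀ l ∈ L, (orderOf l).Coprime p → l ∈ N) :
    res p L ≤ N := by
  unfold res Cfsg.pResidual
  rw [Subgroup.map_le_iff_le_comap, Subgroup.closure_le]
  intro g hg
  have hg' : (orderOf g).Coprime p := hg
  exact h g g.2 (by rw [Subgroup.orderOf_coe]; exact hg')

theorem conj_mem_res {p : ℕ} {L : Subgroup M} {l r : M} (hl : l ∈ L) (hr : r ∈ res p L) :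
    l * r * l⁻¹ ∈ res p L := by
  obtain ⟨r', hr', rfl⟩ := hr
  have hn := Cfsg.Agent.H2.pResidual_normal (G := ↥L) p
  exact ⟨⟨l, hl⟩ * r' * ⟨l, hl⟩⁻¹, hn.conj_mem r' hr' ⟨l, hl⟩, rfl⟩

theorem pow_mem_res {p : ℕ} [hp : Fact p.Prime] [Finite M] {L : Subgroup M} {l : M} (hl : l ∈ L) :
    ∃ k : ℕ, l ^ p ^ k ∈ res p L := by
  obtain ⟨k, m, hm, hkm⟩ :=
    Nat.exists_eq_pow_mul_and_not_dvd (orderOf_pos l).ne' p hp.out.ne_one
  refine ⟨k, mem_res_of_coprime (L.pow_mem hl _) ?_⟩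
  rw [orderOf_pow' l (pow_ne_zero k hp.out.ne_zero), hkm, Nat.gcd_eq_right (dvd_mul_right _ _),
    Nat.mul_div_cancel_left m (pow_pos hp.out.pos k)]
  exact ((Nat.Prime.coprime_iff_not_dvd hp.out).mpr hm).symm

/-- An element of order prime to `n` lies in any subgroup containing its `n`-th power. -/
theorem mem_of_pow_mem {N : Subgroup M} {l : M} {n : ℕ} (h : l ^ n ∈ N)
    (hc : n.Coprime (orderOf l)) : l ∈ N := by
  obtain ⟨m, hm⟩ := exists_pow_eq_self_of_coprime hc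
  rw [← hm]
  exact N.pow_mem h m

theorem coprime_pow_of_coprime {p : ℕ} {n : ℕ} (k : ℕ) (h : n.Coprime p) : (p ^ k).Coprime n :=
  (Nat.Coprime.pow_right k h).symm

section Fin

variable [Finite M] {p : ℕ} [hp : Fact p.Prime]

omit hp in
/-- A `p`-element (modulo `O_p`) of `O_{p,p'}(M)` lies in `O_p(M)`. -/
theorem mem_pCore_of_mem_comap {c : M}
    (hc : c ∈ (pPrimeCore p (M ⧸ pCore p M)).comap (QuotientGroup.mk' (pCore p M))) {k : ℕ}
    (hk : c ^ p ^ k ∈ pCore p M) : c ∈ pCore p M := by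
  have h1 : (QuotientGroup.mk' (pCore p M) c) ^ p ^ k = 1 := by
    rw [← map_pow]
    exact (QuotientGroup.eq_one_iff _).mpr hk
  have h2 : orderOf (QuotientGroup.mk' (pCore p M) c) ∣ p ^ k := orderOf_dvd_of_pow_eq_one h1
  have h3 : orderOf (QuotientGroup.mk' (pCore p M) c) ∣
      Nat.card (pPrimeCore p (M ⧸ pCore p M)) := Subgroup.orderOf_dvd_natCard _ hc
  have h4 := Cfsg.Agent.H14.pPrimeCore_coprime p (M ⧸ pCore p M)
  have h5 : (orderOf (QuotientGroup.mk' (pCore p M) c)).Coprime (p ^ k) :=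
    Nat.Coprime.pow_right k (Nat.Coprime.coprime_dvd_left h3 h4)
  have h6 : orderOf (QuotientGroup.mk' (pCore p M) c) = 1 := Nat.Coprime.eq_one_of_dvd h5 h2
  rw [orderOf_eq_one_iff] at h6
  exact (QuotientGroup.eq_one_iff c).mp h6

/-- A `p`-element centralizing `O_{p,p'}(M)` modulo `O_p(M)` lies in `O_p(M)`. -/
theorem mem_pCore_of_comm (hM : IsPSolvable p M) {a : M} {k : ℕ} (hak : a ^ p ^ k ∈ pCore p M)
    (h : ∀ x ∈ (pPrimeCore p (M ⧸ pCore p M)).comap (QuotientGroup.mk' (pCore p M)),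
      x * a * x⁻¹ * a⁻¹ ∈ pCore p M) : a ∈ pCore p M := by
  apply mem_pCore_of_mem_comap _ hak
  rw [Subgroup.mem_comap]
  have hsolv : IsPSolvable p (M ⧸ pCore p M) :=
    Cfsg.Agent.H14.isPSolvable_of_surjective p (QuotientGroup.mk' (pCore p M))
      (QuotientGroup.mk'_surjective _) hM
  apply Cfsg.Agent.H66.centralizer_pPrimeCore_le p hsolv (Cfsg.Agent.H66.pCore_quotient_pCore_bot p)
  rw [Subgroup.mem_centralizer_iff]
  intro y hy
  obtain ⟨x, rfl⟩ := QuotientGroup.mk'_surjective (pCore p M) y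
  have h1 := h x hy
  have h2 : QuotientGroup.mk' (pCore p M) (x * a * x⁻¹ * a⁻¹) = 1 :=
    (QuotientGroup.eq_one_iff _).mpr h1
  rw [map_mul, map_mul, map_mul, map_inv, map_inv] at h2
  calc QuotientGroup.mk' (pCore p M) x * QuotientGroup.mk' (pCore p M) a
      = (QuotientGroup.mk' (pCore p M) x * QuotientGroup.mk' (pCore p M) a *
          (QuotientGroup.mk' (pCore p M) x)⁻¹ * (QuotientGroup.mk' (pCore p M) a)⁻¹) *
          QuotientGroup.mk' (pCore p M) a * QuotientGroup.mk' (pCore p M) x := by group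
    _ = QuotientGroup.mk' (pCore p M) a * QuotientGroup.mk' (pCore p M) x := by rw [h2, one_mul]

omit [Finite M] hp in
theorem pow_eq_one_of_isPGroup {L : Subgroup M} (hL : IsPGroup p L) {c : M} (hc : c ∈ L) :
    ∃ k : ℕ, c ^ p ^ k = 1 := by
  obtain ⟨k, hk⟩ := hL ⟨c, hc⟩
  exact ⟨k, congrArg Subtype.val hk⟩

/-- Some `⟨A, A^x⟩` with `x ∈ O_{p,p'}(M)` is not a `p`-group. -/
theorem exists_not_pGroup (hM : IsPSolvable p M) (A : Subgroup M) (hA : IsPGroup p A)
    (hnot : ¬ A ≤ pCore p M) :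
    ∃ x ∈ (pPrimeCore p (M ⧸ pCore p M)).comap (QuotientGroup.mk' (pCore p M)),
      ¬ IsPGroup p ↥(A ⊔ A.map (MulAut.conj x).toMonoidHom) := by
  by_contra hcon
  push Not at hcon
  apply hnot
  intro a ha
  obtain ⟨k, hk⟩ := pow_eq_one_of_isPGroup hA ha
  apply mem_pCore_of_comm hM (k := k) (by rw [hk]; exact Subgroup.one_mem _)
  intro x hx
  have hL := hcon x hx
  have hn : ((pPrimeCore p (M ⧸ pCore p M)).comap (QuotientGroup.mk' (pCore p M))).Normal :=
    Subgroup.Normal.comap inferInstance _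
  have hc1 : x * a * x⁻¹ * a⁻¹ ∈ A ⊔ A.map (MulAut.conj x).toMonoidHom := by
    have h1 : x * a * x⁻¹ ∈ A.map (MulAut.conj x).toMonoidHom := ⟨a, ha, rfl⟩
    exact Subgroup.mul_mem _ (Subgroup.mem_sup_right h1) (Subgroup.mem_sup_left (A.inv_mem ha))
  obtain ⟨j, hj⟩ := pow_eq_one_of_isPGroup hL hc1
  have hc2 : x * a * x⁻¹ * a⁻¹ ∈
      (pPrimeCore p (M ⧸ pCore p M)).comap (QuotientGroup.mk' (pCore p M)) := by
    have e : x * a * x⁻¹ * a⁻¹ = x * (a * x⁻¹ * a⁻¹) := by group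
    rw [e]
    exact Subgroup.mul_mem _ hx (hn.conj_mem _ (Subgroup.inv_mem _ hx) a)
  exact mem_pCore_of_mem_comap hc2 (k := j) (by rw [hj]; exact Subgroup.one_mem _)

/-- **Main lemma.** -/
theorem main (hM : IsPSolvable p M) (A : Subgroup M) (hA : IsPGroup p A)
    (hΦ : (frattini ↥A).map A.subtype ≤ pCore p M) (hnot : ¬ A ≤ pCore p M) :
    ∃ x ∈ (pPrimeCore p (M ⧸ pCore p M)).comap (QuotientGroup.mk' (pCore p M)),
    ∃ L : Subgroup M, L = A ⊔ A.map (MulAut.conj x).toMonoidHom ∧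
      x ∈ res p L ∧
      res p L ≤ (pPrimeCore p (M ⧸ pCore p M)).comap (QuotientGroup.mk' (pCore p M)) ∧
      ⁅res p L, A⁆ = res p L ∧
      (A ⊓ (pCore p ↥L).map L.subtype).relIndex A = p ∧
      ⁅A ⊓ (pCore p ↥L).map L.subtype, L⁆ ≤ pCore p M := by
  classical
  have hpp : p.Prime := hp.out
  have hex := exists_not_pGroup hM A hA hnot
  obtain ⟨Q, hQ⟩ : ∃ Q : Subgroup M,
      Q = (pPrimeCore p (M ⧸ pCore p M)).comap (QuotientGroup.mk' (pCore p M)) := ⟨_, rfl⟩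
  rw [← hQ] at hex ⊢
  haveI hQn : Q.Normal := by rw [hQ]; exact Subgroup.Normal.comap inferInstance _
  obtain ⟨π, hπ⟩ : ∃ π : M →* M ⧸ pCore p M, π = QuotientGroup.mk' (pCore p M) := ⟨_, rfl⟩
  have hπker : ∀ c : M, π c = 1 ↔ c ∈ pCore p M := by
    intro c; rw [hπ]; exact QuotientGroup.eq_one_iff c
  have hπQ : ∀ c : M, c ∈ Q ↔ π c ∈ pPrimeCore p (M ⧸ pCore p M) := by
    intro c; rw [hQ, hπ]; exact Subgroup.mem_comap
  have hQcop : (Nat.card (pPrimeCore p (M ⧸ pCore p M))).Coprime p :=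
    Cfsg.Agent.H14.pPrimeCore_coprime p _
  have hmemP : ∀ c ∈ Q, ∀ k : ℕ, c ^ p ^ k ∈ pCore p M → c ∈ pCore p M :=
    fun c hc k hk => mem_pCore_of_mem_comap (hQ ▸ hc) hk
  obtain ⟨Lf, hLf⟩ : ∃ Lf : M → Subgroup M,
      ∀ y, Lf y = A ⊔ A.map (MulAut.conj y).toMonoidHom := ⟨_, fun _ => rfl⟩
  have hAL : ∀ y, A ≤ Lf y := fun y => by rw [hLf]; exact le_sup_left
  have hconj : ∀ y, ∀ a ∈ A, y * a * y⁻¹ ∈ Lf y := fun y a ha => by
    rw [hLf]; exact Subgroup.mem_sup_right ⟨a, ha, rfl⟩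
  have hLfle : ∀ (y : M) (N : Subgroup M), A ≤ N → y ∈ N → Lf y ≤ N := by
    intro y N hAN hy
    rw [hLf]
    refine sup_le hAN ?_
    rintro _ ⟨a, ha, rfl⟩
    exact N.mul_mem (N.mul_mem hy (hAN ha)) (N.inv_mem hy)
  -- minimal choice
  have hne : ∃ n : ℕ, ∃ x ∈ Q, ¬ IsPGroup p ↥(Lf x) ∧ Nat.card ↥(Lf x) = n := by
    obtain ⟨x, hx, h⟩ := hex
    exact ⟨_, x, hx, by rw [hLf]; exact h, rfl⟩
  obtain ⟨x, hxQ, hxnp, hxcard⟩ := Nat.find_spec hne
  have hmin : ∀ y ∈ Q, ¬ IsPGroup p ↥(Lf y) → Nat.card ↥(Lf x) ≤ Nat.card ↥(Lf y) := by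
    intro y hy hnp
    rw [hxcard]
    exact Nat.find_min' hne ⟨y, hy, hnp, rfl⟩
  obtain ⟨L, hL⟩ : ∃ L : Subgroup M, L = Lf x := ⟨_, rfl⟩
  rw [← hL] at hxnp hmin
  have hAL' : A ≤ L := by rw [hL]; exact hAL x
  have hxL : ∀ a ∈ A, x * a * x⁻¹ ∈ L := fun a ha => by rw [hL]; exact hconj x a ha
  obtain ⟨R, hR⟩ : ∃ R : Subgroup M, R = res p L := ⟨_, rfl⟩
  have hRL : R ≤ L := by rw [hR]; exact res_le p L
  have hRconj : ∀ l ∈ L, ∀ r ∈ R, l * r * l⁻¹ ∈ R := fun l hl r hr => by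
    rw [hR] at hr ⊢; exact conj_mem_res hl hr
  have hApow : ∀ a ∈ A, ∃ k : ℕ, a ^ p ^ k = 1 := fun a ha => pow_eq_one_of_isPGroup hA ha
  have hLAQ : L ≤ A ⊔ Q := by
    rw [hL]
    exact hLfle x _ le_sup_left (Subgroup.mem_sup_right hxQ)
  have hRQ : R ≤ Q := by
    rw [hR]
    apply res_le_of
    intro l hl hcop
    have h2 : A ⊔ Q ≤ (A.map (QuotientGroup.mk' Q)).comap (QuotientGroup.mk' Q) := by
      apply sup_le
      · intro a ha
        exact ⟨a, ha, rfl⟩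
      · intro q hq
        rw [Subgroup.mem_comap]
        have : QuotientGroup.mk' Q q = 1 := (QuotientGroup.eq_one_iff q).mpr hq
        rw [this]; exact Subgroup.one_mem _
    obtain ⟨a, ha, hal⟩ := h2 (hLAQ hl)
    obtain ⟨k, hk⟩ := hApow a ha
    have h3 : QuotientGroup.mk' Q (l ^ p ^ k) = 1 := by
      rw [map_pow, ← hal, ← map_pow, hk, map_one]
    exact mem_of_pow_mem ((QuotientGroup.eq_one_iff _).mp h3) (coprime_pow_of_coprime k hcop)
  have hsub : ∀ y ∈ R, ¬ IsPGroup p ↥(Lf y) → Lf y = L := by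
    intro y hy hnp
    have hle : Lf y ≤ L := hLfle y L hAL' (hRL hy)
    exact Subgroup.eq_of_le_of_card_ge hle (hmin y (hRQ hy) hnp)
  have hcommP : ∀ y ∈ R, IsPGroup p ↥(Lf y) → ∀ a ∈ A, y * a * y⁻¹ * a⁻¹ ∈ pCore p M := by
    intro y hy hpg a ha
    have hc1 : y * a * y⁻¹ * a⁻¹ ∈ Lf y :=
      (Lf y).mul_mem (hconj y a ha) ((Lf y).inv_mem (hAL y ha))
    obtain ⟨j, hj⟩ := pow_eq_one_of_isPGroup hpg hc1
    have hc2 : y * a * y⁻¹ * a⁻¹ ∈ R := by
      have e : y * a * y⁻¹ * a⁻¹ = y * (a * y⁻¹ * a⁻¹) := by group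
      rw [e]
      exact R.mul_mem hy (hRconj a (hAL' ha) _ (R.inv_mem hy))
    exact hmemP _ (hRQ hc2) j (by rw [hj]; exact Subgroup.one_mem _)
  -- some `x₁ ∈ O^p(L)` with `⟨A, A^x₁⟩ = L`
  have hx1 : ∃ x₁ ∈ R, Lf x₁ = L := by
    by_contra hcon
    push Not at hcon
    have hall : ∀ y ∈ R, IsPGroup p ↥(Lf y) := by
      intro y hy
      by_contra hnp
      exact hcon y hy (hsub y hy hnp)
    apply hxnp
    have hkey : ∀ a ∈ A, x * a * x⁻¹ * a⁻¹ ∈ pCore p M := by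
      intro a ha
      obtain ⟨c₀, hc₀⟩ : ∃ c₀ : M, c₀ = x * a * x⁻¹ * a⁻¹ := ⟨_, rfl⟩
      rw [← hc₀]
      have hc₀L : c₀ ∈ L := by
        rw [hc₀]; exact L.mul_mem (hxL a ha) (L.inv_mem (hAL' ha))
      have hc₀Q : c₀ ∈ Q := by
        rw [hc₀]
        have e : x * a * x⁻¹ * a⁻¹ = x * (a * x⁻¹ * a⁻¹) := by group
        rw [e]
        exact Q.mul_mem hxQ (hQn.conj_mem _ (Q.inv_mem hxQ) a)
      obtain ⟨k, hk⟩ : ∃ k : ℕ, c₀ ^ p ^ k ∈ R := by rw [hR]; exact pow_mem_res hc₀L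
      have hc₀Q' : π c₀ ∈ pPrimeCore p (M ⧸ pCore p M) := (hπQ c₀).mp hc₀Q
      have hord : (p ^ k).Coprime (orderOf (π c₀)) :=
        coprime_pow_of_coprime k
          (Nat.Coprime.coprime_dvd_left (Subgroup.orderOf_dvd_natCard _ hc₀Q') hQcop)
      obtain ⟨m', hm'⟩ := exists_pow_eq_self_of_coprime hord
      obtain ⟨r', hr'⟩ : ∃ r' : M, r' = (c₀ ^ p ^ k) ^ m' := ⟨_, rfl⟩
      have hr'R : r' ∈ R := by rw [hr']; exact R.pow_mem hk m'
      have hπr' : π r' = π c₀ := by rw [hr', map_pow, map_pow]; exact hm'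
      have hcomm1 : π c₀ * π a = π a * π c₀ := by
        rw [← hπr']
        have h1 := hcommP r' hr'R (hall r' hr'R) a ha
        have h2 : π (r' * a * r'⁻¹ * a⁻¹) = 1 := (hπker _).mpr h1
        rw [map_mul, map_mul, map_mul, map_inv, map_inv] at h2
        calc π r' * π a = (π r' * π a * (π r')⁻¹ * (π a)⁻¹) * π a * π r' := by group
          _ = π a * π r' := by rw [h2, one_mul]
      obtain ⟨j, hj⟩ := hApow a ha
      have h3 : π c₀ * π a = π (x * a * x⁻¹) := by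
        rw [hc₀, ← map_mul]
        congr 1
        group
      have h4 : (π c₀ * π a) ^ p ^ j = 1 := by
        rw [h3, ← map_pow, conj_pow, hj]
        simp
      have h5 : (π c₀) ^ p ^ j = 1 := by
        have h6 := Commute.mul_pow hcomm1 (p ^ j)
        rw [h4, ← map_pow π a, hj, map_one, mul_one] at h6
        exact h6.symm
      have h7 : c₀ ^ p ^ j ∈ pCore p M := (hπker _).mp (by rw [map_pow]; exact h5)
      exact hmemP c₀ hc₀Q j h7
    have hLle : L ≤ A ⊔ pCore p M := by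
      rw [hL, hLf]
      refine sup_le le_sup_left ?_
      rintro _ ⟨a, ha, rfl⟩
      have e : (MulAut.conj x).toMonoidHom a = (x * a * x⁻¹ * a⁻¹) * a := by
        show x * a * x⁻¹ = _
        group
      rw [e]
      exact Subgroup.mul_mem _ (Subgroup.mem_sup_right (hkey a ha)) (Subgroup.mem_sup_left ha)
    exact (IsPGroup.to_sup_of_normal_right hA (Cfsg.Agent.H14.pCore_isPGroup p M)).to_le hLle
  obtain ⟨x₁, hx₁R, hx₁L⟩ := hx1
  have hx₁Q : x₁ ∈ Q := hRQ hx₁R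
  -- `[O^p(L), A] = O^p(L)`
  have hcomm_le : ⁅R, A⁆ ≤ R := by
    rw [Subgroup.commutator_le]
    intro r hr a ha
    have e : ⁅r, a⁆ = r * (a * r⁻¹ * a⁻¹) := by rw [commutatorElement_def]; group
    rw [e]
    exact R.mul_mem hr (hRconj a (hAL' ha) _ (R.inv_mem hr))
  have hAR : A ≤ Subgroup.normalizer (R : Set M) :=
    Off.le_normalizer_of_conj_mem (fun a ha r hr => hRconj a (hAL' ha) r hr)
  have hAR₀ : A ≤ Subgroup.normalizer ((⁅R, A⁆ : Subgroup M) : Set M) :=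
    Off.le_normalizer_commutator hAR
  have hLAR₀ : L ≤ A ⊔ ⁅R, A⁆ := by
    rw [← hx₁L, hLf]
    refine sup_le le_sup_left ?_
    rintro _ ⟨a, ha, rfl⟩
    have e : (MulAut.conj x₁).toMonoidHom a = ⁅x₁, a⁆ * a := by
      show x₁ * a * x₁⁻¹ = _
      rw [commutatorElement_def]; group
    rw [e]
    exact Subgroup.mul_mem _
      (Subgroup.mem_sup_right (Subgroup.commutator_mem_commutator hx₁R ha))
      (Subgroup.mem_sup_left ha)
  have h3 : ⁅R, A⁆ = R := by
    apply le_antisymm hcomm_le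
    conv_lhs => rw [hR]
    apply res_le_of
    intro l hl hcop
    obtain ⟨a, ha, r₀, hr₀, rfl⟩ := Off.exists_mul_of_mem_sup' hAR₀ (hLAR₀ hl)
    obtain ⟨k, hk⟩ := hApow a ha
    have hpow : ∀ n : ℕ, ∃ r ∈ ⁅R, A⁆, (a * r₀) ^ n = a ^ n * r := by
      intro n
      induction n with
      | zero => exact ⟨1, Subgroup.one_mem _, by simp⟩
      | succ n ih =>
        obtain ⟨r, hr, hrn⟩ := ih
        refine ⟨a⁻¹ * r * a * r₀, ?_, ?_⟩
        · apply Subgroup.mul_mem _ _ hr₀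
          have := (Subgroup.mem_normalizer_iff.mp (hAR₀ (A.inv_mem ha)) r).mp hr
          simpa using this
        · rw [pow_succ, hrn, pow_succ]; group
    obtain ⟨r, hr, hrn⟩ := hpow (p ^ k)
    rw [hk, one_mul] at hrn
    exact mem_of_pow_mem (hrn ▸ hr) (coprime_pow_of_coprime k hcop)
  -- the images in `M / O_p(M)`
  obtain ⟨Ab, hAb⟩ : ∃ Ab : Subgroup (M ⧸ pCore p M), Ab = A.map π := ⟨_, rfl⟩
  obtain ⟨Rb, hRb⟩ : ∃ Rb : Subgroup (M ⧸ pCore p M), Rb = R.map π := ⟨_, rfl⟩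
  have hAcomm : ∀ a ∈ A, ∀ b ∈ A, π a * π b = π b * π a := by
    intro a ha b hb
    have h1 : a * b * a⁻¹ * b⁻¹ ∈ pCore p M := by
      apply hΦ
      have h2 : (⁅(⟨a, ha⟩ : ↥A), ⟨b, hb⟩⁆ : ↥A) ∈ frattini ↥A :=
        Cfsg.Agent.H3.commutator_le_frattini hA
          (Subgroup.commutator_mem_commutator (Subgroup.mem_top _) (Subgroup.mem_top _))
      exact ⟨_, h2, by simp [commutatorElement_def]⟩
    have h2 : π (a * b * a⁻¹ * b⁻¹) = 1 := (hπker _).mpr h1
    rw [map_mul, map_mul, map_mul, map_inv, map_inv] at h2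
    calc π a * π b = (π a * π b * (π a)⁻¹ * (π b)⁻¹) * π b * π a := by group
      _ = π b * π a := by rw [h2, one_mul]
  have hAbel : IsElementaryAbelian p Ab := by
    refine ⟨Subgroup.le_centralizer_iff_isMulCommutative.mp ?_, ?_⟩
    · rw [hAb]
      rintro _ ⟨a, ha, rfl⟩
      rw [Subgroup.mem_centralizer_iff]
      rintro _ ⟨b, hb, rfl⟩
      exact hAcomm b hb a ha
    · rw [hAb]
      rintro _ ⟨a, ha, rfl⟩
      rw [← map_pow, hπker]
      apply hΦ
      exact ⟨⟨a, ha⟩ ^ p, Cfsg.Agent.H3.pow_mem_frattini hA _, rfl⟩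
  have hRbcop : ¬ p ∣ Nat.card ↥Rb := by
    have hle : Rb ≤ pPrimeCore p (M ⧸ pCore p M) := by
      rw [hRb]
      rintro _ ⟨r, hr, rfl⟩
      exact (hπQ r).mp (hRQ hr)
    intro hdvd
    have h1 : p ∣ Nat.card (pPrimeCore p (M ⧸ pCore p M)) :=
      hdvd.trans (Subgroup.card_dvd_of_le hle)
    exact hpp.one_lt.ne' (Nat.Coprime.eq_one_of_dvd hQcop.symm h1)
  have hAbRb : Ab ≤ Subgroup.normalizer (Rb : Set (M ⧸ pCore p M)) := by
    rw [hAb, hRb]
    exact (Subgroup.map_mono hAR).trans (Subgroup.le_normalizer_map π)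
  have hnc : ∃ r ∈ R, ∃ a ∈ A, ¬ (π r * π a = π a * π r) := by
    by_contra hcon
    push Not at hcon
    apply hxnp
    have hRP : R ≤ pCore p M := by
      rw [← h3, Subgroup.commutator_le]
      intro r hr a ha
      rw [← hπker, commutatorElement_def, map_mul, map_mul, map_mul, map_inv, map_inv,
        hcon r hr a ha]
      group
    intro l
    obtain ⟨k, hk⟩ : ∃ k : ℕ, (l : M) ^ p ^ k ∈ R := by rw [hR]; exact pow_mem_res l.2
    obtain ⟨j, hj⟩ := pow_eq_one_of_isPGroup (Cfsg.Agent.H14.pCore_isPGroup p M) (hRP hk)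
    refine ⟨k + j, ?_⟩
    apply Subtype.ext
    rw [Subgroup.coe_pow, pow_add, pow_mul]
    exact hj
  have hhyp : ∃ Bb : Subgroup (M ⧸ pCore p M), Bb ≤ Ab ∧ Bb.relIndex Ab = p ∧
      ∃ yb ∈ Rb, yb ∈ Subgroup.centralizer (Bb : Set (M ⧸ pCore p M)) ∧
        yb ∉ Subgroup.centralizer (Ab : Set (M ⧸ pCore p M)) := by
    obtain ⟨r, hr, a, ha, hra⟩ := hnc
    have hrRb : π r ∈ Rb := by rw [hRb]; exact ⟨r, hr, rfl⟩
    have haAb : π a ∈ Ab := by rw [hAb]; exact ⟨a, ha, rfl⟩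
    have hrnot : π r ∉ Subgroup.centralizer (Ab : Set (M ⧸ pCore p M)) := by
      intro h
      rw [Subgroup.mem_centralizer_iff] at h
      exact hra (h (π a) haAb).symm
    have hAbp : IsPGroup p Ab := Cfsg.Agent.H14.elemAb_isPGroup hAbel
    obtain ⟨n, hn⟩ := IsPGroup.iff_card.mp hAbp
    by_cases hbig : p ^ 2 ≤ Nat.card ↥Ab
    · have hgen := Cfsg.Agent.S1324.result p Ab Rb hAbel hbig hRbcop hAbRb
      by_contra hcon
      push Not at hcon
      apply hrnot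
      have hle : Rb ≤ Subgroup.centralizer (Ab : Set (M ⧸ pCore p M)) := by
        refine hgen.le.trans ?_
        apply iSup_le
        rintro ⟨Bb, hBb, hBbidx⟩
        show Rb ⊓ Subgroup.centralizer (Bb : Set (M ⧸ pCore p M)) ≤ _
        have hdvd : Bb.relIndex Ab ∣ p ^ n := hn ▸ Subgroup.relIndex_dvd_card Bb Ab
        obtain ⟨i, hi, hidx⟩ := (Nat.dvd_prime_pow hpp).mp hdvd
        have hi1 : i ≤ 1 := by
          by_contra h
          push Not at h
          have h1 : p ^ 2 ≤ p ^ i := Nat.pow_le_pow_right hpp.pos h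
          have h2 : p < p ^ 2 := by nlinarith [hpp.two_le]
          rw [hidx] at hBbidx
          omega
        interval_cases i
        · rw [pow_zero] at hidx
          have hAB : Ab ≤ Bb := Subgroup.relIndex_eq_one.mp hidx
          exact inf_le_right.trans (Subgroup.centralizer_le hAB)
        · rw [pow_one] at hidx
          intro yb hyb
          exact hcon Bb hBb hidx yb (Subgroup.mem_inf.mp hyb).1 (Subgroup.mem_inf.mp hyb).2
      exact hle hrRb
    · push Not at hbig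
      have hn1 : n = 1 := by
        have hlt : n < 2 := by
          by_contra h
          push Not at h
          have := Nat.pow_le_pow_right hpp.pos h
          rw [hn] at hbig
          omega
        have hn0 : n ≠ 0 := by
          rintro rfl
          rw [pow_zero] at hn
          have hAbbot : Ab = ⊥ := Subgroup.card_eq_one.mp hn
          apply hra
          have h1 : π a = 1 := by
            have h2 := haAb
            rw [hAbbot, Subgroup.mem_bot] at h2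
            exact h2
          rw [h1]; simp
        omega
      refine ⟨⊥, bot_le, ?_, π r, hrRb, ?_, hrnot⟩
      · rw [Subgroup.relIndex_bot_left, hn, hn1, pow_one]
      · rw [Subgroup.mem_centralizer_iff]
        intro g hg
        have hg1 : g = 1 := Subgroup.mem_bot.mp hg
        rw [hg1]; simp
  obtain ⟨Bb, hBbA, hBbidx, yb, hybR, hybB, hybA⟩ := hhyp
  obtain ⟨y, hyR, rfl⟩ : ∃ y ∈ R, π y = yb := by rw [hRb] at hybR; exact hybR
  obtain ⟨B, hB⟩ : ∃ B : Subgroup M, B = A ⊓ Bb.comap π := ⟨_, rfl⟩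
  have hBA : B ≤ A := by rw [hB]; exact inf_le_left
  have hBidx : B.relIndex A = p := by
    rw [hB, Subgroup.inf_relIndex_left, Subgroup.relIndex_comap, ← hAb]; exact hBbidx
  have hBy : ∀ b ∈ B, π b * π y = π y * π b := by
    intro b hb
    rw [hB] at hb
    exact (Subgroup.mem_centralizer_iff.mp hybB) (π b) (Subgroup.mem_inf.mp hb).2
  have hya : ∃ a ∈ A, y * a * y⁻¹ * a⁻¹ ∉ pCore p M := by
    by_contra hcon
    push Not at hcon
    apply hybA
    rw [Subgroup.mem_centralizer_iff, hAb]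
    rintro _ ⟨a, ha, rfl⟩
    have h2 : π (y * a * y⁻¹ * a⁻¹) = 1 := (hπker _).mpr (hcon a ha)
    rw [map_mul, map_mul, map_mul, map_inv, map_inv] at h2
    calc π a * π y = (π y * π a * (π y)⁻¹ * (π a)⁻¹)⁻¹ * π y * π a := by group
      _ = π y * π a := by rw [h2]; group
  have hLy : Lf y = L := by
    apply hsub y hyR
    intro hpg
    obtain ⟨a, ha, hnotin⟩ := hya
    exact hnotin (hcommP y hyR hpg a ha)
  obtain ⟨C, hC⟩ : ∃ C : Subgroup M, C = (Subgroup.centralizer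
      ((B.map π : Subgroup (M ⧸ pCore p M)) : Set (M ⧸ pCore p M))).comap π := ⟨_, rfl⟩
  have hmemC : ∀ l, l ∈ C ↔ ∀ b ∈ B, π b * π l = π l * π b := by
    intro l
    rw [hC, Subgroup.mem_comap, Subgroup.mem_centralizer_iff]
    constructor
    · intro h b hb
      exact h (π b) ⟨b, hb, rfl⟩
    · rintro h _ ⟨b, hb, rfl⟩
      exact h b hb
  have hLC : L ≤ C := by
    rw [← hLy]
    apply hLfle y C
    · intro a ha
      rw [hmemC]
      intro b hb
      exact hAcomm b (hBA hb) a ha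
    · rw [hmemC]; exact hBy
  have hBL : ∀ b ∈ B, ∀ l ∈ L, b * l * b⁻¹ * l⁻¹ ∈ pCore p M := by
    intro b hb l hl
    rw [← hπker, map_mul, map_mul, map_mul, map_inv, map_inv, (hmemC l).mp (hLC hl) b hb]
    group
  -- `O_p(L)`
  obtain ⟨OL, hOL⟩ : ∃ OL : Subgroup M, OL = (pCore p ↥L).map L.subtype := ⟨_, rfl⟩
  have hOLp : IsPGroup p OL := by
    rw [hOL]; exact (Cfsg.Agent.H14.pCore_isPGroup p ↥L).map _
  have hOLn : ∀ l ∈ L, ∀ o ∈ OL, l * o * l⁻¹ ∈ OL := by
    intro l hl o ho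
    rw [hOL] at ho ⊢
    obtain ⟨o', ho', rfl⟩ := ho
    exact ⟨⟨l, hl⟩ * o' * ⟨l, hl⟩⁻¹,
      (Cfsg.Agent.H14.pCore_normal p ↥L).conj_mem o' ho' ⟨l, hl⟩, rfl⟩
  have hBOL : B ≤ OL := by
    obtain ⟨N, hN⟩ : ∃ N : Subgroup M, N = B ⊔ (pCore p M ⊓ L) := ⟨_, rfl⟩
    have hBN : B ≤ N := by rw [hN]; exact le_sup_left
    have hPN : pCore p M ⊓ L ≤ N := by rw [hN]; exact le_sup_right
    have hNp : IsPGroup p N := by
      have hle : N ≤ A ⊔ pCore p M := by
        rw [hN]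
        exact sup_le (hBA.trans le_sup_left) (inf_le_left.trans le_sup_right)
      exact (IsPGroup.to_sup_of_normal_right hA (Cfsg.Agent.H14.pCore_isPGroup p M)).to_le hle
    have hLN : L ≤ Subgroup.normalizer (N : Set M) := by
      apply Off.le_normalizer_of_conj_mem
      intro l hl n hn
      have hle : N ≤ N.comap (MulAut.conj l).toMonoidHom := by
        conv_lhs => rw [hN]
        apply sup_le
        · intro b hb
          rw [Subgroup.mem_comap]
          show l * b * l⁻¹ ∈ N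
          have e : l * b * l⁻¹ = (b * l * b⁻¹ * l⁻¹)⁻¹ * b := by group
          rw [e]
          refine N.mul_mem (N.inv_mem (hPN (Subgroup.mem_inf.mpr
            ⟨hBL b hb l hl, ?_⟩))) (hBN hb)
          exact L.mul_mem (L.mul_mem (L.mul_mem (hAL' (hBA hb)) hl)
            (L.inv_mem (hAL' (hBA hb)))) (L.inv_mem hl)
        · intro u hu
          rw [Subgroup.mem_comap]
          show l * u * l⁻¹ ∈ N
          apply hPN
          exact Subgroup.mem_inf.mpr
            ⟨(Cfsg.Agent.H14.pCore_normal p M).conj_mem u (Subgroup.mem_inf.mp hu).1 l,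
              L.mul_mem (L.mul_mem hl (Subgroup.mem_inf.mp hu).2) (L.inv_mem hl)⟩
      exact hle hn
    have hnormal : (N.subgroupOf L).Normal := Subgroup.normal_subgroupOf_of_le_normalizer hLN
    have hpg : IsPGroup p ↥(N.subgroupOf L) := hNp.comap_subtype
    have hle := Cfsg.Agent.H14.le_pCore hnormal hpg
    intro b hb
    rw [hOL]
    exact ⟨⟨b, hAL' (hBA hb)⟩, hle (Subgroup.mem_subgroupOf.mpr (hBN hb)), rfl⟩
  have hAOL : ¬ A ≤ OL := by
    intro h
    apply hxnp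
    have hLle : L ≤ OL := by
      rw [← hx₁L, hLf]
      refine sup_le h ?_
      rintro _ ⟨a, ha, rfl⟩
      exact hOLn x₁ (hRL hx₁R) a (h ha)
    exact hOLp.to_le hLle
  have hmul := Subgroup.relIndex_mul_relIndex B (A ⊓ OL) A (le_inf hBA hBOL) inf_le_left
  rw [hBidx] at hmul
  have hidx2 : (A ⊓ OL).relIndex A ≠ 1 := by
    intro h
    exact hAOL ((Subgroup.relIndex_eq_one.mp h).trans inf_le_right)
  have hidx1 : B.relIndex (A ⊓ OL) = 1 := by
    rcases (Nat.dvd_prime hpp).mp ⟨_, hmul.symm⟩ with h | h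
    · exact h
    · exfalso
      rw [h] at hmul
      exact hidx2 (Nat.eq_of_mul_eq_mul_left hpp.pos (hmul.trans (mul_one p).symm))
  have hidx3 : (A ⊓ OL).relIndex A = p := by rw [hidx1, one_mul] at hmul; exact hmul
  have hAOLB : A ⊓ OL ≤ B := Subgroup.relIndex_eq_one.mp hidx1
  refine ⟨x₁, hx₁Q, L, ?_, ?_, ?_, ?_, ?_, ?_⟩
  · rw [← hx₁L, hLf]
  · rw [← hR]; exact hx₁R
  · rw [← hR]; exact hRQ
  · rw [← hR]; exact h3
  · rw [← hOL]; exact hidx3
  · rw [← hOL, Subgroup.commutator_le]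
    intro b hb l hl
    rw [commutatorElement_def]
    exact hBL b (hAOLB hb) l hl

end Fin

end Cfsg.Agent.H47.Hyp
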