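import Mathlib
import Cfsg.Agent.H76.NCKillDefs
import Cfsg.Agent.S1414

set_option autoImplicit false

/-!
# NCK-COMM (helper47, for helper76's kill of configuration (NC), S1353/S1354)

`M*' ∩ N_G(S) ⊆ C_G(S)·S` for a Sylow `r`-subgroup `S ≤ M*'` of `G`, `r ∉ β(M*)`.
-/

namespace Cfsg.Agent.H47.NCKill

open Cfsg Subgroup Cfsg.Agent.H76.NCKill

universe u

variable {G : Type u} [Group G]

/-- Pure: if `D` has a normal `r`-complement and contains the Sylow `r`-subgroup `S` of `G`, then
every element of `N_D(S)` is a product of an element of `C_G(S)` and an element of `S`. -/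
theorem comm_aux [Finite G] {r : ℕ} [hr : Fact r.Prime] (D : Subgroup G)
    (hD : HasNormalPComplement r ↥D) (S : Sylow r G) (hSD : (S : Subgroup G) ≤ D) :
    ∀ x ∈ D ⊓ normalizer ((S : Subgroup G) : Set G),
      ∃ c ∈ centralizer ((S : Subgroup G) : Set G), ∃ s ∈ (S : Subgroup G), x = c * s := by
  obtain ⟨P, N, hN, hNP⟩ := hD
  have hr' := hr.out
  let S' : Subgroup D := (S : Subgroup G).subgroupOf D
  have hcS' : Nat.card S' = Nat.card (S : Subgroup G) :=
    Nat.card_congr (Subgroup.subgroupOfEquivOfLe hSD).toEquiv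
  have hcS : Nat.card (S : Subgroup G) = r ^ (Nat.card G).factorization r :=
    S.card_eq_multiplicity
  have hcP : Nat.card (P : Subgroup D) = r ^ (Nat.card D).factorization r :=
    P.card_eq_multiplicity
  have hD0 : Nat.card D ≠ 0 := Nat.card_pos.ne'
  have hG0 : Nat.card G ≠ 0 := Nat.card_pos.ne'
  have hv1 : (Nat.card G).factorization r ≤ (Nat.card D).factorization r := by
    have h1 : r ^ (Nat.card G).factorization r ∣ Nat.card D := by
      rw [← hcS, ← hcS']
      exact Subgroup.card_subgroup_dvd_card S'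
    exact (hr'.pow_dvd_iff_le_factorization hD0).mp h1
  have hv2 : (Nat.card D).factorization r ≤ (Nat.card G).factorization r :=
    (Nat.factorization_le_iff_dvd hD0 hG0).mpr (Subgroup.card_subgroup_dvd_card D) r
  have hv : (Nat.card D).factorization r = (Nat.card G).factorization r := le_antisymm hv2 hv1
  have hcSP : Nat.card S' = Nat.card (P : Subgroup D) := by rw [hcS', hcS, hcP, hv]
  have hmul : Nat.card N * Nat.card S' = Nat.card D := by
    rw [hcSP]
    exact hNP.card_mul_card
  have hnd : ¬ r ∣ Nat.card N := by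
    intro h
    have h3 : r ^ (Nat.card D).factorization r ∣ Nat.card (P : Subgroup D) := by rw [hcP]
    have h2 : r * r ^ (Nat.card D).factorization r ∣ Nat.card N * Nat.card (P : Subgroup D) :=
      Nat.mul_dvd_mul h h3
    rw [hNP.card_mul_card] at h2
    have h1 : r ^ ((Nat.card D).factorization r + 1) ∣ Nat.card D := by
      rw [pow_succ, mul_comm]
      exact h2
    have := (hr'.pow_dvd_iff_le_factorization hD0).mp h1
    omega
  have hcop : Nat.Coprime (Nat.card N) (Nat.card S') := by
    rw [hcSP, hcP]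
    exact Nat.Coprime.pow_right _ ((Nat.Prime.coprime_iff_not_dvd hr').mpr hnd).symm
  have hcompl : N.IsComplement' S' := Subgroup.isComplement'_of_coprime hmul hcop
  intro x hx
  obtain ⟨⟨k, s⟩, hks, -⟩ := Subgroup.IsComplement.existsUnique hcompl ⟨x, hx.1⟩
  have hks' : ((k : D) : G) * ((s : D) : G) = x := by
    have := congrArg (Subtype.val) hks
    simpa using this
  have hsS : ((s : D) : G) ∈ (S : Subgroup G) := Subgroup.mem_subgroupOf.mp s.2
  refine ⟨((k : D) : G), ?_, ((s : D) : G), hsS, hks'.symm⟩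
  have hkN : ((k : D) : G) ∈ normalizer ((S : Subgroup G) : Set G) := by
    have : ((k : D) : G) = x * ((s : D) : G)⁻¹ := by rw [← hks']; group
    rw [this]
    exact mul_mem hx.2 (inv_mem (Subgroup.le_normalizer hsS))
  rw [Subgroup.mem_centralizer_iff]
  intro t ht
  have htS : (t : G) ∈ (S : Subgroup G) := ht
  let td : D := ⟨t, hSD htS⟩
  have hw1 : (k : D) * td * (k : D)⁻¹ * td⁻¹ ∈ N := by
    have h1 : td * (k : D)⁻¹ * td⁻¹ ∈ N := hN.conj_mem _ (inv_mem k.2) td
    have : (k : D) * td * (k : D)⁻¹ * td⁻¹ = (k : D) * (td * (k : D)⁻¹ * td⁻¹) := by group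
    rw [this]
    exact mul_mem k.2 h1
  have hw2 : (k : D) * td * (k : D)⁻¹ * td⁻¹ ∈ S' := by
    rw [Subgroup.mem_subgroupOf]
    have h1 : ((k : D) : G) * t * ((k : D) : G)⁻¹ ∈ (S : Subgroup G) :=
      (Subgroup.mem_normalizer_iff.mp hkN t).mp htS
    have : (((k : D) * td * (k : D)⁻¹ * td⁻¹ : D) : G)
        = ((k : D) : G) * t * ((k : D) : G)⁻¹ * t⁻¹ := rfl
    rw [this]
    exact mul_mem h1 (inv_mem htS)
  have hw : (k : D) * td * (k : D)⁻¹ * td⁻¹ = 1 :=
    Subgroup.disjoint_def.mp hcompl.disjoint hw1 hw2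
  have hw' : ((k : D) : G) * t * ((k : D) : G)⁻¹ * t⁻¹ = 1 := by
    have := congrArg (Subtype.val) hw
    simpa using this
  have h2 : ((k : D) : G) * t * ((k : D) : G)⁻¹ = t := by
    rw [mul_inv_eq_one] at hw'
    exact hw'
  rw [mul_inv_eq_iff_eq_mul] at h2
  exact h2.symm

/-- **NCK-COMM.** -/
theorem comm [Finite G] : StComm G := by
  intro hG Ms r hrF hMs hrβ S hS x hx
  have hr : r.Prime := hrF.out
  by_cases hS1 : (S : Subgroup G) = ⊥
  · refine ⟨x, ?_, 1, one_mem _, (mul_one x).symm⟩
    rw [hS1, Subgroup.mem_centralizer_iff]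
    intro h hh
    have h1 : h = 1 := by simpa using hh
    rw [h1, one_mul, mul_one]
  · have hDM : ⁅Ms, Ms⁆ ≤ Ms := by
      rw [Subgroup.commutator_le]
      intro a ha b hb
      rw [commutatorElement_def]
      exact mul_mem (mul_mem (mul_mem ha hb) (inv_mem ha)) (inv_mem hb)
    have hdvd : r ∣ Nat.card Ms := by
      have h1 : r ∣ Nat.card (S : Subgroup G) := by
        obtain ⟨n, hn⟩ := IsPGroup.iff_card.mp S.isPGroup'
        have hn0 : n ≠ 0 := by
          intro h0
          rw [h0, pow_zero] at hn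
          exact hS1 (Subgroup.card_eq_one.mp hn)
        rw [hn]
        exact dvd_pow_self r hn0
      exact h1.trans (Subgroup.card_dvd_of_le (hS.trans hDM))
    have h14 := (Cfsg.Agent.S1414.result hG Ms hMs).2.2.2.2 r hr hdvd hrβ
    exact comm_aux ⁅Ms, Ms⁆ h14.1 S hS x hx

example {G : Type u} [Group G] [Finite G] : Cfsg.Agent.H76.NCKill.StComm G := comm

end Cfsg.Agent.H47.NCKill
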