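import Mathlib
import Cfsg.Agent.H76.NCKillDefs
import Cfsg.Agent.S1412
import Cfsg.Agent.H28.NormalRank2

set_option autoImplicit false

/-!
# NCK-NOTDER (helper47, for helper76's kill of configuration (NC), S1353/S1354)

In a nonabelian Sylow `r`-subgroup `S` of `G`, an element `a` whose centralizer in `S` is abelian
with `Ω₁ ≤ A'`, `A'` elementary abelian of order `r²` containing `a`, is not in `S'`.
-/

namespace Cfsg.Agent.H47.NCKill

open Cfsg Subgroup Cfsg.Agent.H76.NCKill
open scoped commutatorElement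

universe u

/-- A group of order `r ^ j`, `j ≤ 2`, is commutative. -/
theorem isMulCommutative_of_card_pow_le_two {X : Type*} [Group X] {r : ℕ} [hr : Fact r.Prime]
    (j : ℕ) (hj : j ≤ 2) (hX : Nat.card X = r ^ j) : IsMulCommutative X := by
  interval_cases j
  · rw [pow_zero] at hX
    haveI : Subsingleton X := (Nat.card_eq_one_iff_unique.mp hX).1
    exact ⟨⟨fun a b => Subsingleton.elim _ _⟩⟩
  · rw [pow_one] at hX
    haveI := isCyclic_of_prime_card hX
    obtain ⟨g, hg⟩ := IsCyclic.exists_generator (α := X)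
    refine ⟨⟨fun a b => ?_⟩⟩
    obtain ⟨m, rfl⟩ := hg a
    obtain ⟨n, rfl⟩ := hg b
    simp only
    rw [← zpow_add, ← zpow_add, add_comm]
  · exact IsPGroup.isMulCommutative_of_card_eq_prime_sq hX

/-- A group of order `r ^ 3` has class at most 2. -/
theorem commutator_le_center_of_card_cube {Q : Type*} [Group Q] {r : ℕ} [hr : Fact r.Prime]
    (hQ : Nat.card Q = r ^ 3) : commutator Q ≤ Subgroup.center Q := by
  have hr' := hr.out
  haveI : Finite Q := Nat.finite_of_card_ne_zero (by rw [hQ]; exact pow_ne_zero _ hr'.ne_zero)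
  obtain ⟨k, hk, hZ⟩ := IsPGroup.card_center_eq_prime_pow hQ (by norm_num)
  rw [← Subgroup.Normal.quotient_commutative_iff_commutator_le]
  have hmul : Nat.card (Q ⧸ Subgroup.center Q) * Nat.card (Subgroup.center Q) = Nat.card Q := by
    rw [← Subgroup.index_eq_card, Subgroup.index_mul_card]
  have hk3 : k ≤ 3 := by
    have h1 : r ^ k ∣ r ^ 3 := by
      rw [← hZ, ← hQ]
      exact Subgroup.card_subgroup_dvd_card _
    exact (Nat.pow_dvd_pow_iff_le_right hr'.one_lt).mp h1
  have hq : Nat.card (Q ⧸ Subgroup.center Q) = r ^ (3 - k) := by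
    rw [hZ, hQ] at hmul
    have h3 : r ^ 3 = r ^ (3 - k) * r ^ k := by
      rw [← pow_add]
      congr 1
      omega
    rw [h3] at hmul
    exact Nat.eq_of_mul_eq_mul_right (pow_pos hr'.pos k) hmul
  exact isMulCommutative_of_card_pow_le_two (3 - k) (by omega) hq

/-- In a finite `r`-group the commutators centralize every element whose conjugacy class has
fewer than `r ^ 2` elements. -/
theorem comm_of_small_class {T : Type*} [Group T] [Finite T] {r : ℕ} [hr : Fact r.Prime]
    (hT : IsPGroup r T) (b : T) (hb : (MulAction.orbit (ConjAct T) b).ncard < r ^ 2)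
    (x y : T) : ⁅x, y⁆ * b = b * ⁅x, y⁆ := by
  have hr' := hr.out
  haveI : Finite (ConjAct T) := ‹Finite T›
  have hcard : Nat.card (ConjAct T) = Nat.card T := rfl
  obtain ⟨n, hn⟩ := IsPGroup.iff_card.mp hT
  set H : Subgroup (ConjAct T) := MulAction.stabilizer (ConjAct T) b with hH
  have hidx : H.index = (MulAction.orbit (ConjAct T) b).ncard := MulAction.index_stabilizer _ _
  have hdvd : H.index ∣ r ^ n := by
    rw [← hn, ← hcard]
    exact Subgroup.index_dvd_card H
  obtain ⟨j, hjn, hj⟩ := (Nat.dvd_prime_pow hr').mp hdvd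
  have hj1 : j ≤ 1 := by
    have h1 : r ^ j < r ^ 2 := by rw [← hj, hidx]; exact hb
    have := (Nat.pow_lt_pow_iff_right hr'.one_lt).mp h1
    omega
  have hle : commutator (ConjAct T) ≤ H := by
    interval_cases j
    · rw [pow_zero] at hj
      rw [Subgroup.index_eq_one.mp hj]
      exact le_top
    · rw [pow_one] at hj
      have hn0 : n ≠ 0 := by omega
      have hmin : H.index = (Nat.card (ConjAct T)).minFac := by
        rw [hcard, hn, Nat.pow_minFac hn0, hj, Nat.Prime.minFac_eq hr']
      haveI : H.Normal := Subgroup.normal_of_index_eq_minFac_card hmin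
      rw [← Subgroup.Normal.quotient_commutative_iff_commutator_le]
      have hq : Nat.card (ConjAct T ⧸ H) = r ^ 1 := by
        rw [pow_one, ← hj, Subgroup.index_eq_card]
      exact isMulCommutative_of_card_pow_le_two 1 (by omega) hq
  have hmem : ⁅ConjAct.toConjAct x, ConjAct.toConjAct y⁆ ∈ H := by
    apply hle
    rw [_root_.commutator_def]
    exact Subgroup.commutator_mem_commutator (Subgroup.mem_top _) (Subgroup.mem_top _)
  rw [hH, MulAction.mem_stabilizer_iff, ConjAct.smul_def, map_commutatorElement,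
    ConjAct.ofConjAct_toConjAct, ConjAct.ofConjAct_toConjAct, mul_inv_eq_iff_eq_mul] at hmem
  exact hmem

variable {G : Type u} [Group G]

/-- **NCK-NOTDER.** -/
theorem notDer [Finite G] (h : StRk2 G) : StNotDer G := by
  intro hG r hrF S a A' hnc haA' hA'S hA'el hA'card hTc hΩ haS'
  have hr : r.Prime := hrF.out
  -- commutativity inside `T = C_S(a)`
  have hTcomm : ∀ x ∈ (S : Subgroup G), x * a = a * x → ∀ y ∈ (S : Subgroup G), y * a = a * y →
      x * y = y * x := by
    intro x hx hxa y hy hya
    have hxT : x ∈ (S : Subgroup G) ⊓ centralizer ({a} : Set G) := by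
      refine Subgroup.mem_inf.mpr ⟨hx, ?_⟩
      rw [Subgroup.mem_centralizer_iff]
      intro z hz
      rw [Set.mem_singleton_iff] at hz
      rw [hz]
      exact hxa.symm
    have hyT : y ∈ (S : Subgroup G) ⊓ centralizer ({a} : Set G) := by
      refine Subgroup.mem_inf.mpr ⟨hy, ?_⟩
      rw [Subgroup.mem_centralizer_iff]
      intro z hz
      rw [Set.mem_singleton_iff] at hz
      rw [hz]
      exact hya.symm
    exact congrArg Subtype.val (hTc.1.1 ⟨x, hxT⟩ ⟨y, hyT⟩)
  by_cases hrk : PRankLE r 2 ↥(S : Subgroup G)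
  · -- rank ≤ 2: `S = P₁ ∘ P₂`, so `S' ≤ Z(S)`
    rcases Cfsg.Agent.S1412.result hG r S hrk with hc | ⟨P₁, P₂, hsup, hc12, hP₁nc, hP₁card, -, hcyc, -⟩
    · exact hnc hc
    · apply hnc
      have hP₁S : P₁ ≤ (S : Subgroup G) := hsup ▸ le_sup_left
      have hP₂S : P₂ ≤ (S : Subgroup G) := hsup ▸ le_sup_right
      -- `P₂` is commutative
      have hP₂c : ∀ y ∈ P₂, ∀ y' ∈ P₂, y * y' = y' * y := by
        intro y hy y' hy'
        haveI := hcyc
        obtain ⟨g, hg⟩ := IsCyclic.exists_generator (α := P₂)
        obtain ⟨m, hm⟩ := hg ⟨y, hy⟩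
        obtain ⟨n, hn⟩ := hg ⟨y', hy'⟩
        have h1 : (⟨y, hy⟩ : P₂) * ⟨y', hy'⟩ = ⟨y', hy'⟩ * ⟨y, hy⟩ := by
          rw [← hm, ← hn]
          simp only
          rw [← zpow_add, ← zpow_add, add_comm]
        exact congrArg Subtype.val h1
      -- elements commuting with `P₁` and `P₂` are central in `S`
      have hcent : ∀ z : G, (∀ x ∈ P₁, x * z = z * x) → (∀ y ∈ P₂, y * z = z * y) →
          ∀ s ∈ (S : Subgroup G), s * z = z * s := by
        intro z h1 h2 s hs
        have hle : P₁ ⊔ P₂ ≤ centralizer ({z} : Set G) := by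
          refine sup_le ?_ ?_
          · intro x hx
            rw [Subgroup.mem_centralizer_iff]
            intro w hw
            rw [Set.mem_singleton_iff] at hw
            rw [hw]
            exact (h1 x hx).symm
          · intro y hy
            rw [Subgroup.mem_centralizer_iff]
            intro w hw
            rw [Set.mem_singleton_iff] at hw
            rw [hw]
            exact (h2 y hy).symm
        have hs' : s ∈ centralizer ({z} : Set G) := hle (hsup ▸ hs)
        rw [Subgroup.mem_centralizer_iff] at hs'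
        exact (hs' z rfl).symm
      -- `P₂ ≤ Z(S)`
      have hP₂Z : ∀ y ∈ P₂, ∀ s ∈ (S : Subgroup G), s * y = y * s := by
        intro y hy
        exact hcent y (fun x hx => hc12 x hx y hy) (fun y' hy' => hP₂c y' hy' y hy)
      -- commutators of `P₁` are central in `S`
      have hP₁Z : ∀ x ∈ P₁, ∀ x' ∈ P₁, ∀ s ∈ (S : Subgroup G),
          s * (x * x' * x⁻¹ * x'⁻¹) = (x * x' * x⁻¹ * x'⁻¹) * s := by
        intro x hx x' hx'
        have hcm : x * x' * x⁻¹ * x'⁻¹ ∈ P₁ :=
          mul_mem (mul_mem (mul_mem hx hx') (inv_mem hx)) (inv_mem hx')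
        apply hcent
        · intro w hw
          have h1 := commutator_le_center_of_card_cube (Q := ↥P₁) hP₁card
          have h2 : ⁅(⟨x, hx⟩ : P₁), (⟨x', hx'⟩ : P₁)⁆ ∈ commutator ↥P₁ := by
            rw [_root_.commutator_def]
            exact Subgroup.commutator_mem_commutator (Subgroup.mem_top _) (Subgroup.mem_top _)
          have h3 := Subgroup.mem_center_iff.mp (h1 h2) ⟨w, hw⟩
          have h4 := congrArg Subtype.val h3
          simpa [commutatorElement_def] using h4
        · intro y hy
          exact (hc12 _ hcm y hy).symm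
      -- decomposition of the elements of `S`
      have hdec : ∀ s ∈ (S : Subgroup G), ∃ x ∈ P₁, ∃ y ∈ P₂, s = x * y := by
        let D : Subgroup G :=
          { carrier := {s | ∃ x ∈ P₁, ∃ y ∈ P₂, s = x * y}
            one_mem' := ⟨1, one_mem _, 1, one_mem _, (mul_one 1).symm⟩
            mul_mem' := by
              rintro _ _ ⟨x, hx, y, hy, rfl⟩ ⟨x', hx', y', hy', rfl⟩
              refine ⟨x * x', mul_mem hx hx', y * y', mul_mem hy hy', ?_⟩
              have e := hc12 x' hx' y hy
              calc x * y * (x' * y') = x * (y * x') * y' := by group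
                _ = x * (x' * y) * y' := by rw [e]
                _ = x * x' * (y * y') := by group
            inv_mem' := by
              rintro _ ⟨x, hx, y, hy, rfl⟩
              refine ⟨x⁻¹, inv_mem hx, y⁻¹, inv_mem hy, ?_⟩
              have e := hc12 x⁻¹ (inv_mem hx) y⁻¹ (inv_mem hy)
              rw [mul_inv_rev, e] }
        have hle : P₁ ⊔ P₂ ≤ D := by
          refine sup_le ?_ ?_
          · intro x hx
            exact ⟨x, hx, 1, one_mem _, (mul_one x).symm⟩
          · intro y hy
            exact ⟨1, one_mem _, y, hy, (one_mul y).symm⟩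
        intro s hs
        exact hle (hsup ▸ hs)
      -- `S' ≤ Z(S)`
      have hS'Z : ⁅(S : Subgroup G), (S : Subgroup G)⁆ ≤ centralizer ((S : Subgroup G) : Set G) := by
        rw [Subgroup.commutator_le]
        intro g₁ hg₁ g₂ hg₂
        obtain ⟨x, hx, y, hy, rfl⟩ := hdec g₁ hg₁
        obtain ⟨x', hx', y', hy', rfl⟩ := hdec g₂ hg₂
        have e1 : y * (x' * y') * y⁻¹ = x' * y' := by
          rw [mul_inv_eq_iff_eq_mul]
          exact (hP₂Z y hy _ hg₂).symm
        have e2 : x * y' * x⁻¹ = y' := by
          rw [mul_inv_eq_iff_eq_mul]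
          exact hc12 x hx y' hy'
        have e : ⁅x * y, x' * y'⁆ = x * x' * x⁻¹ * x'⁻¹ := by
          calc ⁅x * y, x' * y'⁆ = x * (y * (x' * y') * y⁻¹) * x⁻¹ * (x' * y')⁻¹ := by
                rw [commutatorElement_def]; group
            _ = x * (x' * y') * x⁻¹ * (x' * y')⁻¹ := by rw [e1]
            _ = x * x' * x⁻¹ * (x * y' * x⁻¹) * (x' * y')⁻¹ := by group
            _ = x * x' * x⁻¹ * y' * (x' * y')⁻¹ := by rw [e2]
            _ = x * x' * x⁻¹ * x'⁻¹ := by group
        rw [e, Subgroup.mem_centralizer_iff]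
        intro s hs
        exact hP₁Z x hx x' hx' s hs
      have haZ := hS'Z haS'
      rw [Subgroup.mem_centralizer_iff] at haZ
      refine ⟨⟨fun x y => Subtype.ext ?_⟩⟩
      exact hTcomm x.1 x.2 (haZ x.1 x.2) y.1 y.2 (haZ y.1 y.2)
  · -- rank > 2: a normal elementary abelian `B` of order `r²`, centralized by `S'`
    haveI := hrF
    obtain ⟨U, hUn, hUel, hUc⟩ :=
      Cfsg.Agent.H28.exists_normal_elemAb_sq (P := ↥(S : Subgroup G)) r S.isPGroup' hrk
    apply hrk
    -- commutators of `S` centralize `U`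
    have hcomU : ∀ g₁ ∈ (S : Subgroup G), ∀ g₂ ∈ (S : Subgroup G), ∀ u ∈ U,
        ⁅g₁, g₂⁆ * (u : G) = (u : G) * ⁅g₁, g₂⁆ := by
      intro g₁ hg₁ g₂ hg₂ u hu
      by_cases hu1 : u = 1
      · rw [hu1]
        simp
      have hsub : MulAction.orbit (ConjAct ↥(S : Subgroup G)) u ⊆ ((U : Set ↥(S : Subgroup G)) \ {1}) := by
        rintro _ ⟨g, rfl⟩
        refine ⟨?_, ?_⟩
        · show g • u ∈ U
          rw [ConjAct.smul_def]
          exact hUn.conj_mem u hu _
        · rw [Set.mem_singleton_iff]
          show ¬ (g • u = 1)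
          rw [ConjAct.smul_def]
          intro h1
          apply hu1
          have : u = (ConjAct.ofConjAct g)⁻¹ * (ConjAct.ofConjAct g * u * (ConjAct.ofConjAct g)⁻¹) *
              ConjAct.ofConjAct g := by group
          rw [this, h1]
          group
      have hlt : (MulAction.orbit (ConjAct ↥(S : Subgroup G)) u).ncard < r ^ 2 := by
        have h1 : (MulAction.orbit (ConjAct ↥(S : Subgroup G)) u).ncard ≤
            ((U : Set ↥(S : Subgroup G)) \ {1}).ncard := Set.ncard_le_ncard hsub (Set.toFinite _)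
        have h2 : ((U : Set ↥(S : Subgroup G)) \ {1}).ncard = (U : Set ↥(S : Subgroup G)).ncard - 1 :=
          Set.ncard_sdiff_singleton_of_mem (one_mem _)
        have h3 : (U : Set ↥(S : Subgroup G)).ncard = r ^ 2 := by
          rw [← hUc]
          exact (Nat.card_coe_set_eq _).symm
        have h4 : 0 < r ^ 2 := pow_pos hr.pos 2
        omega
      have h5 := comm_of_small_class S.isPGroup' u hlt ⟨g₁, hg₁⟩ ⟨g₂, hg₂⟩
      have h6 := congrArg Subtype.val h5
      simpa [commutatorElement_def] using h6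
    -- `a` centralizes `U`
    have haU : ∀ u ∈ U, a * (u : G) = (u : G) * a := by
      intro u hu
      have hle : ⁅(S : Subgroup G), (S : Subgroup G)⁆ ≤ centralizer ({(u : G)} : Set G) := by
        rw [Subgroup.commutator_le]
        intro g₁ hg₁ g₂ hg₂
        rw [Subgroup.mem_centralizer_iff]
        intro w hw
        rw [Set.mem_singleton_iff] at hw
        rw [hw]
        exact (hcomU g₁ hg₁ g₂ hg₂ u hu).symm
      have h1 := hle haS'
      rw [Subgroup.mem_centralizer_iff] at h1
      exact (h1 _ rfl).symm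
    -- `B := U ≤ A'`, hence `B = A'`
    let B : Subgroup G := U.map (S : Subgroup G).subtype
    have hBA' : B ≤ A' := by
      rintro _ ⟨u, hu, rfl⟩
      apply hΩ
      · refine Subgroup.mem_inf.mpr ⟨u.2, ?_⟩
        rw [Subgroup.mem_centralizer_iff]
        intro w hw
        rw [Set.mem_singleton_iff] at hw
        rw [hw]
        exact haU u hu
      · have h1 := hUel.2 u hu
        have h2 := congrArg Subtype.val h1
        simpa using h2
    have hBcard : Nat.card B = r ^ 2 := by
      rw [← hUc]
      exact Nat.card_congr (Subgroup.equivMapOfInjective U _ (Subgroup.subtype_injective _)).symm.toEquiv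
    haveI : Finite A' := inferInstance
    have hBeq : B = A' := Subgroup.eq_of_le_of_card_ge hBA' (by rw [hBcard, hA'card])
    have hSN : (S : Subgroup G) ≤ normalizer (A' : Set G) := by
      intro s hs
      rw [← hBeq]
      have key : ∀ t ∈ (S : Subgroup G), ∀ b ∈ B, t * b * t⁻¹ ∈ B := by
        rintro t ht _ ⟨u, hu, rfl⟩
        exact ⟨⟨t, ht⟩ * u * ⟨t, ht⟩⁻¹, hUn.conj_mem u hu _, rfl⟩
      rw [Subgroup.mem_normalizer_iff]
      intro b
      constructor
      · intro hb
        exact key s hs b hb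
      · intro hb
        have h1 := key s⁻¹ (inv_mem hs) _ hb
        have h2 : s⁻¹ * (s * b * s⁻¹) * s⁻¹⁻¹ = b := by group
        rwa [h2] at h1
    exact h r S a A' haA' hA'S hA'card hSN hTc hΩ

example {G : Type u} [Group G] [Finite G] (h : Cfsg.Agent.H76.NCKill.StRk2 G) :
    Cfsg.Agent.H76.NCKill.StNotDer G := notDer h

end Cfsg.Agent.H47.NCKill
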