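import Mathlib
import Cfsg.Agent.H47.OffenderFix
import Cfsg.Agent.H14.TFail
import Cfsg.Agent.H14.WNormal

/-!
# Coprime operators on a `p`-solvable group in which the Thompson factorization fails

A group `X` acts by automorphisms on `K`; we transport the action to the holomorph of
`V = ⟨Ω₁(Z(S)) | S ∈ Syl_p(K)⟩`, where the image `H` of `J(K)` is a direct product of copies of
`SL₂(p)` (structure theorem), and apply the fixed-point results of `OffenderFix.lean`.
-/

set_option autoImplicit false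

namespace Cfsg.Agent.H47.Op

open Cfsg
open scoped commutatorElement
open Cfsg.Agent.H14.Holo

universe u v

variable {K : Type u} [Group K] {X : Type v} [Group X]

/-- The fixed points of an action by automorphisms. -/
def fix (c : X →* MulAut K) : Subgroup K where
  carrier := {k | ∀ x, c x k = k}
  mul_mem' := fun {a b} ha hb x => by
    have h1 : c x a = a := ha x
    have h2 : c x b = b := hb x
    rw [map_mul, h1, h2]
  one_mem' := fun x => map_one _
  inv_mem' := fun {a} ha x => by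
    have h1 : c x a = a := ha x
    rw [map_inv, h1]

theorem mem_fix {c : X →* MulAut K} {k : K} : k ∈ fix c ↔ ∀ x, c x k = k := Iff.rfl

/-- The action induced on an invariant subgroup. -/
def resAut (c : X →* MulAut K) (V : Subgroup K) (hV : ∀ x, ∀ v ∈ V, c x v ∈ V) :
    X →* MulAut ↥V where
  toFun x :=
    { toFun := fun v => ⟨c x v, hV x v v.2⟩
      invFun := fun v => ⟨c x⁻¹ v, hV x⁻¹ v v.2⟩
      left_inv := fun v => Subtype.ext (by
        show c x⁻¹ (c x v) = v
        rw [map_inv]; simp)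
      right_inv := fun v => Subtype.ext (by
        show c x (c x⁻¹ v) = v
        rw [map_inv]; simp)
      map_mul' := fun a b => Subtype.ext (map_mul (c x) (a : K) (b : K)) }
  map_one' := by
    ext v
    show c 1 (v : K) = v
    rw [map_one]; rfl
  map_mul' := fun x y => by
    ext v
    show c (x * y) (v : K) = c x (c y (v : K))
    rw [map_mul]; rfl

theorem resAut_apply (c : X →* MulAut K) (V : Subgroup K) (hV : ∀ x, ∀ v ∈ V, c x v ∈ V)
    (x : X) (v : ↥V) : ((resAut c V hV x v : ↥V) : K) = c x v := rfl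

/-- The map of the operator group to the holomorph of an invariant subgroup. -/
def theta (c : X →* MulAut K) (V : Subgroup K) (hV : ∀ x, ∀ v ∈ V, c x v ∈ V) : X →* Hol V :=
  SemidirectProduct.inr.comp (resAut c V hV)

theorem theta_conj_inl (c : X →* MulAut K) (V : Subgroup K) (hV : ∀ x, ∀ v ∈ V, c x v ∈ V)
    (x : X) (v : ↥V) :
    theta c V hV x * SemidirectProduct.inl v * (theta c V hV x)⁻¹ =
      SemidirectProduct.inl (resAut c V hV x v) := by
  have h := SemidirectProduct.inl_aut (φ := MonoidHom.id (MulAut ↥V)) (resAut c V hV x) v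
  rw [MonoidHom.id_apply] at h
  rw [h]
  simp [theta]

theorem theta_conj_psi (c : X →* MulAut K) (V : Subgroup K) [V.Normal]
    (hV : ∀ x, ∀ v ∈ V, c x v ∈ V) (x : X) (k : K) :
    theta c V hV x * psi V k * (theta c V hV x)⁻¹ = psi V (c x k) := by
  have h1 : resAut c V hV x * (MulAut.conjNormal k : MulAut ↥V) =
      (MulAut.conjNormal (c x k) : MulAut ↥V) * resAut c V hV x := by
    ext v
    rw [MulAut.mul_apply, MulAut.mul_apply, resAut_apply, MulAut.conjNormal_apply,
      MulAut.conjNormal_apply, resAut_apply, map_mul, map_mul, map_inv]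
  have h2 : theta c V hV x * psi V k = psi V (c x k) * theta c V hV x := by
    show SemidirectProduct.inr (resAut c V hV x) * SemidirectProduct.inr (MulAut.conjNormal k) =
      SemidirectProduct.inr (MulAut.conjNormal (c x k)) * SemidirectProduct.inr (resAut c V hV x)
    rw [← map_mul, ← map_mul, h1]
  rw [h2, mul_inv_cancel_right]

theorem psi_comm_inl_iff (V : Subgroup K) [V.Normal] (k : K) (v : ↥V) :
    (SemidirectProduct.inl v : Hol V) * psi V k = psi V k * SemidirectProduct.inl v ↔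
      (v : K) * k = k * (v : K) := by
  have h := psi_conj V k v
  constructor
  · intro h1
    have h2 : psi V k * SemidirectProduct.inl v * (psi V k)⁻¹ = SemidirectProduct.inl v := by
      rw [← h1, mul_inv_cancel_right]
    rw [h] at h2
    have h3 := congrArg Subtype.val (SemidirectProduct.inl_injective h2)
    rw [MulAut.conjNormal_apply] at h3
    calc (v : K) * k = (k * (v : K) * k⁻¹) * k := by rw [h3]
      _ = k * (v : K) := by group
  · intro h1
    have h2 : (MulAut.conjNormal k : MulAut ↥V) v = v := by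
      apply Subtype.ext
      rw [MulAut.conjNormal_apply, ← h1]; group
    rw [h2] at h
    calc (SemidirectProduct.inl v : Hol V) * psi V k
        = (psi V k * SemidirectProduct.inl v * (psi V k)⁻¹) * psi V k := by rw [h]
      _ = psi V k * SemidirectProduct.inl v := by group

theorem theta_comm_inl_iff (c : X →* MulAut K) (V : Subgroup K) (hV : ∀ x, ∀ v ∈ V, c x v ∈ V)
    (x : X) (v : ↥V) :
    (SemidirectProduct.inl v : Hol V) * theta c V hV x = theta c V hV x * SemidirectProduct.inl v ↔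
      c x (v : K) = v := by
  have h := theta_conj_inl c V hV x v
  constructor
  · intro h1
    have h2 : theta c V hV x * SemidirectProduct.inl v * (theta c V hV x)⁻¹ =
        SemidirectProduct.inl v := by
      rw [← h1, mul_inv_cancel_right]
    rw [h] at h2
    exact congrArg Subtype.val (SemidirectProduct.inl_injective h2)
  · intro h1
    have h2 : resAut c V hV x v = v := Subtype.ext h1
    rw [h2] at h
    calc (SemidirectProduct.inl v : Hol V) * theta c V hV x
        = (theta c V hV x * SemidirectProduct.inl v * (theta c V hV x)⁻¹) * theta c V hV x := by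
          rw [h]
      _ = theta c V hV x * SemidirectProduct.inl v := by group

/-- The internal projection of `H = E × K₁` onto `E`. -/
theorem exists_proj {G : Type*} [Group G] {E K₁ H : Subgroup G} (hcomm : ⁅E, K₁⁆ = ⊥)
    (hinf : E ⊓ K₁ = ⊥) (hsup : E ⊔ K₁ = H) :
    ∃ π : ↥H →* ↥E,
      (∀ (e k : G) (he : e ∈ E) (_ : k ∈ K₁) (h : e * k ∈ H), π ⟨e * k, h⟩ = ⟨e, he⟩) ∧
      (∀ h : ↥H, π h = 1 ↔ (h : G) ∈ K₁) := by
  have hc : ∀ e ∈ E, ∀ k ∈ K₁, e * k = k * e := fun e he k hk =>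
    ((Subgroup.mem_centralizer_iff.mp
      (Subgroup.commutator_eq_bot_iff_le_centralizer.mp hcomm he)) k hk).symm
  have hex : ∀ h : ↥H, ∃ e ∈ E, ∃ k ∈ K₁, e * k = (h : G) := fun h =>
    Off.exists_mul_of_mem_sup hc (hsup ▸ h.2)
  have huniq : ∀ e ∈ E, ∀ k ∈ K₁, ∀ e' ∈ E, ∀ k' ∈ K₁, e * k = e' * k' → e = e' := by
    intro e he k hk e' he' k' hk' h
    have h1 : e'⁻¹ * e = k' * k⁻¹ := by
      calc e'⁻¹ * e = e'⁻¹ * (e * k) * k⁻¹ := by group
        _ = e'⁻¹ * (e' * k') * k⁻¹ := by rw [h]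
        _ = k' * k⁻¹ := by group
    have h2 : e'⁻¹ * e ∈ E ⊓ K₁ :=
      Subgroup.mem_inf.mpr ⟨E.mul_mem (E.inv_mem he') he, h1 ▸ K₁.mul_mem hk' (K₁.inv_mem hk)⟩
    rw [hinf, Subgroup.mem_bot] at h2
    exact (inv_mul_eq_one.mp h2).symm
  choose ef hef kf hkf hefk using hex
  have hmul : ∀ a b : ↥H, ef (a * b) = ef a * ef b := by
    intro a b
    apply huniq _ (hef _) _ (hkf _) _ (E.mul_mem (hef a) (hef b)) _ (K₁.mul_mem (hkf a) (hkf b))
    rw [hefk]
    have := hc (ef b) (hef b) (kf a) (hkf a)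
    calc ((a * b : ↥H) : G) = (ef a * kf a) * (ef b * kf b) := by rw [hefk, hefk]; rfl
      _ = ef a * (kf a * ef b) * kf b := by group
      _ = ef a * (ef b * kf a) * kf b := by rw [← this]
      _ = ef a * ef b * (kf a * kf b) := by group
  refine ⟨MonoidHom.mk' (fun h => ⟨ef h, hef h⟩) (fun a b => Subtype.ext (hmul a b)), ?_, ?_⟩
  · intro e k he hk h
    apply Subtype.ext
    show ef ⟨e * k, h⟩ = e
    exact huniq _ (hef _) _ (hkf _) e he k hk (hefk _)
  · intro h
    constructor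
    · intro h1
      have h2 : ef h = 1 := congrArg Subtype.val h1
      have h3 := hefk h
      rw [h2, one_mul] at h3
      rw [← h3]; exact hkf h
    · intro h1
      apply Subtype.ext
      show ef h = 1
      exact huniq _ (hef _) _ (hkf _) 1 E.one_mem (h : G) h1 (by rw [hefk, one_mul])

/-- Coprime lifting of fixed points through a homomorphism. -/
theorem exists_fixed_lift [Finite K] {q : ℕ} [Fact q.Prime] (c : X →* MulAut K)
    (hXq : IsPGroup q X) (hq : ¬ q ∣ Nat.card K) {T : Type*} [Group T] (f : K →* T) (d : T)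
    (hd : d ∈ f.range) (hinv : ∀ x k, f k = d → f (c x k) = d) :
    ∃ k ∈ fix c, f k = d := by
  obtain ⟨k₀, hk₀⟩ := hd
  letI act : MulAction X {k : K // f k = d} :=
    { smul := fun x k => ⟨c x k.1, hinv x k.1 k.2⟩
      one_smul := fun k => Subtype.ext (by
        show c 1 k.1 = k.1
        rw [map_one]; rfl)
      mul_smul := fun x y k => Subtype.ext (by
        show c (x * y) k.1 = c x (c y k.1)
        rw [map_mul]; rfl) }
  have hcard : Nat.card {k : K // f k = d} = Nat.card f.ker := by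
    apply Nat.card_congr
    refine ⟨fun k => ⟨k₀⁻¹ * k.1, ?_⟩, fun z => ⟨k₀ * z.1, ?_⟩, fun k => ?_, fun z => ?_⟩
    · rw [MonoidHom.mem_ker, map_mul, map_inv, hk₀, k.2, inv_mul_cancel]
    · rw [map_mul, hk₀, MonoidHom.mem_ker.mp z.2, mul_one]
    · apply Subtype.ext
      show k₀ * (k₀⁻¹ * k.1) = k.1
      group
    · apply Subtype.ext
      show k₀⁻¹ * (k₀ * z.1) = z.1
      group
  have hnd : ¬ q ∣ Nat.card {k : K // f k = d} := by
    rw [hcard]
    exact fun h => hq (h.trans (Subgroup.card_subgroup_dvd_card _))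
  obtain ⟨k, hk⟩ := hXq.nonempty_fixed_point_of_prime_not_dvd_card {k : K // f k = d} hnd
  refine ⟨k.1, fun x => ?_, k.2⟩
  exact congrArg Subtype.val (hk x)

section Setting

variable [Finite K] {p : ℕ} [Fact p.Prime]

/-- `V = ⟨Ω₁(Z(S))⟩` is invariant under automorphisms. -/
theorem sylowCenterV_map_le (η : K ≃* K) :
    (Cfsg.Agent.H14.sylowCenterV p K).map η.toMonoidHom ≤ Cfsg.Agent.H14.sylowCenterV p K := by
  unfold Cfsg.Agent.H14.sylowCenterV
  rw [Subgroup.map_iSup]
  apply iSup_le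
  intro S
  rw [Cfsg.Agent.H14.omegaOne_center_map p η.toMonoidHom (S : Subgroup K)
    (fun x _ hx => η.injective (by rw [map_one]; exact hx))]
  have h : ((S.mapSurjective (f := η.toMonoidHom) η.surjective : Sylow p K) : Subgroup K) =
      (S : Subgroup K).map η.toMonoidHom := rfl
  rw [← h]
  exact le_iSup (fun S : Sylow p K => Cfsg.omegaOne p ((S : Subgroup K) ⊓
    Subgroup.centralizer ((S : Subgroup K) : Set K))) _

/-- The facts about the image `H` of `J(K)` in the holomorph of `V` (after helper14). -/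
theorem facts (hsep : IsPSolvable p K) (hO : pPrimeCore p K = ⊥)
    (V : Subgroup K) [V.Normal] (hVdef : V = Cfsg.Agent.H14.sylowCenterV p K) :
    IsElementaryAbelian p (Vh V) ∧
    (thompsonSubgroup p K).map (psi V) ≤
        Subgroup.normalizer ((Vh V : Subgroup (Hol V)) : Set (Hol V)) ∧
    (thompsonSubgroup p K).map (psi V) ⊓
        Subgroup.centralizer ((Vh V : Subgroup (Hol V)) : Set (Hol V)) = ⊥ ∧
    Subgroup.centralizer (pPrimeCore p ↥((thompsonSubgroup p K).map (psi V)) :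
          Set ↥((thompsonSubgroup p K).map (psi V))) ≤
        pPrimeCore p ↥((thompsonSubgroup p K).map (psi V)) ∧
    (thompsonSubgroup p K).map (psi V) = ⨆ A : {A : Subgroup (Hol V) //
        A ≤ (thompsonSubgroup p K).map (psi V) ∧ IsBestOffenderOn p (Vh V) A},
          (A : Subgroup (Hol V)) := by
  have hV : IsElementaryAbelian p V := by rw [hVdef]; exact sylowCenterV_elemAb hsep hO
  have hO' := pCore_quotient_eq_bot (p := p) V hVdef
  haveI hJn := thompsonSubgroup_normal p K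
  have hV' := Vh_elemAb V hV
  have hHV : (thompsonSubgroup p K).map (psi V) ≤
      Subgroup.normalizer ((Vh V : Subgroup (Hol V)) : Set (Hol V)) := by
    haveI := Vh_normal V
    rw [Subgroup.normalizer_eq_top]
    exact le_top
  have hHR : (thompsonSubgroup p K).map (psi V) ≤ (psi V).range := by
    rintro _ ⟨j, -, rfl⟩
    exact ⟨j, rfl⟩
  have hf : (thompsonSubgroup p K).map (psi V) ⊓
      Subgroup.centralizer ((Vh V : Subgroup (Hol V)) : Set (Hol V)) = ⊥ := by
    rw [eq_bot_iff, ← range_faithful V]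
    exact inf_le_inf_right _ hHR
  have hnorm : (psi V).range ≤
      Subgroup.normalizer (((thompsonSubgroup p K).map (psi V) : Subgroup (Hol V)) :
        Set (Hol V)) := by
    rintro _ ⟨g, rfl⟩
    rw [Subgroup.mem_normalizer_iff]
    intro h
    constructor
    · rintro ⟨j, hj, rfl⟩
      refine ⟨g * j * g⁻¹, hJn.conj_mem j hj g, ?_⟩
      simp
    · rintro ⟨j, hj, hjh⟩
      refine ⟨g⁻¹ * j * g, ?_, ?_⟩
      · have := hJn.conj_mem j hj g⁻¹
        simpa using this
      · rw [map_mul, map_mul, hjh, map_inv]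
        group
  have hS1 := hS1_of_normal (p := p) (psi V).range ((thompsonSubgroup p K).map (psi V)) hHR hnorm
    (range_isPSolvable V hsep) (range_pCore_eq_bot V hO')
  have hS3 : (thompsonSubgroup p K).map (psi V) = ⨆ A : {A : Subgroup (Hol V) //
      A ≤ (thompsonSubgroup p K).map (psi V) ∧ IsBestOffenderOn p (Vh V) A},
        (A : Subgroup (Hol V)) := by
    apply le_antisymm
    · conv_lhs => unfold Cfsg.thompsonSubgroup
      rw [Subgroup.map_le_iff_le_comap]
      apply sSup_le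
      intro A hA
      rw [← Subgroup.map_le_iff_le_comap]
      exact le_iSup (fun A : {A : Subgroup (Hol V) //
        A ≤ (thompsonSubgroup p K).map (psi V) ∧ IsBestOffenderOn p (Vh V) A} =>
          (A : Subgroup (Hol V)))
        ⟨A.map (psi V), Subgroup.map_mono (le_sSup hA), bestOffender_map V hV hA⟩
    · exact iSup_le fun A => A.2.1
  exact ⟨hV', hHV, hf, hS1, hS3⟩

/-- Failure of factorization: the image of `J(K)` is nontrivial. -/
theorem image_ne_bot (hnf : ¬ IsThompsonFactorizable p K)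
    (V : Subgroup K) [V.Normal] (hVdef : V = Cfsg.Agent.H14.sylowCenterV p K) :
    (thompsonSubgroup p K).map (psi V) ≠ ⊥ := by
  intro h
  apply not_thompson_le_centralizer hnf
  rw [← hVdef, ← psi_ker]
  intro j hj
  rw [MonoidHom.mem_ker]
  have : psi V j ∈ (thompsonSubgroup p K).map (psi V) := Subgroup.mem_map_of_mem _ hj
  rw [h, Subgroup.mem_bot] at this
  exact this

/-- The operator group in the holomorph. -/
theorem setup {q : ℕ} [Fact q.Prime] (c : X →* MulAut K) (hXq : IsPGroup q X)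
    (hq : ¬ q ∣ Nat.card K) (V : Subgroup K) [V.Normal]
    (hVdef : V = Cfsg.Agent.H14.sylowCenterV p K) :
    ∃ Y : Subgroup (Hol V),
      Y ≤ Subgroup.normalizer ((Vh V : Subgroup (Hol V)) : Set (Hol V)) ∧
      Y ≤ Subgroup.normalizer (((thompsonSubgroup p K).map (psi V) : Subgroup (Hol V)) :
        Set (Hol V)) ∧
      IsPGroup q Y ∧ (Nat.card ((thompsonSubgroup p K).map (psi V))).Coprime q ∧
      (∀ d ∈ (thompsonSubgroup p K).map (psi V) ⊓ Subgroup.centralizer (Y : Set (Hol V)),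
        ∃ k ∈ fix c, psi V k = d) ∧
      (∀ k ∈ fix c, psi V k ∈ Subgroup.centralizer (Y : Set (Hol V))) ∧
      (∀ v : ↥V, (SemidirectProduct.inl v : Hol V) ∈ Subgroup.centralizer (Y : Set (Hol V)) →
        (v : K) ∈ fix c) := by
  have hVinv : ∀ x, ∀ v ∈ V, c x v ∈ V := by
    intro x v hv
    rw [hVdef] at hv ⊢
    exact sylowCenterV_map_le (p := p) (c x) ⟨v, hv, rfl⟩
  have hq' : q.Prime := Fact.out
  refine ⟨(theta c V hVinv).range, ?_, ?_, ?_, ?_, ?_, ?_, ?_⟩
  · haveI := Vh_normal V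
    rw [Subgroup.normalizer_eq_top]
    exact le_top
  · apply Off.le_normalizer_of_conj_mem
    rintro _ ⟨x, rfl⟩ _ ⟨j, hj, rfl⟩
    rw [theta_conj_psi]
    refine Subgroup.mem_map_of_mem _ ?_
    have h1 : c x j ∈ (thompsonSubgroup p K).map (c x).toMonoidHom := ⟨j, hj, rfl⟩
    rwa [Cfsg.Agent.H14.thompson_map_equiv p (c x)] at h1
  · exact (hXq.of_surjective (theta c V hVinv).rangeRestrict
      (MonoidHom.rangeRestrict_surjective _))
  · have h1 : Nat.card ((thompsonSubgroup p K).map (psi V)) ∣ Nat.card K :=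
      (Subgroup.card_map_dvd _ _).trans (Subgroup.card_subgroup_dvd_card _)
    exact Nat.Coprime.symm ((Nat.Prime.coprime_iff_not_dvd hq').mpr (fun h => hq (h.trans h1)))
  · intro d hd
    obtain ⟨hdH, hdY⟩ := Subgroup.mem_inf.mp hd
    obtain ⟨j, -, hj⟩ := hdH
    apply exists_fixed_lift c hXq hq (psi V) d ⟨j, hj⟩
    intro x k hk
    rw [← theta_conj_psi c V hVinv x k, hk]
    have h2 := (Subgroup.mem_centralizer_iff.mp hdY) (theta c V hVinv x) ⟨x, rfl⟩
    rw [h2, mul_inv_cancel_right]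
  · intro k hk
    rw [Subgroup.mem_centralizer_iff]
    rintro _ ⟨x, rfl⟩
    have h1 := theta_conj_psi c V hVinv x k
    rw [hk x] at h1
    calc theta c V hVinv x * psi V k
        = (theta c V hVinv x * psi V k * (theta c V hVinv x)⁻¹) * theta c V hVinv x := by group
      _ = psi V k * theta c V hVinv x := by rw [h1]
  · intro v hv x
    have h1 := (Subgroup.mem_centralizer_iff.mp hv) (theta c V hVinv x) ⟨x, rfl⟩
    exact (theta_comm_inl_iff c V hVinv x v).mp h1.symm

/-- **Fixed points involve `SL₂(p)`** (abstract form of S0621). -/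
theorem fixed_points_sl2 {q : ℕ} [Fact q.Prime] (c : X →* MulAut K) (hXq : IsPGroup q X)
    (hq : ¬ q ∣ Nat.card K) (hsep : IsPSolvable p K) (hO : pPrimeCore p K = ⊥)
    (hnf : ¬ IsThompsonFactorizable p K) :
    (p = 2 ∨ p = 3) ∧ ∃ W D : Subgroup K, W ≤ fix c ∧ D ≤ fix c ∧
      IsElementaryAbelian p W ∧ Nat.card W = p ^ 2 ∧ D ≤ Subgroup.normalizer (W : Set K) ∧
      ∃ f : ↥D →* Matrix.SpecialLinearGroup (Fin 2) (ZMod p), Function.Surjective f ∧
        ∀ d : ↥D, f d = 1 ↔ (d : K) ∈ Subgroup.centralizer (W : Set K) := by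
  obtain ⟨V, hVdef⟩ : ∃ V : Subgroup K, V = Cfsg.Agent.H14.sylowCenterV p K := ⟨_, rfl⟩
  haveI hVn : V.Normal := by rw [hVdef]; exact Cfsg.Agent.H14.sylowCenterV_normal p K
  have hV : IsElementaryAbelian p V := by rw [hVdef]; exact sylowCenterV_elemAb hsep hO
  obtain ⟨hV', hHV, hf, hS1, hS3⟩ := facts hsep hO V hVdef
  have hH1 := image_ne_bot hnf V hVdef
  obtain ⟨Y, hYV, hYH, hYq, hcop, hlift, hfixC, hfixV⟩ := setup (p := p) c hXq hq V hVdef
  obtain ⟨H, hH⟩ : ∃ H : Subgroup (Hol V), H = (thompsonSubgroup p K).map (psi V) := ⟨_, rfl⟩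
  rw [← hH] at hHV hf hS1 hS3 hH1 hYH hcop hlift
  obtain ⟨A, hA⟩ := Off.exists_isTrans hV' hHV hf hS1 hS3 hH1
  obtain ⟨W_h, hWhle, hWhcard, hDW, hDker, hDsup⟩ :=
    hA.fixed_points hV' hHV hf hS1 hS3 hYV hYH hYq hcop
  obtain ⟨hp23, ⟨φ⟩, -, -, -, h5, h6, h7, -, h9⟩ := hA.structure' hV' hHV hf hS1 hS3
  obtain ⟨E, hE⟩ : ∃ E : Subgroup (Hol V), E = ⁅Off.qc p H, A⁆ ⊔ A := ⟨_, rfl⟩
  rw [← hE] at φ h5 h6 h7 h9 hDker hDsup
  have hEH : E ≤ H := le_sup_left.trans h7.le
  have hHWE : H ≤ Subgroup.normalizer ((⁅Vh V, E⁆ : Subgroup (Hol V)) : Set (Hol V)) :=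
    Off.le_normalizer_commutator_of_le hHV h9
  obtain ⟨K_E, hKE⟩ : ∃ K_E : Subgroup (Hol V),
      K_E = H ⊓ Subgroup.centralizer ((⁅Vh V, E⁆ : Subgroup (Hol V)) : Set (Hol V)) := ⟨_, rfl⟩
  rw [← hKE] at h5 h6 h7 hDsup
  obtain ⟨π, hπ1, hπ2⟩ := exists_proj h5 h6 h7
  obtain ⟨D_h, hDh⟩ : ∃ D_h : Subgroup (Hol V),
      D_h = H ⊓ Subgroup.centralizer (Y : Set (Hol V)) := ⟨_, rfl⟩
  rw [← hDh] at hDW hDker hDsup hlift
  have hDhN : D_h ≤ Subgroup.normalizer ((K_E : Subgroup (Hol V)) : Set (Hol V)) := by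
    rw [hKE, hDh]
    exact Off.le_normalizer_inf_centralizer inf_le_left (inf_le_left.trans hHWE)
  -- the plane and the group
  obtain ⟨W, hW⟩ : ∃ W : Subgroup K, W = (W_h.comap
      (SemidirectProduct.inl : ↥V →* Hol V)).map V.subtype := ⟨_, rfl⟩
  obtain ⟨D, hD⟩ : ∃ D : Subgroup K, D = fix c ⊓ H.comap (psi V) := ⟨_, rfl⟩
  have hmemW : ∀ w : K, w ∈ W ↔ ∃ hw : w ∈ V, (SemidirectProduct.inl ⟨w, hw⟩ : Hol V) ∈ W_h := by
    intro w
    rw [hW]
    constructor
    · rintro ⟨v, hv, rfl⟩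
      exact ⟨v.2, hv⟩
    · rintro ⟨hw, h⟩
      exact ⟨⟨w, hw⟩, h, rfl⟩
  have hWV : W ≤ V := fun w hw => ((hmemW w).mp hw).1
  have hDmem : ∀ d ∈ D, psi V d ∈ D_h := by
    intro d hd
    rw [hD] at hd
    rw [hDh]
    exact Subgroup.mem_inf.mpr ⟨(Subgroup.mem_inf.mp hd).2, hfixC d (Subgroup.mem_inf.mp hd).1⟩
  have hDhH : D_h ≤ H := hDh ▸ inf_le_left
  -- centralizing the plane
  have hcent : ∀ d ∈ D, psi V d ∈ Subgroup.centralizer (W_h : Set (Hol V)) ↔
      d ∈ Subgroup.centralizer (W : Set K) := by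
    intro d hd
    rw [Subgroup.mem_centralizer_iff, Subgroup.mem_centralizer_iff]
    constructor
    · intro h w hw
      obtain ⟨hwV, hwW⟩ := (hmemW w).mp hw
      exact (psi_comm_inl_iff V d ⟨w, hwV⟩).mp (h _ hwW)
    · intro h x hx
      obtain ⟨v, rfl⟩ : x ∈ Vh V := (Subgroup.mem_inf.mp (hWhle hx)).1
      exact (psi_comm_inl_iff V d v).mpr (h v ((hmemW v).mpr ⟨v.2, hx⟩))
  refine ⟨hp23, W, D, ?_, ?_, ?_, ?_, ?_, ?_⟩
  · intro w hw
    obtain ⟨hwV, hwW⟩ := (hmemW w).mp hw
    exact hfixV ⟨w, hwV⟩ (Subgroup.mem_inf.mp (hWhle hwW)).2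
  · rw [hD]; exact inf_le_left
  · exact Cfsg.Agent.H14.elemAb_mono hV hWV
  · rw [hW, Subgroup.card_map_of_injective V.subtype_injective, ← hWhcard]
    have h1 : (W_h.comap (SemidirectProduct.inl : ↥V →* Hol V)).map SemidirectProduct.inl = W_h :=
      Subgroup.map_comap_eq_self (fun x hx => (Subgroup.mem_inf.mp (hWhle hx)).1)
    conv_rhs => rw [← h1]
    exact (Subgroup.card_map_of_injective SemidirectProduct.inl_injective).symm
  · apply Off.le_normalizer_of_conj_mem
    intro d hd w hw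
    obtain ⟨hwV, hwW⟩ := (hmemW w).mp hw
    have h1 : psi V d * SemidirectProduct.inl ⟨w, hwV⟩ * (psi V d)⁻¹ ∈ W_h :=
      (Subgroup.mem_normalizer_iff.mp (hDW (hDmem d hd)) _).mp hwW
    rw [psi_conj] at h1
    have h2 : ((MulAut.conjNormal d : MulAut ↥V) ⟨w, hwV⟩ : K) = d * w * d⁻¹ := by
      rw [MulAut.conjNormal_apply]
    rw [← h2]
    exact (hmemW _).mpr ⟨((MulAut.conjNormal d : MulAut ↥V) ⟨w, hwV⟩).2, h1⟩
  · have hDH : ∀ d : ↥D, psi V (d : K) ∈ H := fun d => hDhH (hDmem d d.2)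
    let g : ↥D →* ↥H := ((psi V).comp D.subtype).codRestrict H hDH
    have hg : ∀ d : ↥D, ((g d : ↥H) : Hol V) = psi V (d : K) := fun d => rfl
    refine ⟨φ.toMonoidHom.comp (π.comp g), ?_, ?_⟩
    · intro s
      obtain ⟨e, he⟩ : ∃ e : ↥E, e = φ.symm s := ⟨_, rfl⟩
      have heH : (e : Hol V) ∈ D_h ⊔ K_E := by rw [hDsup]; exact hEH e.2
      obtain ⟨d_h, hd_h, k, hk, hdk⟩ := Off.exists_mul_of_mem_sup' hDhN heH
      obtain ⟨k₀, hk₀, hk₀d⟩ := hlift d_h hd_h
      have hk₀D : k₀ ∈ D := by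
        rw [hD]
        refine Subgroup.mem_inf.mpr ⟨hk₀, ?_⟩
        show psi V k₀ ∈ H
        rw [hk₀d]; exact hDhH hd_h
      refine ⟨⟨k₀, hk₀D⟩, ?_⟩
      have h1 : d_h = (e : Hol V) * k⁻¹ := by rw [← hdk]; group
      have h2 : (e : Hol V) * k⁻¹ ∈ H := h1 ▸ hDhH hd_h
      have h3 : g ⟨k₀, hk₀D⟩ = ⟨(e : Hol V) * k⁻¹, h2⟩ := by
        apply Subtype.ext
        rw [hg]
        show psi V k₀ = (e : Hol V) * k⁻¹
        rw [hk₀d, h1]
      show φ (π (g ⟨k₀, hk₀D⟩)) = s
      rw [h3, hπ1 (e : Hol V) k⁻¹ e.2 (K_E.inv_mem hk) h2]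
      have h4 : (⟨(e : Hol V), e.2⟩ : ↥E) = e := rfl
      rw [h4, he, MulEquiv.apply_symm_apply]
    · intro d
      have h1 : (φ.toMonoidHom.comp (π.comp g)) d = 1 ↔ π (g d) = 1 := by
        show φ (π (g d)) = 1 ↔ π (g d) = 1
        rw [MulEquiv.map_eq_one_iff]
      rw [h1, hπ2, hg, ← hcent (d : K) d.2]
      have hdD := hDmem (d : K) d.2
      constructor
      · intro h
        have h2 : psi V (d : K) ∈ D_h ⊓
            Subgroup.centralizer ((⁅Vh V, E⁆ : Subgroup (Hol V)) : Set (Hol V)) := by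
          rw [hKE] at h
          exact Subgroup.mem_inf.mpr ⟨hdD, (Subgroup.mem_inf.mp h).2⟩
        rw [← hDker] at h2
        exact (Subgroup.mem_inf.mp h2).2
      · intro h
        have h2 : psi V (d : K) ∈ D_h ⊓ Subgroup.centralizer (W_h : Set (Hol V)) :=
          Subgroup.mem_inf.mpr ⟨hdD, h⟩
        rw [hDker] at h2
        rw [hKE]
        exact Subgroup.mem_inf.mpr ⟨hDhH hdD, (Subgroup.mem_inf.mp h2).2⟩

/-- **Generation by `N(J(S))`, `C(Ω₁(Z(S)))` and the fixed points** (abstract form of S0620). -/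
theorem generation {q : ℕ} [Fact q.Prime] (c : X →* MulAut K) (hXq : IsPGroup q X)
    (hq : ¬ q ∣ Nat.card K) (hsep : IsPSolvable p K) (hO : pPrimeCore p K = ⊥) (S : Sylow p K) :
    Subgroup.normalizer (thompsonSubgroupOf p (S : Subgroup K) : Set K) ⊔
      Subgroup.centralizer (omegaOne p ((S : Subgroup K) ⊓
        Subgroup.centralizer ((S : Subgroup K) : Set K)) : Set K) ⊔ fix c = ⊤ := by
  obtain ⟨M, hM⟩ : ∃ M : Subgroup K, M =
      Subgroup.normalizer (thompsonSubgroupOf p (S : Subgroup K) : Set K) ⊔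
      Subgroup.centralizer (omegaOne p ((S : Subgroup K) ⊓
        Subgroup.centralizer ((S : Subgroup K) : Set K)) : Set K) ⊔ fix c := ⟨_, rfl⟩
  rw [← hM]
  have hNM : Subgroup.normalizer (thompsonSubgroupOf p (S : Subgroup K) : Set K) ≤ M := by
    rw [hM]; exact le_sup_left.trans le_sup_left
  have hCM : Subgroup.centralizer (omegaOne p ((S : Subgroup K) ⊓
      Subgroup.centralizer ((S : Subgroup K) : Set K)) : Set K) ≤ M := by
    rw [hM]; exact le_sup_right.trans le_sup_left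
  have hFM : fix c ≤ M := by rw [hM]; exact le_sup_right
  by_cases hfac : IsThompsonFactorizable p K
  · rw [eq_top_iff]
    intro g _
    obtain ⟨x, hx, c', hc', n, hn, rfl⟩ := hfac S g
    rw [hO, Subgroup.mem_bot] at hx
    rw [hx, one_mul]
    exact M.mul_mem (hCM hc') (hNM hn)
  · obtain ⟨V, hVdef⟩ : ∃ V : Subgroup K, V = Cfsg.Agent.H14.sylowCenterV p K := ⟨_, rfl⟩
    haveI hVn : V.Normal := by rw [hVdef]; exact Cfsg.Agent.H14.sylowCenterV_normal p K
    have hV : IsElementaryAbelian p V := by rw [hVdef]; exact sylowCenterV_elemAb hsep hO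
    obtain ⟨hV', hHV, hf, hS1, hS3⟩ := facts hsep hO V hVdef
    obtain ⟨Y, hYV, hYH, hYq, hcop, hlift, hfixC, hfixV⟩ := setup (p := p) c hXq hq V hVdef
    obtain ⟨H, hH⟩ : ∃ H : Subgroup (Hol V), H = (thompsonSubgroup p K).map (psi V) := ⟨_, rfl⟩
    rw [← hH] at hHV hf hS1 hS3 hYH hcop hlift
    obtain ⟨M_h, hMh⟩ : ∃ M_h : Subgroup (Hol V), M_h = M.map (psi V) := ⟨_, rfl⟩
    have hDM : H ⊓ Subgroup.centralizer (Y : Set (Hol V)) ≤ M_h := by
      intro d hd
      obtain ⟨k, hk, rfl⟩ := hlift d hd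
      rw [hMh]; exact Subgroup.mem_map_of_mem _ (hFM hk)
    haveI hJn := thompsonSubgroup_normal p K
    have hfr := fun g => Cfsg.Agent.H14.frattini_thompson (thompsonSubgroup p K) le_rfl S g
    have hkerM : (psi V).ker ≤ M := by
      rw [psi_ker]
      refine le_trans ?_ hCM
      apply Subgroup.centralizer_le
      rw [hVdef]
      have := le_iSup (fun S : Sylow p K => omegaOne p ((S : Subgroup K) ⊓
        Subgroup.centralizer ((S : Subgroup K) : Set K))) S
      exact_mod_cast this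
    have hex := Cfsg.Agent.H14.exists_maxElAb_le_sylow S
    have key : ∀ A ∈ maxElementaryAbelianSubgroups p K, A.map (psi V) ≤ M_h := by
      intro A hA
      obtain ⟨Q, hQ⟩ := (Cfsg.Agent.H14.elemAb_isPGroup hA.1).exists_le_sylow
      obtain ⟨g, hg⟩ := MulAction.exists_smul_eq K S Q
      obtain ⟨j, hj, n, hn, hgjn⟩ := hfr g
      have hQ' : (Q : Subgroup K) = (S : Subgroup K).map (MulAut.conj g).toMonoidHom := by
        rw [← hg, Cfsg.Agent.H14.sylow_smul_coe]
      obtain ⟨A₁, hA₁⟩ : ∃ A₁ : Subgroup K, A₁ = A.map (MulAut.conj j⁻¹).toMonoidHom := ⟨_, rfl⟩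
      have hA₁max : A₁ ∈ maxElementaryAbelianSubgroups p K := by
        rw [hA₁]; exact Cfsg.Agent.H14.maxElAb_conj j⁻¹ hA
      have hA₁J : A₁ ≤ thompsonSubgroupOf p (S : Subgroup K) := by
        obtain ⟨A₀, hA₀⟩ : ∃ A₀ : Subgroup K, A₀ = A.map (MulAut.conj g⁻¹).toMonoidHom :=
          ⟨_, rfl⟩
        have hA₀max : A₀ ∈ maxElementaryAbelianSubgroups p K := by
          rw [hA₀]; exact Cfsg.Agent.H14.maxElAb_conj g⁻¹ hA
        have hA₀S : A₀ ≤ (S : Subgroup K) := by
          rw [hA₀]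
          rintro _ ⟨a, ha, rfl⟩
          have h1 := hQ ha
          rw [hQ'] at h1
          obtain ⟨s, hs, hsa⟩ := h1
          have hsa' : g * s * g⁻¹ = a := hsa
          show g⁻¹ * a * g⁻¹⁻¹ ∈ (S : Subgroup K)
          have e : g⁻¹ * a * g⁻¹⁻¹ = s := by rw [← hsa']; group
          rw [e]; exact hs
        have hA₀J : A₀ ≤ thompsonSubgroupOf p (S : Subgroup K) := by
          rw [Cfsg.Agent.H14.thompsonSubgroupOf_eq_sSup _ hex]
          exact le_sSup ⟨hA₀max, hA₀S⟩
        rw [hA₁]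
        rintro _ ⟨a, ha, rfl⟩
        show j⁻¹ * a * j⁻¹⁻¹ ∈ thompsonSubgroupOf p (S : Subgroup K)
        have h1 : g⁻¹ * a * g⁻¹⁻¹ ∈ thompsonSubgroupOf p (S : Subgroup K) := by
          apply hA₀J
          rw [hA₀]
          exact ⟨a, ha, rfl⟩
        have h2 := (Subgroup.mem_normalizer_iff.mp hn _).mp h1
        have e : j⁻¹ * a * j⁻¹⁻¹ = n * (g⁻¹ * a * g⁻¹⁻¹) * n⁻¹ := by rw [hgjn]; group
        rw [e]; exact h2
      have hA₁M : A₁ ≤ M := hA₁J.trans (Subgroup.le_normalizer.trans hNM)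
      have hA₁H : A₁.map (psi V) ≤ H := by
        rw [hH]
        apply Subgroup.map_mono
        unfold Cfsg.thompsonSubgroup
        exact le_sSup hA₁max
      have hA₁off : IsBestOffenderOn p (Vh V) (A₁.map (psi V)) := bestOffender_map V hV hA₁max
      have hA₁Mh : A₁.map (psi V) ≤ M_h := by rw [hMh]; exact Subgroup.map_mono hA₁M
      have hjH : psi V j ∈ H := by rw [hH]; exact Subgroup.mem_map_of_mem _ hj
      have hcj := Off.cj_offender_le hV' hHV hf hS1 hS3 hYV hYH hYq hcop hDM hA₁H hA₁off hA₁Mh hjH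
      refine le_trans ?_ hcj
      rintro _ ⟨a, ha, rfl⟩
      have h1 : j⁻¹ * a * j⁻¹⁻¹ ∈ A₁ := by
        rw [hA₁]
        exact ⟨a, ha, rfl⟩
      have e : psi V a = psi V j * psi V (j⁻¹ * a * j⁻¹⁻¹) * (psi V j)⁻¹ := by
        rw [← map_inv, ← map_mul, ← map_mul]
        congr 1
        group
      rw [e]
      exact Off.conj_mem_cj (Subgroup.mem_map_of_mem _ h1)
    have hJM : thompsonSubgroup p K ≤ M := by
      unfold Cfsg.thompsonSubgroup
      apply sSup_le
      intro A hA a ha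
      have h1 := key A hA (Subgroup.mem_map_of_mem _ ha)
      rw [hMh] at h1
      obtain ⟨m, hm, hma⟩ := h1
      have h2 : m⁻¹ * a ∈ (psi V).ker := by
        rw [MonoidHom.mem_ker, map_mul, map_inv, hma, inv_mul_cancel]
      have e : a = m * (m⁻¹ * a) := by group
      rw [e]; exact M.mul_mem hm (hkerM h2)
    rw [eq_top_iff]
    intro g _
    obtain ⟨j, hj, n, hn, rfl⟩ := hfr g
    exact M.mul_mem (hJM hj) (hNM hn)

end Setting

section Conj

variable {G : Type*} [Group G]

/-- The conjugation action of a subgroup `X ≤ N_G(K)` on `K`. -/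
def conjAut (K X : Subgroup G) (h : X ≤ Subgroup.normalizer (K : Set G)) : ↥X →* MulAut ↥K where
  toFun x :=
    { toFun := fun k => ⟨(x : G) * k * (x : G)⁻¹,
        (Subgroup.mem_normalizer_iff.mp (h x.2) k).mp k.2⟩
      invFun := fun k => ⟨(x : G)⁻¹ * k * (x : G), by
        have := (Subgroup.mem_normalizer_iff.mp (h (X.inv_mem x.2)) k).mp k.2
        simpa using this⟩
      left_inv := fun k => Subtype.ext (by
        show (x : G)⁻¹ * ((x : G) * k * (x : G)⁻¹) * (x : G) = k
        group)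
      right_inv := fun k => Subtype.ext (by
        show (x : G) * ((x : G)⁻¹ * k * (x : G)) * (x : G)⁻¹ = k
        group)
      map_mul' := fun a b => Subtype.ext (by
        show (x : G) * ((a : G) * (b : G)) * (x : G)⁻¹ =
          ((x : G) * a * (x : G)⁻¹) * ((x : G) * b * (x : G)⁻¹)
        group) }
  map_one' := by
    ext k
    show ((1 : ↥X) : G) * (k : G) * ((1 : ↥X) : G)⁻¹ = k
    simp
  map_mul' := fun x y => by
    ext k
    show ((x * y : ↥X) : G) * (k : G) * ((x * y : ↥X) : G)⁻¹ =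
      (x : G) * ((y : G) * (k : G) * (y : G)⁻¹) * (x : G)⁻¹
    simp [mul_assoc]

theorem conjAut_apply (K X : Subgroup G) (h : X ≤ Subgroup.normalizer (K : Set G)) (x : ↥X)
    (k : ↥K) : ((conjAut K X h x k : ↥K) : G) = (x : G) * k * (x : G)⁻¹ := rfl

theorem fix_conjAut (K X : Subgroup G) (h : X ≤ Subgroup.normalizer (K : Set G)) :
    fix (conjAut K X h) = (Subgroup.centralizer (X : Set G)).subgroupOf K := by
  ext k
  rw [mem_fix, Subgroup.mem_subgroupOf, Subgroup.mem_centralizer_iff]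
  constructor
  · intro hk x hx
    have h1 := congrArg Subtype.val (hk ⟨x, hx⟩)
    rw [conjAut_apply] at h1
    have h2 : x * (k : G) * x⁻¹ = k := h1
    calc x * (k : G) = (x * (k : G) * x⁻¹) * x := by group
      _ = (k : G) * x := by rw [h2]
  · intro hk x
    apply Subtype.ext
    rw [conjAut_apply, hk x x.2]
    group

theorem map_fix_conjAut_le (K X : Subgroup G) (h : X ≤ Subgroup.normalizer (K : Set G)) :
    (fix (conjAut K X h)).map K.subtype ≤ K ⊓ Subgroup.centralizer (X : Set G) := by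
  rw [fix_conjAut]
  rintro _ ⟨k, hk, rfl⟩
  exact Subgroup.mem_inf.mpr ⟨k.2, Subgroup.mem_subgroupOf.mp hk⟩

theorem mem_centralizer_map_subtype (K : Subgroup G) (W' : Subgroup ↥K) (k : ↥K) :
    (k : G) ∈ Subgroup.centralizer ((W'.map K.subtype : Subgroup G) : Set G) ↔
      k ∈ Subgroup.centralizer (W' : Set ↥K) := by
  rw [Subgroup.mem_centralizer_iff, Subgroup.mem_centralizer_iff]
  constructor
  · intro h w hw
    apply Subtype.ext
    exact h (w : G) ⟨w, hw, rfl⟩
  · rintro h _ ⟨w, hw, rfl⟩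
    exact congrArg Subtype.val (h w hw)

end Conj

end Cfsg.Agent.H47.Op
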