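import Mathlib

set_option autoImplicit false

namespace Cfsg.Agent.H47.SharpTwo

open scoped LinearAlgebra.Projectivization

section gen
variable {F : Type*} [Field F] [Finite F] {V : Type*} [AddCommGroup V] [Module F V] [Finite V]

omit [Finite F] [Finite V] in
/-- The points of a subspace are in bijection with its own projectivization. -/
theorem card_pts_eq (W : Submodule F V) :
    Nat.card {p : ℙ F V // p.submodule ≤ W} = Nat.card (ℙ F W) := by
  symm
  have hmem : ∀ p' : ℙ F W,
      (Projectivization.map W.subtype W.injective_subtype p').submodule ≤ W := by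
    intro p'
    induction p' using Projectivization.ind with
    | h v hv =>
      rw [Projectivization.map_mk, Projectivization.submodule_mk,
        Submodule.span_singleton_le_iff_mem]
      exact v.2
  refine Nat.card_congr (Equiv.ofBijective
    (fun p' => ⟨Projectivization.map W.subtype W.injective_subtype p', hmem p'⟩) ⟨?_, ?_⟩)
  · intro x y hxy
    have h1 := congrArg Subtype.val hxy
    exact Projectivization.map_injective _ W.injective_subtype h1
  · rintro ⟨p, hp⟩
    induction p using Projectivization.ind with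
    | h v hv =>
      rw [Projectivization.submodule_mk, Submodule.span_singleton_le_iff_mem] at hp
      have hv' : (⟨v, hp⟩ : W) ≠ 0 := by
        intro h0
        exact hv (congrArg Subtype.val h0)
      refine ⟨Projectivization.mk F ⟨v, hp⟩ hv', ?_⟩
      apply Subtype.ext
      show Projectivization.map W.subtype W.injective_subtype (Projectivization.mk F ⟨v, hp⟩ hv') = _
      rw [Projectivization.map_mk]
      rfl

/-- A nonzero subspace of a finite vector space over `F` has `≡ 1 (mod #F)` points. -/
theorem card_pts_mod (W : Submodule F V) (hW : W ≠ ⊥) :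
    ((Nat.card {p : ℙ F V // p.submodule ≤ W} : ℕ) : ZMod (Nat.card F)) = 1 := by
  rw [card_pts_eq]
  have h1 := Projectivization.card F W
  have hq : 1 < Nat.card F := Finite.one_lt_card
  have hcard : Nat.card W = Nat.card F ^ Module.finrank F W := Module.natCard_eq_pow_finrank
  have hpos : 0 < Module.finrank F W := by
    rw [Module.finrank_pos_iff]
    exact (Submodule.nontrivial_iff_ne_bot).mpr hW
  have h2 : ((Nat.card W : ℕ) : ZMod (Nat.card F)) = 0 := by
    rw [hcard, Nat.cast_pow, ZMod.natCast_self, zero_pow hpos.ne']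
  have hWpos : 1 ≤ Nat.card W := Nat.card_pos
  have h3 : ((Nat.card W - 1 : ℕ) : ZMod (Nat.card F)) = -1 := by
    rw [Nat.cast_sub hWpos, h2]; simp
  have h4 : ((Nat.card F - 1 : ℕ) : ZMod (Nat.card F)) = -1 := by
    rw [Nat.cast_sub hq.le, ZMod.natCast_self]; simp
  have h5 := congrArg (fun k : ℕ => (k : ZMod (Nat.card F))) h1
  simp only [Nat.cast_mul] at h5
  rw [h3, h4] at h5
  have h6 : ((Nat.card (ℙ F W) : ℕ) : ZMod (Nat.card F)) = 1 := by
    have : (-1 : ZMod (Nat.card F)) = -((Nat.card (ℙ F W) : ℕ) : ZMod (Nat.card F)) := by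
      rw [h5]; ring
    exact (neg_injective this).symm
  exact h6

/-- Finset form of `card_pts_mod`. -/
theorem card_filter_mod [Fintype (ℙ F V)] (W : Submodule F V)
    [DecidablePred fun p : ℙ F V => p.submodule ≤ W] (hW : W ≠ ⊥) :
    (((Finset.univ.filter fun p : ℙ F V => p.submodule ≤ W).card : ℕ) : ZMod (Nat.card F)) = 1 := by
  rw [← Fintype.card_subtype, ← Nat.card_eq_fintype_card]
  exact card_pts_mod W hW

omit [Finite V] in
/-- A subspace containing the kernel of an additive map to `F × F` is nonzero when `V` is big. -/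
theorem ne_bot_of_ker (W : Submodule F V) (ψ : V →+ F × F) (hker : ∀ v, ψ v = 0 → v ∈ W)
    (hcard : Nat.card F ^ 2 < Nat.card V) : W ≠ ⊥ := by
  intro hbot
  have hinj : Function.Injective ψ := by
    rw [injective_iff_map_eq_zero]
    intro v hv
    have := hker v hv
    rwa [hbot, Submodule.mem_bot] at this
  have h1 := Nat.card_le_card_of_injective ψ hinj
  rw [Nat.card_prod] at h1
  nlinarith [h1, hcard]

end gen

/-- **No sharply 2-transitive set of projective semilinear maps** on `PG(n-1, F)`, `n ≥ 3`. -/
theorem main {F : Type*} [Field F] [Finite F]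
    (n : ℕ) (hn : 3 ≤ n) (S : Set (Equiv.Perm (Projectivization F (Fin n → F))))
    (hS : ∀ s ∈ S, ∃ (σ : F ≃+* F) (f : (Fin n → F) →ₛₗ[(σ : F →+* F)] (Fin n → F))
      (hf : Function.Injective f), ∀ x, s x = Projectivization.map f hf x) :
    ¬ (∀ a b c d : Projectivization F (Fin n → F), a ≠ b → c ≠ d →
        ∃! s, s ∈ S ∧ s a = c ∧ s b = d) := by
  classical
  intro H
  have hq1 : 1 < Nat.card F := Finite.one_lt_card
  letI : Fintype (ℙ F (Fin n → F)) := Fintype.ofFinite _
  let i0 : Fin n := ⟨0, by omega⟩
  let i1 : Fin n := ⟨1, by omega⟩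
  have hi01 : i1 ≠ i0 := by
    intro h
    have := congrArg Fin.val h
    simp [i0, i1] at this
  have hcardV : Nat.card F ^ 2 < Nat.card (Fin n → F) := by
    rw [Nat.card_fun, Nat.card_eq_fintype_card (α := Fin n), Fintype.card_fin]
    exact Nat.pow_lt_pow_right hq1 (by omega)
  -- the hyperplane `x₀ = 0`
  let H0 : Submodule F (Fin n → F) := LinearMap.ker (LinearMap.proj i0 : (Fin n → F) →ₗ[F] F)
  have hH0mem : ∀ v : Fin n → F, v ∈ H0 ↔ v i0 = 0 := by
    intro v
    simp [H0]
  let ev : (Fin n → F) →+ F := Pi.evalAddMonoidHom (fun _ : Fin n => F) i0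
  have hev : ∀ v : Fin n → F, ev v = v i0 := fun v => rfl
  -- the base point
  let e0 : Fin n → F := Pi.single i0 1
  let e1 : Fin n → F := Pi.single i1 1
  have he0 : e0 ≠ 0 := by
    intro h
    have := congrFun h i0
    simp [e0] at this
  have he1 : e1 ≠ 0 := by
    intro h
    have := congrFun h i1
    simp [e1] at this
  let a : ℙ F (Fin n → F) := Projectivization.mk F e0 he0
  let b0 : ℙ F (Fin n → F) := Projectivization.mk F e1 he1
  have hab0 : a ≠ b0 := by
    intro h
    rw [Projectivization.mk_eq_mk_iff] at h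
    obtain ⟨c, hc⟩ := h
    have := congrFun hc i0
    simp [e0, e1, Pi.single_eq_of_ne hi01.symm] at this
  have haH : ¬ a.submodule ≤ H0 := by
    intro h
    rw [Projectivization.submodule_mk, Submodule.span_singleton_le_iff_mem, hH0mem] at h
    simp [e0] at h
  -- finsets
  let Sf : Finset (Equiv.Perm (ℙ F (Fin n → F))) := Finset.univ.filter (· ∈ S)
  let A : Finset (Equiv.Perm (ℙ F (Fin n → F))) := Sf.filter (fun s => s a = a)
  let hp : Finset (ℙ F (Fin n → F)) := Finset.univ.filter (fun p => p.submodule ≤ H0)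
  have hAmem : ∀ s, s ∈ A ↔ s ∈ S ∧ s a = a := by
    intro s
    simp [A, Sf]
  have hpmem : ∀ p, p ∈ hp ↔ p.submodule ≤ H0 := by
    intro p
    simp [hp]
  -- (F1) points of the hyperplane
  have hH0ne : H0 ≠ ⊥ := by
    apply ne_bot_of_ker H0 (AddMonoidHom.prod ev 0) _ hcardV
    intro v hv
    have h1 := congrArg Prod.fst hv
    simp only [AddMonoidHom.prod_apply, Prod.fst_zero] at h1
    exact (hH0mem v).mpr h1
  have hk : ((hp.card : ℕ) : ZMod (Nat.card F)) = 1 := card_filter_mod H0 hH0ne
  -- (F2) all points
  have hv : ((Fintype.card (ℙ F (Fin n → F)) : ℕ) : ZMod (Nat.card F)) = 1 := by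
    have htop : (⊤ : Submodule F (Fin n → F)) ≠ ⊥ := by
      apply ne_bot_of_ker ⊤ 0 _ hcardV
      intro v _
      exact Submodule.mem_top
    have h1 := card_filter_mod (F := F) (⊤ : Submodule F (Fin n → F)) htop
    have h2 : (Finset.univ.filter fun p : ℙ F (Fin n → F) => p.submodule ≤ ⊤) = Finset.univ := by
      ext p; simp
    rw [h2, Finset.card_univ] at h1
    exact h1
  -- (F3) the stabiliser slice
  have hA : A.card + 1 = Fintype.card (ℙ F (Fin n → F)) := by
    have h1 : A.card = (Finset.univ.erase a).card := by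
      apply Finset.card_bij (fun s _ => s b0)
      · intro s hs
        rw [hAmem] at hs
        rw [Finset.mem_erase]
        refine ⟨?_, Finset.mem_univ _⟩
        intro h
        rw [← hs.2] at h
        exact hab0 (s.injective h).symm
      · intro s hs s' hs' hss
        rw [hAmem] at hs hs'
        have hne : a ≠ s b0 := by
          intro h
          have h' : s a = s b0 := by rw [hs.2]; exact h
          exact hab0 (s.injective h')
        exact (H a b0 a (s b0) hab0 hne).unique ⟨hs.1, hs.2, rfl⟩ ⟨hs'.1, hs'.2, hss.symm⟩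
      · intro c hc
        rw [Finset.mem_erase] at hc
        obtain ⟨s, ⟨hs1, hs2, hs3⟩, -⟩ := H a b0 a c hab0 (Ne.symm hc.1)
        exact ⟨s, (hAmem s).mpr ⟨hs1, hs2⟩, hs3⟩
    rw [h1, Finset.card_erase_of_mem (Finset.mem_univ a), Finset.card_univ]
    have : 0 < Fintype.card (ℙ F (Fin n → F)) := Fintype.card_pos_iff.mpr ⟨a⟩
    omega
  have hA0 : ((A.card : ℕ) : ZMod (Nat.card F)) = 0 := by
    have h1 := congrArg (fun k : ℕ => (k : ZMod (Nat.card F))) hA
    simp only [Nat.cast_add, Nat.cast_one] at h1
    rw [hv] at h1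
    have : ((A.card : ℕ) : ZMod (Nat.card F)) + 1 = 0 + 1 := by rw [h1, zero_add]
    exact add_right_cancel this
  -- (F4) double counting
  have hsum : ∑ s ∈ A, (hp.filter (fun b => s b ∈ hp)).card = hp.card * hp.card := by
    have h1 := Finset.sum_card_bipartiteAbove_eq_sum_card_bipartiteBelow
      (s := A) (t := hp) (fun (s : Equiv.Perm (ℙ F (Fin n → F))) (b : ℙ F (Fin n → F)) => s b ∈ hp)
    have h2 : ∀ b ∈ hp, (Finset.bipartiteBelow
        (fun (s : Equiv.Perm (ℙ F (Fin n → F))) (b : ℙ F (Fin n → F)) => s b ∈ hp) A b).card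
          = hp.card := by
      intro b hb
      have hab : a ≠ b := by
        intro h
        rw [hpmem, ← h] at hb
        exact haH hb
      apply Finset.card_bij (fun s _ => s b)
      · intro s hs
        rw [Finset.mem_bipartiteBelow] at hs
        exact hs.2
      · intro s hs s' hs' hss
        rw [Finset.mem_bipartiteBelow, hAmem] at hs hs'
        have hne : a ≠ s b := by
          intro h
          have h3 := hs.2
          rw [hpmem, ← h] at h3
          exact haH h3
        exact (H a b a (s b) hab hne).unique ⟨hs.1.1, hs.1.2, rfl⟩ ⟨hs'.1.1, hs'.1.2, hss.symm⟩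
      · intro c hc
        have hne : a ≠ c := by
          intro h
          rw [hpmem, ← h] at hc
          exact haH hc
        obtain ⟨s, ⟨hs1, hs2, hs3⟩, -⟩ := H a b a c hab hne
        refine ⟨s, ?_, hs3⟩
        rw [Finset.mem_bipartiteBelow, hAmem]
        exact ⟨⟨hs1, hs2⟩, by rw [hs3]; exact hc⟩
    have h3 : ∑ s ∈ A, (hp.filter (fun b => s b ∈ hp)).card
        = ∑ s ∈ A, (Finset.bipartiteAbove
          (fun (s : Equiv.Perm (ℙ F (Fin n → F))) (b : ℙ F (Fin n → F)) => s b ∈ hp) hp s).card := by
      rfl
    rw [h3, h1, Finset.sum_congr rfl h2, Finset.sum_const, smul_eq_mul]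
  -- (F5) each term is `1` modulo `q`
  have hterm : ∀ s ∈ A, (((hp.filter (fun b => s b ∈ hp)).card : ℕ) : ZMod (Nat.card F)) = 1 := by
    intro s hs
    rw [hAmem] at hs
    obtain ⟨σ, f, hf, hsf⟩ := hS s hs.1
    let W : Submodule F (Fin n → F) := H0 ⊓ Submodule.comap f H0
    have hWne : W ≠ ⊥ := by
      apply ne_bot_of_ker W (AddMonoidHom.prod ev (ev.comp f.toAddMonoidHom)) _ hcardV
      intro v hv
      have h1 := congrArg Prod.fst hv
      have h2 := congrArg Prod.snd hv
      simp only [AddMonoidHom.prod_apply, Prod.fst_zero, Prod.snd_zero] at h1 h2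
      refine ⟨?_, ?_⟩
      · show v ∈ H0
        exact (hH0mem v).mpr h1
      · show f v ∈ H0
        exact (hH0mem (f v)).mpr h2
    have hset : hp.filter (fun b => s b ∈ hp)
        = Finset.univ.filter (fun p : ℙ F (Fin n → F) => p.submodule ≤ W) := by
      ext p
      simp only [Finset.mem_filter, Finset.mem_univ, true_and, hpmem]
      rw [hsf p]
      induction p using Projectivization.ind with
      | h v hv =>
        rw [Projectivization.map_mk, Projectivization.submodule_mk, Projectivization.submodule_mk,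
          Submodule.span_singleton_le_iff_mem, Submodule.span_singleton_le_iff_mem,
          Submodule.span_singleton_le_iff_mem]
        exact Iff.rfl
    rw [hset]
    exact card_filter_mod W hWne
  -- conclusion
  have h1 := congrArg (fun k : ℕ => (k : ZMod (Nat.card F))) hsum
  simp only [Nat.cast_sum, Nat.cast_mul] at h1
  rw [Finset.sum_congr rfl hterm, Finset.sum_const, hk] at h1
  simp only [nsmul_eq_mul, mul_one] at h1
  rw [hA0] at h1
  have h2 : ((1 : ℕ) : ZMod (Nat.card F)) = 0 := by
    rw [Nat.cast_one]; exact h1.symm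
  rw [ZMod.natCast_eq_zero_iff] at h2
  have := Nat.le_of_dvd Nat.one_pos h2
  omega

end Cfsg.Agent.H47.SharpTwo
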